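import Mathlib

/-!
# Helper71: definitions and basic block calculus for the tensor-product (class C4) maximality
in `SL_n` (S5637).

Matrices are indexed by `Fin a × Fin b` ("`U ⊗ W`", `U = F^a`, `W = F^b`).  For a matrix `z` on
`U ⊗ W`, a functional `β` on `W` and a vector `w` of `W`, `blk z β w` is the `a × a` matrix
`(1 ⊗ β) z (1 ⊗ w)`.
-/

set_option autoImplicit false

namespace Cfsg.Agent.Helper71.T4

open Matrix
open scoped Kronecker

variable {F : Type*} [Field F] {a b : ℕ}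

/-- The block of `z` at `(β, w)`: the `a × a` matrix `(1 ⊗ β) z (1 ⊗ w)`. -/
def blk (z : Matrix (Fin a × Fin b) (Fin a × Fin b) F) (β w : Fin b → F) :
    Matrix (Fin a) (Fin a) F :=
  Matrix.of fun i j => ∑ k, ∑ l, β k * z (i, k) (j, l) * w l

/-- The pure tensor `u ⊗ w`. -/
def pt (u : Fin a → F) (w : Fin b → F) : Fin a × Fin b → F := fun p => u p.1 * w p.2

/-- `M` contains an element with matrix `Z`. -/
def InM (M : Subgroup (GL (Fin a × Fin b) F)) (Z : Matrix (Fin a × Fin b) (Fin a × Fin b) F) :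
    Prop :=
  ∃ g ∈ M, (g : Matrix (Fin a × Fin b) (Fin a × Fin b) F) = Z

/-- `M` contains every `A ⊗ B` with `det A = det B = 1`. -/
def HasS (M : Subgroup (GL (Fin a × Fin b) F)) : Prop :=
  ∀ (A : Matrix (Fin a) (Fin a) F) (B : Matrix (Fin b) (Fin b) F),
    A.det = 1 → B.det = 1 → InM M (A ⊗ₖ B)

/-- `Z` is a Kronecker product. -/
def IsKron (Z : Matrix (Fin a × Fin b) (Fin a × Fin b) F) : Prop :=
  ∃ (A : Matrix (Fin a) (Fin a) F) (B : Matrix (Fin b) (Fin b) F), Z = A ⊗ₖ B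

/-- `M` contains every element of determinant one. -/
def HasSL (M : Subgroup (GL (Fin a × Fin b) F)) : Prop :=
  ∀ g : GL (Fin a × Fin b) F, (g : Matrix (Fin a × Fin b) (Fin a × Fin b) F).det = 1 → g ∈ M

/-- Every element `1 + C ⊗ (w βᵀ)` of `M` (with `β w = 0`) has `C` scalar. -/
def NS (M : Subgroup (GL (Fin a × Fin b) F)) : Prop :=
  ∀ (C : Matrix (Fin a) (Fin a) F) (w β : Fin b → F), β ⬝ᵥ w = 0 → w ≠ 0 → β ≠ 0 →
    InM M (1 + C ⊗ₖ vecMulVec w β) → ∃ c : F, C = c • (1 : Matrix (Fin a) (Fin a) F)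

theorem blk_apply (z : Matrix (Fin a × Fin b) (Fin a × Fin b) F) (β w : Fin b → F) (i j : Fin a) :
    blk z β w i j = ∑ k, ∑ l, β k * z (i, k) (j, l) * w l := rfl

theorem blk_add_left (z : Matrix (Fin a × Fin b) (Fin a × Fin b) F) (β β' w : Fin b → F) :
    blk z (β + β') w = blk z β w + blk z β' w := by
  ext i j
  simp only [blk_apply, Matrix.add_apply, Pi.add_apply, add_mul, Finset.sum_add_distrib]

theorem blk_smul_left (z : Matrix (Fin a × Fin b) (Fin a × Fin b) F) (c : F) (β w : Fin b → F) :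
    blk z (c • β) w = c • blk z β w := by
  ext i j
  simp only [blk_apply, Matrix.smul_apply, Pi.smul_apply, smul_eq_mul, Finset.mul_sum, mul_assoc]

theorem blk_add_right (z : Matrix (Fin a × Fin b) (Fin a × Fin b) F) (β w w' : Fin b → F) :
    blk z β (w + w') = blk z β w + blk z β w' := by
  ext i j
  simp only [blk_apply, Matrix.add_apply, Pi.add_apply, mul_add, Finset.sum_add_distrib]

theorem blk_smul_right (z : Matrix (Fin a × Fin b) (Fin a × Fin b) F) (c : F) (β w : Fin b → F) :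
    blk z β (c • w) = c • blk z β w := by
  ext i j
  simp only [blk_apply, Matrix.smul_apply, Pi.smul_apply, smul_eq_mul, Finset.mul_sum]
  refine Finset.sum_congr rfl fun k _ => Finset.sum_congr rfl fun l _ => ?_
  ring

theorem blk_zero_left (z : Matrix (Fin a × Fin b) (Fin a × Fin b) F) (w : Fin b → F) :
    blk z 0 w = 0 := by
  ext i j
  simp [blk_apply]

theorem blk_zero_right (z : Matrix (Fin a × Fin b) (Fin a × Fin b) F) (β : Fin b → F) :
    blk z β 0 = 0 := by
  ext i j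
  simp [blk_apply]

theorem blk_neg_left (z : Matrix (Fin a × Fin b) (Fin a × Fin b) F) (β w : Fin b → F) :
    blk z (-β) w = -blk z β w := by
  have := blk_smul_left z (-1) β w
  simpa using this

theorem blk_sub_left (z : Matrix (Fin a × Fin b) (Fin a × Fin b) F) (β β' w : Fin b → F) :
    blk z (β - β') w = blk z β w - blk z β' w := by
  rw [sub_eq_add_neg, blk_add_left, blk_neg_left, sub_eq_add_neg]

theorem blk_neg_right (z : Matrix (Fin a × Fin b) (Fin a × Fin b) F) (β w : Fin b → F) :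
    blk z β (-w) = -blk z β w := by
  have := blk_smul_right z (-1) β w
  simpa using this

theorem blk_sub_right (z : Matrix (Fin a × Fin b) (Fin a × Fin b) F) (β w w' : Fin b → F) :
    blk z β (w - w') = blk z β w - blk z β w' := by
  rw [sub_eq_add_neg, blk_add_right, blk_neg_right, sub_eq_add_neg]

/-- The `(k, l)` block in coordinates. -/
theorem blk_single_single (z : Matrix (Fin a × Fin b) (Fin a × Fin b) F) (k l : Fin b)
    (i j : Fin a) : blk z (Pi.single k 1) (Pi.single l 1) i j = z (i, k) (j, l) := by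
  simp [blk_apply, Pi.single_apply]

theorem blk_single_left (z : Matrix (Fin a × Fin b) (Fin a × Fin b) F) (k : Fin b) (w : Fin b → F)
    (i j : Fin a) : blk z (Pi.single k 1) w i j = ∑ l, z (i, k) (j, l) * w l := by
  simp [blk_apply, Pi.single_apply]

theorem blk_single_right (z : Matrix (Fin a × Fin b) (Fin a × Fin b) F) (β : Fin b → F) (l : Fin b)
    (i j : Fin a) : blk z β (Pi.single l 1) i j = ∑ k, β k * z (i, k) (j, l) := by
  simp [blk_apply, Pi.single_apply]

/-- Expansion of a block along the coordinates of the functional. -/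
theorem blk_sum_left (z : Matrix (Fin a × Fin b) (Fin a × Fin b) F) (β w : Fin b → F) :
    blk z β w = ∑ k, β k • blk z (Pi.single k 1) w := by
  ext i j
  rw [Matrix.sum_apply]
  simp only [Matrix.smul_apply, smul_eq_mul, blk_single_left]
  rw [blk_apply]
  refine Finset.sum_congr rfl fun k _ => ?_
  rw [Finset.mul_sum]
  refine Finset.sum_congr rfl fun l _ => ?_
  ring

/-- Expansion of a block along the coordinates of the vector. -/
theorem blk_sum_right (z : Matrix (Fin a × Fin b) (Fin a × Fin b) F) (β w : Fin b → F) :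
    blk z β w = ∑ l, w l • blk z β (Pi.single l 1) := by
  ext i j
  rw [Matrix.sum_apply]
  simp only [Matrix.smul_apply, smul_eq_mul, blk_single_right]
  rw [blk_apply, Finset.sum_comm]
  refine Finset.sum_congr rfl fun l _ => ?_
  rw [Finset.mul_sum]
  refine Finset.sum_congr rfl fun k _ => ?_
  ring

/-- Blocks of the identity. -/
theorem blk_one (β w : Fin b → F) :
    blk (1 : Matrix (Fin a × Fin b) (Fin a × Fin b) F) β w = (β ⬝ᵥ w) • (1 : Matrix (Fin a) (Fin a) F) := by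
  ext i j
  simp only [blk_apply, Matrix.one_apply, Prod.mk.injEq, Matrix.smul_apply, smul_eq_mul, dotProduct]
  by_cases hij : i = j
  · subst hij
    simp [Finset.sum_mul]
  · simp [hij]

/-- Blocks of a Kronecker product. -/
theorem blk_kron (A : Matrix (Fin a) (Fin a) F) (B : Matrix (Fin b) (Fin b) F) (β w : Fin b → F) :
    blk (A ⊗ₖ B) β w = (β ⬝ᵥ B *ᵥ w) • A := by
  ext i j
  simp only [blk_apply, Matrix.kronecker_apply, Matrix.smul_apply, smul_eq_mul, dotProduct,
    Matrix.mulVec, Finset.mul_sum, Finset.sum_mul]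
  refine Finset.sum_congr rfl fun k _ => Finset.sum_congr rfl fun l _ => ?_
  ring

/-- Block multiplication. -/
theorem blk_mul (z₁ z₂ : Matrix (Fin a × Fin b) (Fin a × Fin b) F) (β w : Fin b → F) :
    blk (z₁ * z₂) β w = ∑ l, blk z₁ β (Pi.single l 1) * blk z₂ (Pi.single l 1) w := by
  ext i j
  rw [Matrix.sum_apply]
  simp only [Matrix.mul_apply, blk_single_left, blk_single_right]
  rw [blk_apply]
  simp only [Matrix.mul_apply, Fintype.sum_prod_type, Finset.mul_sum, Finset.sum_mul]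
  -- LHS: ∑ k, ∑ l, ∑ j', ∑ l', β k * (z₁ (i,k) (j',l') * z₂ (j',l') (j,l)) * w l
  have e1 : ∀ k : Fin b, (∑ l : Fin b, ∑ j' : Fin a, ∑ l' : Fin b,
      β k * (z₁ (i, k) (j', l') * z₂ (j', l') (j, l)) * w l) =
      ∑ l' : Fin b, ∑ j' : Fin a, ∑ l : Fin b,
        β k * z₁ (i, k) (j', l') * (z₂ (j', l') (j, l) * w l) := by
    intro k
    have s1 : (∑ l : Fin b, ∑ j' : Fin a, ∑ l' : Fin b,
        β k * (z₁ (i, k) (j', l') * z₂ (j', l') (j, l)) * w l) =
        ∑ j' : Fin a, ∑ l : Fin b, ∑ l' : Fin b,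
          β k * (z₁ (i, k) (j', l') * z₂ (j', l') (j, l)) * w l := Finset.sum_comm
    have s2 : ∀ j' : Fin a, (∑ l : Fin b, ∑ l' : Fin b,
        β k * (z₁ (i, k) (j', l') * z₂ (j', l') (j, l)) * w l) =
        ∑ l' : Fin b, ∑ l : Fin b,
          β k * z₁ (i, k) (j', l') * (z₂ (j', l') (j, l) * w l) := by
      intro j'
      rw [Finset.sum_comm]
      exact Finset.sum_congr rfl fun l' _ => Finset.sum_congr rfl fun l _ => by ring
    have s3 : (∑ j' : Fin a, ∑ l' : Fin b, ∑ l : Fin b,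
        β k * z₁ (i, k) (j', l') * (z₂ (j', l') (j, l) * w l)) =
        ∑ l' : Fin b, ∑ j' : Fin a, ∑ l : Fin b,
          β k * z₁ (i, k) (j', l') * (z₂ (j', l') (j, l) * w l) := Finset.sum_comm
    rw [s1, Fintype.sum_congr _ _ s2, s3]
  have e2 := Finset.sum_congr (rfl : (Finset.univ : Finset (Fin b)) = Finset.univ)
    (fun k _ => e1 k)
  rw [e2, Finset.sum_comm]
  refine Finset.sum_congr rfl fun l' _ => ?_
  rw [Finset.sum_comm]
  refine Finset.sum_congr rfl fun j' _ => ?_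
  rw [Finset.sum_comm]

theorem one_kron_vmv_mul_apply (Z : Matrix (Fin a × Fin b) (Fin a × Fin b) F) (w β : Fin b → F)
    (i : Fin a) (k : Fin b) (q : Fin a × Fin b) :
    (((1 : Matrix (Fin a) (Fin a) F) ⊗ₖ vecMulVec w β) * Z) (i, k) q =
      w k * ∑ k₁, β k₁ * Z (i, k₁) q := by
  simp only [Matrix.mul_apply, Matrix.kronecker_apply, Matrix.one_apply, Matrix.vecMulVec_apply,
    Fintype.sum_prod_type, ite_mul, one_mul, zero_mul, Finset.mul_sum, mul_assoc]
  rw [Finset.sum_eq_single i (fun x _ hx => by simp [Ne.symm hx])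
    (fun h => absurd (Finset.mem_univ _) h)]
  simp

theorem mul_one_kron_vmv_apply (Z : Matrix (Fin a × Fin b) (Fin a × Fin b) F) (w β : Fin b → F)
    (p : Fin a × Fin b) (j : Fin a) (l : Fin b) :
    (Z * ((1 : Matrix (Fin a) (Fin a) F) ⊗ₖ vecMulVec w β)) p (j, l) =
      (∑ l₁, Z p (j, l₁) * w l₁) * β l := by
  simp only [Matrix.mul_apply, Matrix.kronecker_apply, Matrix.one_apply, Matrix.vecMulVec_apply,
    Fintype.sum_prod_type, ite_mul, one_mul, zero_mul, mul_ite, mul_zero, Finset.sum_mul, mul_assoc]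
  rw [Finset.sum_eq_single j (fun x _ hx => by simp [hx])
    (fun h => absurd (Finset.mem_univ _) h)]
  simp

/-- `(1 ⊗ w₁β₁ᵀ) Z (1 ⊗ w₂β₂ᵀ) = blk Z β₁ w₂ ⊗ w₁β₂ᵀ`. -/
theorem kron_vmv_mul (Z : Matrix (Fin a × Fin b) (Fin a × Fin b) F) (w₁ β₁ w₂ β₂ : Fin b → F) :
    ((1 : Matrix (Fin a) (Fin a) F) ⊗ₖ vecMulVec w₁ β₁) * Z *
      ((1 : Matrix (Fin a) (Fin a) F) ⊗ₖ vecMulVec w₂ β₂) = blk Z β₁ w₂ ⊗ₖ vecMulVec w₁ β₂ := by
  ext ⟨i, k⟩ ⟨j, l⟩
  rw [mul_one_kron_vmv_apply]
  simp only [one_kron_vmv_mul_apply, Matrix.kronecker_apply, Matrix.vecMulVec_apply, blk_apply,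
    Finset.sum_mul, Finset.mul_sum]
  rw [Finset.sum_comm]
  refine Finset.sum_congr rfl fun k₁ _ => Finset.sum_congr rfl fun l₁ _ => ?_
  ring

/-- Blocks of `x (1 ⊗ wβᵀ) y`. -/
theorem blk_mul_vmv_mul (x y : Matrix (Fin a × Fin b) (Fin a × Fin b) F) (w β β' w'' : Fin b → F) :
    blk (x * ((1 : Matrix (Fin a) (Fin a) F) ⊗ₖ vecMulVec w β) * y) β' w'' =
      blk x β' w * blk y β w'' := by
  have h1 : ∀ l : Fin b, blk (((1 : Matrix (Fin a) (Fin a) F) ⊗ₖ vecMulVec w β) * y)
      (Pi.single l 1) w'' = w l • blk y β w'' := by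
    intro l
    rw [blk_mul]
    have h2 : ∀ l' : Fin b, blk ((1 : Matrix (Fin a) (Fin a) F) ⊗ₖ vecMulVec w β) (Pi.single l 1)
        (Pi.single l' 1) = (w l * β l') • (1 : Matrix (Fin a) (Fin a) F) := by
      intro l'
      rw [blk_kron]
      congr 1
      simp [Matrix.vecMulVec_mulVec, Matrix.vecMulVec_apply, dotProduct, Pi.single_apply]
    simp only [h2, smul_mul_assoc, one_mul]
    rw [blk_sum_left y β w'', Finset.smul_sum]
    exact Finset.sum_congr rfl fun l' _ => by rw [smul_smul]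
  rw [mul_assoc, blk_mul]
  simp only [h1, mul_smul_comm]
  rw [blk_sum_right x β' w, Finset.sum_mul]
  exact Finset.sum_congr rfl fun l _ => by rw [smul_mul_assoc]

/-- A matrix all of whose coordinate blocks are multiples of one matrix is a Kronecker product. -/
theorem isKron_of_blk (z : Matrix (Fin a × Fin b) (Fin a × Fin b) F) (A : Matrix (Fin a) (Fin a) F)
    (h : ∀ k l : Fin b, ∃ c : F, blk z (Pi.single k 1) (Pi.single l 1) = c • A) : IsKron z := by
  choose c hc using h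
  refine ⟨A, Matrix.of c, ?_⟩
  ext ⟨i, k⟩ ⟨j, l⟩
  rw [← blk_single_single z k l i j, hc k l, Matrix.kronecker_apply]
  simp [mul_comm]

/-- The action on a pure tensor in terms of blocks. -/
theorem mulVec_pt (z : Matrix (Fin a × Fin b) (Fin a × Fin b) F) (u : Fin a → F) (w : Fin b → F)
    (i : Fin a) (k : Fin b) :
    (z *ᵥ pt u w) (i, k) = (blk z (Pi.single k 1) w *ᵥ u) i := by
  simp only [Matrix.mulVec, dotProduct, pt, Fintype.sum_prod_type, blk_single_left, Finset.sum_mul]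
  refine Finset.sum_congr rfl fun j _ => Finset.sum_congr rfl fun l _ => ?_
  ring

/-- A Kronecker product maps pure tensors to pure tensors. -/
theorem kron_mulVec_pt (A : Matrix (Fin a) (Fin a) F) (B : Matrix (Fin b) (Fin b) F)
    (u : Fin a → F) (w : Fin b → F) : (A ⊗ₖ B) *ᵥ pt u w = pt (A *ᵥ u) (B *ᵥ w) := by
  ext ⟨i, k⟩
  rw [mulVec_pt, blk_kron]
  simp only [pt, Matrix.smul_mulVec, Pi.smul_apply, smul_eq_mul, dotProduct_comm]
  simp [dotProduct, Matrix.mulVec, Pi.single_apply, mul_comm]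

/-- In dimension at least 3 there is a non-zero vector orthogonal to two given ones. -/
theorem exists_perp2 (hb : 3 ≤ b) (v₁ v₂ : Fin b → F) :
    ∃ β : Fin b → F, β ≠ 0 ∧ β ⬝ᵥ v₁ = 0 ∧ β ⬝ᵥ v₂ = 0 := by
  let f : (Fin b → F) →ₗ[F] (Fin 2 → F) :=
    { toFun := fun β => ![β ⬝ᵥ v₁, β ⬝ᵥ v₂]
      map_add' := by
        intro x y
        ext i
        fin_cases i <;> simp [add_dotProduct]
      map_smul' := by
        intro c x
        ext i
        fin_cases i <;> simp [smul_dotProduct] }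
  have hk : LinearMap.ker f ≠ ⊥ := by
    apply LinearMap.ker_ne_bot_of_finrank_lt
    simp only [Module.finrank_pi, Fintype.card_fin]
    omega
  obtain ⟨β, hβ, hβ0⟩ := (Submodule.ne_bot_iff _).1 hk
  refine ⟨β, hβ0, ?_, ?_⟩
  · have := congrFun (LinearMap.mem_ker.1 hβ) 0
    simpa [f] using this
  · have := congrFun (LinearMap.mem_ker.1 hβ) 1
    simpa [f] using this

/-- In dimension at least 2 there is a non-zero vector orthogonal to a given one. -/
theorem exists_perp1 (hb : 2 ≤ b) (v : Fin b → F) : ∃ β : Fin b → F, β ≠ 0 ∧ β ⬝ᵥ v = 0 := by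
  let f : (Fin b → F) →ₗ[F] (Fin 1 → F) :=
    { toFun := fun β => ![β ⬝ᵥ v]
      map_add' := by
        intro x y
        ext i
        fin_cases i
        simp [add_dotProduct]
      map_smul' := by
        intro c x
        ext i
        fin_cases i
        simp [smul_dotProduct] }
  have hk : LinearMap.ker f ≠ ⊥ := by
    apply LinearMap.ker_ne_bot_of_finrank_lt
    simp only [Module.finrank_pi, Fintype.card_fin]
    omega
  obtain ⟨β, hβ, hβ0⟩ := (Submodule.ne_bot_iff _).1 hk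
  refine ⟨β, hβ0, ?_⟩
  have := congrFun (LinearMap.mem_ker.1 hβ) 0
  simpa [f] using this

/-- A non-zero vector pairs to `1` with some vector. -/
theorem exists_dot_eq_one (β : Fin b → F) (hβ : β ≠ 0) : ∃ w : Fin b → F, β ⬝ᵥ w = 1 := by
  obtain ⟨k, hk⟩ : ∃ k, β k ≠ 0 := by
    by_contra h
    push Not at h
    exact hβ (funext h)
  refine ⟨Pi.single k (β k)⁻¹, ?_⟩
  simp [dotProduct_single, hk]

theorem det_one_add_vecMulVec (w β : Fin b → F) :
    (1 + vecMulVec w β : Matrix (Fin b) (Fin b) F).det = 1 + β ⬝ᵥ w := by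
  rw [Matrix.vecMulVec_eq (ι := Unit), Matrix.det_one_add_replicateCol_mul_replicateRow]

/-- The root elements `1 ⊗ (1 + w βᵀ)`, `β w = 0`, lie in `M`. -/
theorem root_inM (M : Subgroup (GL (Fin a × Fin b) F)) (hS : HasS M) (w β : Fin b → F)
    (h : β ⬝ᵥ w = 0) :
    InM M (1 + (1 : Matrix (Fin a) (Fin a) F) ⊗ₖ vecMulVec w β) := by
  have h1 := hS 1 (1 + vecMulVec w β) Matrix.det_one (by rw [det_one_add_vecMulVec, h, add_zero])
  rwa [Matrix.kronecker_add, Matrix.one_kronecker_one] at h1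

/-- `(w βᵀ)² = 0` when `β w = 0`. -/
theorem vecMulVec_sq (w β : Fin b → F) (h : β ⬝ᵥ w = 0) :
    vecMulVec w β * vecMulVec w β = 0 := by
  rw [Matrix.vecMulVec_mul_vecMulVec, h, zero_smul]
  ext i j
  simp [Matrix.vecMulVec_apply]

theorem InM.mul {M : Subgroup (GL (Fin a × Fin b) F)}
    {Z₁ Z₂ : Matrix (Fin a × Fin b) (Fin a × Fin b) F} (h₁ : InM M Z₁) (h₂ : InM M Z₂) :
    InM M (Z₁ * Z₂) := by
  obtain ⟨g₁, hg₁, rfl⟩ := h₁
  obtain ⟨g₂, hg₂, rfl⟩ := h₂
  exact ⟨g₁ * g₂, M.mul_mem hg₁ hg₂, rfl⟩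

theorem InM.one (M : Subgroup (GL (Fin a × Fin b) F)) : InM M 1 := ⟨1, M.one_mem, rfl⟩

/-- If `Z ∈ M` and `Z * Z' = 1` then `Z' ∈ M`. -/
theorem InM.inv {M : Subgroup (GL (Fin a × Fin b) F)}
    {Z Z' : Matrix (Fin a × Fin b) (Fin a × Fin b) F} (h : InM M Z) (hZ : Z * Z' = 1) :
    InM M Z' := by
  obtain ⟨g, hg, rfl⟩ := h
  refine ⟨g⁻¹, M.inv_mem hg, ?_⟩
  have h1 : ((g⁻¹ : GL (Fin a × Fin b) F) : Matrix (Fin a × Fin b) (Fin a × Fin b) F) *
      ((g : Matrix (Fin a × Fin b) (Fin a × Fin b) F) * Z') =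
      ((g⁻¹ : GL (Fin a × Fin b) F) : Matrix (Fin a × Fin b) (Fin a × Fin b) F) := by
    rw [hZ, mul_one]
  rw [← mul_assoc, ← Units.val_mul, inv_mul_cancel, Units.val_one, one_mul] at h1
  exact h1.symm

theorem inM_of_mem {M : Subgroup (GL (Fin a × Fin b) F)} {g : GL (Fin a × Fin b) F} (hg : g ∈ M) :
    InM M (g : Matrix (Fin a × Fin b) (Fin a × Fin b) F) := ⟨g, hg, rfl⟩

theorem mem_of_inM {M : Subgroup (GL (Fin a × Fin b) F)} {g : GL (Fin a × Fin b) F}
    (h : InM M (g : Matrix (Fin a × Fin b) (Fin a × Fin b) F)) : g ∈ M := by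
  obtain ⟨g', hg', h'⟩ := h
  rwa [← Units.ext h']

/-- The inverse of a Kronecker product in `GL` is a Kronecker product. -/
theorem isKron_inv (g : GL (Fin a × Fin b) F)
    (h : IsKron ((g⁻¹ : GL (Fin a × Fin b) F) : Matrix (Fin a × Fin b) (Fin a × Fin b) F)) :
    IsKron (g : Matrix (Fin a × Fin b) (Fin a × Fin b) F) := by
  obtain ⟨A, B, hAB⟩ := h
  refine ⟨A⁻¹, B⁻¹, ?_⟩
  rw [← Matrix.inv_kronecker, ← hAB, Matrix.coe_units_inv, inv_inv_of_invertible]

/-- The invertible Kronecker products, as a subgroup of `GL`. -/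
def kronSub (a b : ℕ) (F : Type*) [Field F] : Subgroup (GL (Fin a × Fin b) F) where
  carrier := {g | IsKron (g : Matrix (Fin a × Fin b) (Fin a × Fin b) F)}
  mul_mem' := by
    rintro g h ⟨A, B, hg⟩ ⟨A', B', hh⟩
    exact ⟨A * A', B * B', by rw [Units.val_mul, hg, hh, Matrix.mul_kronecker_mul]⟩
  one_mem' := ⟨1, 1, by rw [Units.val_one, Matrix.one_kronecker_one]⟩
  inv_mem' := by
    intro g hg
    apply isKron_inv g⁻¹
    rw [inv_inv]
    exact hg

theorem mem_kronSub {g : GL (Fin a × Fin b) F} :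
    g ∈ kronSub a b F ↔ IsKron (g : Matrix (Fin a × Fin b) (Fin a × Fin b) F) := Iff.rfl

end Cfsg.Agent.Helper71.T4
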