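import Mathlib
import Cfsg.Agent.Helper71.T4Defs

/-!
# Helper71: definitions for the maximality of the tensor stabiliser `Sp_2(q) ⊗ O_n(q)` in
`Sp_{2n}(q)` (`q` odd, `n ≥ 5`).

Model: `V = F^2 ⊗ F^n`, matrices indexed by `Fin 2 × Fin n` (notation of `Helper71.T4`:
`pt a b` is the pure tensor, `IsKron`, `InM`).  The alternating form on `V` has Gram matrix
`Om S = J2 ⊗ S`, with `S` a symmetric invertible `n × n` matrix (`bl S` is its bilinear form).
-/

set_option autoImplicit false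

namespace Cfsg.Agent.Helper71.SO

open Matrix Cfsg.Agent.Helper71.T4
open scoped Kronecker

variable {F : Type*} [Field F] {n : ℕ}

/-- The standard alternating `2 × 2` matrix. -/
def J2 (F : Type*) [Field F] : Matrix (Fin 2) (Fin 2) F := !![0, 1; -1, 0]

/-- The bilinear form with Gram matrix `S`. -/
def bl (S : Matrix (Fin n) (Fin n) F) (x y : Fin n → F) : F := x ⬝ᵥ S *ᵥ y

/-- The Gram matrix `J2 ⊗ S` of the alternating form on `F^2 ⊗ F^n`. -/
def Om (S : Matrix (Fin n) (Fin n) F) : Matrix (Fin 2 × Fin n) (Fin 2 × Fin n) F := J2 F ⊗ₖ S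

/-- `g` preserves the alternating form `Om S`. -/
def IsSpM (S : Matrix (Fin n) (Fin n) F) (g : Matrix (Fin 2 × Fin n) (Fin 2 × Fin n) F) : Prop :=
  gᵀ * Om S * g = Om S

/-- Every element of `M` preserves `Om S`. -/
def SpLE (S : Matrix (Fin n) (Fin n) F) (M : Subgroup (GL (Fin 2 × Fin n) F)) : Prop :=
  ∀ g ∈ M, IsSpM S (g : Matrix (Fin 2 × Fin n) (Fin 2 × Fin n) F)

/-- `M` contains every Kronecker product `A ⊗ B` preserving `Om S`
(`B` a similarity of `S` with multiplier `μ`, `det A * μ = 1`). -/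
def HasH (S : Matrix (Fin n) (Fin n) F) (M : Subgroup (GL (Fin 2 × Fin n) F)) : Prop :=
  ∀ (A : Matrix (Fin 2) (Fin 2) F) (B : Matrix (Fin n) (Fin n) F) (μ : F),
    Bᵀ * S * B = μ • S → A.det * μ = 1 → InM M (A ⊗ₖ B)

/-- `N_{u,w} : x ↦ bl x w • u - bl x u • w`. -/
def Nuw (S : Matrix (Fin n) (Fin n) F) (u w : Fin n → F) : Matrix (Fin n) (Fin n) F :=
  vecMulVec u (S *ᵥ w) - vecMulVec w (S *ᵥ u)

/-- The root element `r_{u,w} = 1 + N + N^2/2` (`u` singular, `w ⟂ u`). -/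
def ruw (S : Matrix (Fin n) (Fin n) F) (u w : Fin n → F) : Matrix (Fin n) (Fin n) F :=
  1 + Nuw S u w + (2⁻¹ : F) • (Nuw S u w * Nuw S u w)

/-- No element `1 + C ⊗ (u (S u)ᵀ)` with `u` singular and `C ≠ 0` lies in `M`. -/
def NS1 (S : Matrix (Fin n) (Fin n) F) (M : Subgroup (GL (Fin 2 × Fin n) F)) : Prop :=
  ∀ (C : Matrix (Fin 2) (Fin 2) F) (u : Fin n → F), u ≠ 0 → bl S u u = 0 →
    InM M (1 + C ⊗ₖ vecMulVec u (S *ᵥ u)) → C = 0

/-- `M` contains all symplectic transvections centred at pure tensors `a ⊗ u`, `u` singular. -/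
def TvP (S : Matrix (Fin n) (Fin n) F) (M : Subgroup (GL (Fin 2 × Fin n) F)) : Prop :=
  ∀ (a : Fin 2 → F) (u : Fin n → F) (c : F), bl S u u = 0 →
    InM M (1 + c • vecMulVec (pt a u) (Om S *ᵥ pt a u))

end Cfsg.Agent.Helper71.SO
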