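import Mathlib
import Cfsg.Agent.Helper71.T4Defs
import Cfsg.Agent.Helper53.T4N1Core
import Cfsg.Agent.Helper93.T4N2
import Cfsg.Agent.Helper39.T4LX3
import Cfsg.Agent.Helper39.T4LX2
import Cfsg.Agent.Helper39.T4SC

/-!
# Helper71, S5637 pieces N1 and N2 (wrappers around the cores of helper53 and helper93).
-/

set_option autoImplicit false

namespace Cfsg.Agent.Helper71.T4N12

open Matrix Cfsg.Agent.Helper71.T4
open scoped Kronecker

variable {F : Type*} [Field F] {a b : ℕ}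

theorem tvC_of_nonscalar (hb : 3 ≤ b) (hq : 3 ≤ a ∨ ∃ l : F, l ≠ 0 ∧ l ≠ 1)
    (M : Subgroup (GL (Fin a × Fin b) F)) (hS : HasS M)
    (C : Matrix (Fin a) (Fin a) F) (w β : Fin b → F) (h : β ⬝ᵥ w = 0) (hw : w ≠ 0) (hβ : β ≠ 0)
    (hC : InM M (1 + C ⊗ₖ vecMulVec w β))
    (hns : ¬ ∃ c : F, C = c • (1 : Matrix (Fin a) (Fin a) F)) :
    ∀ i j : Fin a, i ≠ j → ∀ c : F, InM M (1 + Matrix.single i j c ⊗ₖ vecMulVec w β) :=
  Cfsg.Agent.Helper53.T4N1.tvC_of_nonscalar_core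
    (fun ha3 X' hconj X hX hns' =>
      Cfsg.Agent.Helper39.T4LX3.lx3 (by rw [Fintype.card_fin]; exact ha3) X' hconj X hX hns')
    (fun X' hconj hs hl X hX hns' => Cfsg.Agent.Helper39.T4LX2.lx2 X' hconj hs hl X hX hns')
    (fun w β hw hβ h μ hμ => Cfsg.Agent.Helper39.T4SC.sc hb w β hw hβ h μ hμ)
    hq M hS C w β h hw hβ hC hns

theorem tvC_all (hb : 3 ≤ b) (M : Subgroup (GL (Fin a × Fin b) F)) (hS : HasS M)
    (w β : Fin b → F) (h : β ⬝ᵥ w = 0) (hw : w ≠ 0) (hβ : β ≠ 0)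
    (hC : ∀ i j : Fin a, i ≠ j → InM M (1 + Matrix.single i j (1 : F) ⊗ₖ vecMulVec w β)) :
    ∀ (i j : Fin a) (k l : Fin b), i ≠ j → k ≠ l → ∀ c : F,
      InM M (Matrix.transvection (i, k) (j, l) c) :=
  Cfsg.Agent.Helper93.T4N2.tvC_all_of_lx3
    (fun X' hconj X hX hns' =>
      Cfsg.Agent.Helper39.T4LX3.lx3 (by rw [Fintype.card_fin]; exact hb) X' hconj X hX hns')
    hb M hS w β h hw hβ hC

end Cfsg.Agent.Helper71.T4N12
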