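import Mathlib
import Cfsg.Agent.Helper71.T4Defs

/-!
# Helper71, S5637 piece S1: the double commutator step.
-/

set_option autoImplicit false

namespace Cfsg.Agent.Helper71.T4S1

open Matrix Cfsg.Agent.Helper71.T4
open scoped Kronecker

variable {F : Type*} [Field F] {a b : ℕ}

theorem comm_id1 {R : Type*} [Ring R] (p q : R) (hpq : p * q = 0) (hp : p * p = 0)
    (hq : q * q = 0) : (1 + p) * (1 + q) * (1 - p) * (1 - q) = 1 - q * p := by
  have e1 : (1 + p) * (1 + q) = 1 + p + q := by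
    rw [add_mul, one_mul, mul_add, mul_one, hpq, add_zero]; abel
  have e2 : (1 + p + q) * (1 - p) = 1 + q - q * p := by
    rw [mul_sub, mul_one, add_mul, add_mul, one_mul, hp]; abel
  have e3 : (1 + q - q * p) * (1 - q) = 1 - q * p := by
    rw [mul_sub, mul_one, sub_mul, add_mul, one_mul, hq, mul_assoc, hpq, mul_zero]; abel
  rw [e1, e2, e3]

theorem comm_id2 {R : Type*} [Ring R] (p q : R) (hqp : q * p = 0) (hp : p * p = 0)
    (hq : q * q = 0) : (1 + p) * (1 + q) * (1 - p) * (1 - q) = 1 + p * q := by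
  have e1 : (1 + p) * (1 + q) = 1 + p + q + p * q := by
    rw [add_mul, one_mul, mul_add, mul_one]; abel
  have e2 : (1 + p + q + p * q) * (1 - p) = 1 + q + p * q := by
    rw [mul_sub, mul_one, add_mul, add_mul, add_mul, one_mul, hp, hqp, mul_assoc, hqp, mul_zero]
    abel
  have e3 : (1 + q + p * q) * (1 - q) = 1 + p * q := by
    rw [mul_sub, mul_one, add_mul, add_mul, one_mul, hq, mul_assoc, hq, mul_zero]; abel
  rw [e1, e2, e3]

theorem one_add_mul_one_sub {R : Type*} [Ring R] (p : R) (hp : p * p = 0) :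
    (1 + p) * (1 - p) = 1 := by
  rw [mul_sub, mul_one, add_mul, one_mul, hp]; abel

theorem rr_sq (w β : Fin b → F) (h : β ⬝ᵥ w = 0) :
    ((1 : Matrix (Fin a) (Fin a) F) ⊗ₖ vecMulVec w β) *
      ((1 : Matrix (Fin a) (Fin a) F) ⊗ₖ vecMulVec w β) = 0 := by
  rw [← Matrix.mul_kronecker_mul, vecMulVec_sq w β h, Matrix.kronecker_zero]

theorem rr_mul (w₁ β₁ w₂ β₂ : Fin b → F) (h : β₁ ⬝ᵥ w₂ = 0) :
    ((1 : Matrix (Fin a) (Fin a) F) ⊗ₖ vecMulVec w₁ β₁) *
      ((1 : Matrix (Fin a) (Fin a) F) ⊗ₖ vecMulVec w₂ β₂) = 0 := by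
  rw [← Matrix.mul_kronecker_mul, Matrix.vecMulVec_mul_vecMulVec, h, zero_smul]
  ext i j
  simp [Matrix.vecMulVec_apply]

theorem comm_step (M : Subgroup (GL (Fin a × Fin b) F)) (hS : HasS M)
    (x : GL (Fin a × Fin b) F) (hx : x ∈ M) (β w' : Fin b → F)
    (h0 : blk ((x⁻¹ : GL (Fin a × Fin b) F) : Matrix (Fin a × Fin b) (Fin a × Fin b) F) β w' = 0)
    (w β' w'' β'' : Fin b → F) (h1 : β ⬝ᵥ w = 0) (h2 : β' ⬝ᵥ w' = 0) (h3 : β'' ⬝ᵥ w' = 0)
    (h4 : β'' ⬝ᵥ w'' = 0) :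
    InM M (1 - (blk (x : Matrix (Fin a × Fin b) (Fin a × Fin b) F) β' w *
      blk ((x⁻¹ : GL (Fin a × Fin b) F) : Matrix (Fin a × Fin b) (Fin a × Fin b) F) β w'') ⊗ₖ
        vecMulVec w' β'') := by
  set X : Matrix (Fin a × Fin b) (Fin a × Fin b) F := (x : Matrix (Fin a × Fin b) (Fin a × Fin b) F)
    with hX
  set Xi : Matrix (Fin a × Fin b) (Fin a × Fin b) F :=
    ((x⁻¹ : GL (Fin a × Fin b) F) : Matrix (Fin a × Fin b) (Fin a × Fin b) F) with hXi
  have hXXi : X * Xi = 1 := by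
    rw [hX, hXi, ← Units.val_mul, mul_inv_cancel, Units.val_one]
  have hXiX : Xi * X = 1 := by
    rw [hX, hXi, ← Units.val_mul, inv_mul_cancel, Units.val_one]
  set R : Matrix (Fin a × Fin b) (Fin a × Fin b) F :=
    (1 : Matrix (Fin a) (Fin a) F) ⊗ₖ vecMulVec w β with hR
  set N1 : Matrix (Fin a × Fin b) (Fin a × Fin b) F := X * R * Xi with hN1
  set N2 : Matrix (Fin a × Fin b) (Fin a × Fin b) F :=
    (1 : Matrix (Fin a) (Fin a) F) ⊗ₖ vecMulVec w' β' with hN2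
  set N4 : Matrix (Fin a × Fin b) (Fin a × Fin b) F :=
    (1 : Matrix (Fin a) (Fin a) F) ⊗ₖ vecMulVec w'' β'' with hN4
  have hRR : R * R = 0 := rr_sq w β h1
  have hN1sq : N1 * N1 = 0 := by
    calc N1 * N1 = X * R * (Xi * X) * R * Xi := by simp only [hN1, mul_assoc]
      _ = X * (R * R) * Xi := by rw [hXiX]; simp only [mul_assoc, mul_one]
      _ = 0 := by rw [hRR]; simp
  have hN2sq : N2 * N2 = 0 := rr_sq w' β' h2
  have hN4sq : N4 * N4 = 0 := rr_sq w'' β'' h4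
  have hN12 : N1 * N2 = 0 := by
    have := kron_vmv_mul Xi w β w' β'
    rw [h0, Matrix.zero_kronecker] at this
    calc N1 * N2 = X * (R * Xi * N2) := by simp only [hN1, mul_assoc]
      _ = 0 := by rw [hR, hN2, this, mul_zero]
  have hN42 : N4 * N2 = 0 := rr_mul w'' β'' w' β' h3
  -- membership
  have m1 : InM M (1 + N1) := by
    have := ((inM_of_mem hx).mul (root_inM M hS w β h1)).mul (inM_of_mem (M.inv_mem hx))
    have e : X * (1 + R) * Xi = 1 + N1 := by
      rw [mul_add, mul_one, add_mul, hXXi]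
    rw [← e]
    exact this
  have m1' : InM M (1 - N1) := m1.inv (one_add_mul_one_sub N1 hN1sq)
  have m2 : InM M (1 + N2) := root_inM M hS w' β' h2
  have m2' : InM M (1 - N2) := m2.inv (one_add_mul_one_sub N2 hN2sq)
  have m4 : InM M (1 + N4) := root_inM M hS w'' β'' h4
  have m4' : InM M (1 - N4) := m4.inv (one_add_mul_one_sub N4 hN4sq)
  set N3 : Matrix (Fin a × Fin b) (Fin a × Fin b) F := -(N2 * N1) with hN3
  have m3 : InM M (1 + N3) := by
    have := ((m1.mul m2).mul m1').mul m2'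
    rw [comm_id1 N1 N2 hN12 hN1sq hN2sq] at this
    rw [hN3, ← sub_eq_add_neg]
    exact this
  have hN3sq : N3 * N3 = 0 := by
    calc N3 * N3 = N2 * (N1 * N2) * N1 := by simp only [hN3, neg_mul, mul_neg, neg_neg, mul_assoc]
      _ = 0 := by rw [hN12]; simp
  have m3' : InM M (1 - N3) := m3.inv (one_add_mul_one_sub N3 hN3sq)
  have hN43 : N4 * N3 = 0 := by
    calc N4 * N3 = -(N4 * N2 * N1) := by simp only [hN3, mul_neg, mul_assoc]
      _ = 0 := by rw [hN42]; simp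
  have m5 := ((m3.mul m4).mul m3').mul m4'
  rw [comm_id2 N3 N4 hN43 hN3sq hN4sq] at m5
  have e5 : N3 * N4 = -((blk X β' w * blk Xi β w'') ⊗ₖ vecMulVec w' β'') := by
    have k1 := kron_vmv_mul (X * R * Xi) w' β' w'' β''
    rw [hR, blk_mul_vmv_mul] at k1
    calc N3 * N4 = -(N2 * (X * R * Xi) * N4) := by simp only [hN3, hN1, neg_mul, mul_assoc]
      _ = _ := by rw [hN2, hN4, hR, k1]
  rw [e5, ← sub_eq_add_neg] at m5
  exact m5

end Cfsg.Agent.Helper71.T4S1
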