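import Mathlib
import Cfsg.Agent.Helper71.T4Defs
import Cfsg.Agent.Helper71.T4S1
import Cfsg.Agent.Helper4.T4ZC2
import Cfsg.Agent.Helper93.T4ZC1

/-!
# Helper71, S5637 piece ZH: a zero block of `x⁻¹` forces the blocks of `x` on `ker β` to be
multiples of one matrix.
-/

set_option autoImplicit false

namespace Cfsg.Agent.Helper71.T4ZH

open Matrix Cfsg.Agent.Helper71.T4
open scoped Kronecker

variable {F : Type*} [Field F] {a b : ℕ}

theorem zero_block_half (ha : 1 ≤ a) (hb : 3 ≤ b) (M : Subgroup (GL (Fin a × Fin b) F))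
    (hS : HasS M) (hNS : NS M) (x : GL (Fin a × Fin b) F) (hx : x ∈ M) (β w' : Fin b → F)
    (hβ : β ≠ 0) (hw' : w' ≠ 0)
    (h0 : blk ((x⁻¹ : GL (Fin a × Fin b) F) : Matrix (Fin a × Fin b) (Fin a × Fin b) F) β w' = 0) :
    ∃ (A : Matrix (Fin a) (Fin a) F) (Λ : (Fin b → F) → (Fin b → F)),
      ∀ w : Fin b → F, β ⬝ᵥ w = 0 → ∀ β' : Fin b → F,
        blk (x : Matrix (Fin a × Fin b) (Fin a × Fin b) F) β' w = (β' ⬝ᵥ Λ w) • A := by
  set X : Matrix (Fin a × Fin b) (Fin a × Fin b) F := (x : Matrix (Fin a × Fin b) (Fin a × Fin b) F)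
    with hX
  set Xi : Matrix (Fin a × Fin b) (Fin a × Fin b) F :=
    ((x⁻¹ : GL (Fin a × Fin b) F) : Matrix (Fin a × Fin b) (Fin a × Fin b) F) with hXi
  have hXXi : X * Xi = 1 := by
    rw [hX, hXi, ← Units.val_mul, mul_inv_cancel, Units.val_one]
  have hXiX : Xi * X = 1 := by
    rw [hX, hXi, ← Units.val_mul, inv_mul_cancel, Units.val_one]
  -- (i) scalar products
  have hi : ∀ w₁ : Fin b → F, w₁ ≠ 0 → blk Xi β w₁ = 0 → ∀ w β' w'' : Fin b → F, β ⬝ᵥ w = 0 →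
      β' ⬝ᵥ w₁ = 0 → ∃ c : F, blk X β' w * blk Xi β w'' = c • (1 : Matrix (Fin a) (Fin a) F) := by
    intro w₁ hw₁ h01 w β' w'' hw hβ'
    obtain ⟨β'', hβ''0, hβ''1, hβ''2⟩ := exists_perp2 hb w₁ w''
    have hm := T4S1.comm_step M hS x hx β w₁ h01 w β' w'' β'' hw hβ' hβ''1 hβ''2
    have hm' : InM M (1 + (-(blk X β' w * blk Xi β w'')) ⊗ₖ vecMulVec w₁ β'') := by
      have hneg : (-(blk X β' w * blk Xi β w'')) ⊗ₖ vecMulVec w₁ β'' =
          -((blk X β' w * blk Xi β w'') ⊗ₖ vecMulVec w₁ β'') := by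
        ext ⟨i, k⟩ ⟨j, l⟩
        simp
      rw [hneg, ← sub_eq_add_neg]
      exact hm
    obtain ⟨c, hc⟩ := hNS _ w₁ β'' hβ''1 hw₁ hβ''0 hm'
    exact ⟨-c, by rw [neg_smul, ← hc, neg_neg]⟩
  -- (ii)
  obtain ⟨B, bt, hB, hbt, hBb⟩ := Cfsg.Agent.Helper4.T4ZC2.zc_core ha hb X Xi hXXi hXiX β w' hβ
    (Cfsg.Agent.Helper93.T4ZC1.zc_nonzero ha hb X Xi hXXi hXiX β w' hβ) (hi w' hw' h0)
  -- (iii)
  have hiii : ∀ w : Fin b → F, β ⬝ᵥ w = 0 → ∀ β' : Fin b → F, ∃ c : F, blk X β' w = c • B⁻¹ := by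
    intro w hw β'
    obtain ⟨w₁, hw₁0, hw₁1, hw₁2⟩ := exists_perp2 hb bt β'
    have h01 : blk Xi β w₁ = 0 := by rw [hBb, dotProduct_comm, hw₁1, zero_smul]
    obtain ⟨w'', hw''⟩ := exists_dot_eq_one bt hbt
    obtain ⟨c, hc⟩ := hi w₁ hw₁0 h01 w β' w'' hw (by rw [dotProduct_comm]; exact hw₁2)
    rw [hBb, hw'', one_smul] at hc
    refine ⟨c, ?_⟩
    have hBu : IsUnit B.det := isUnit_iff_ne_zero.2 hB
    calc blk X β' w = blk X β' w * B * B⁻¹ := by rw [Matrix.mul_nonsing_inv_cancel_right _ _ hBu]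
      _ = c • B⁻¹ := by rw [hc, Matrix.smul_mul, one_mul]
  -- (iv)
  choose! cc hcc using hiii
  refine ⟨B⁻¹, fun w k => cc w (Pi.single k 1), fun w hw β' => ?_⟩
  rw [blk_sum_left X β' w, dotProduct, Finset.sum_smul]
  refine Finset.sum_congr rfl fun k _ => ?_
  rw [hcc w hw, smul_smul]

end Cfsg.Agent.Helper71.T4ZH
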