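import Mathlib
import Cfsg.Agent.Helper71.T4Defs
import Cfsg.Agent.Helper71.T4ZH
import Cfsg.Agent.Helper74.T4GL2

/-!
# Helper71, S5637 piece ZB: an element of `M` whose inverse has a zero block is a Kronecker
product.
-/

set_option autoImplicit false

namespace Cfsg.Agent.Helper71.T4ZB

open Matrix Cfsg.Agent.Helper71.T4
open scoped Kronecker

variable {F : Type*} [Field F] {a b : ℕ}

/-- Two functionals orthogonal to a given vector, together with dual vectors. -/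
theorem exists_dual_pair (hb : 3 ≤ b) (lam : Fin b → F) :
    ∃ β₁ β₂ p₁ p₂ : Fin b → F, β₁ ⬝ᵥ lam = 0 ∧ β₂ ⬝ᵥ lam = 0 ∧ β₁ ⬝ᵥ p₁ = 1 ∧ β₁ ⬝ᵥ p₂ = 0 ∧
      β₂ ⬝ᵥ p₁ = 0 ∧ β₂ ⬝ᵥ p₂ = 1 := by
  classical
  by_cases hl : lam = 0
  · subst hl
    have h01 : (⟨0, by omega⟩ : Fin b) ≠ ⟨1, by omega⟩ := by
      intro h
      simp [Fin.ext_iff] at h
    refine ⟨Pi.single ⟨0, by omega⟩ 1, Pi.single ⟨1, by omega⟩ 1, Pi.single ⟨0, by omega⟩ 1,
      Pi.single ⟨1, by omega⟩ 1, by simp, by simp, by simp, ?_, ?_, by simp⟩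
    · simp [single_dotProduct, Pi.single_apply, h01]
    · simp [single_dotProduct, Pi.single_apply, h01.symm]
  · obtain ⟨k, hk⟩ : ∃ k, lam k ≠ 0 := by
      by_contra h
      push Not at h
      exact hl (funext h)
    have hc : 1 < (Finset.univ.erase k).card := by
      rw [Finset.card_erase_of_mem (Finset.mem_univ k), Finset.card_univ, Fintype.card_fin]
      omega
    obtain ⟨i, hi, j, hj, hij⟩ := Finset.one_lt_card.1 hc
    have hik : i ≠ k := Finset.ne_of_mem_erase hi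
    have hjk : j ≠ k := Finset.ne_of_mem_erase hj
    refine ⟨Pi.single i 1 - (lam i / lam k) • Pi.single k 1,
      Pi.single j 1 - (lam j / lam k) • Pi.single k 1, Pi.single i 1, Pi.single j 1, ?_, ?_, ?_, ?_,
      ?_, ?_⟩
    · simp [sub_dotProduct, smul_dotProduct, single_dotProduct, hk]
    · simp [sub_dotProduct, smul_dotProduct, single_dotProduct, hk]
    · simp [sub_dotProduct, smul_dotProduct, single_dotProduct, Pi.single_apply, hik, hik.symm]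
    · simp [sub_dotProduct, smul_dotProduct, single_dotProduct, Pi.single_apply, hij, hij.symm,
        hjk, hjk.symm]
    · simp [sub_dotProduct, smul_dotProduct, single_dotProduct, Pi.single_apply, hij, hij.symm,
        hik, hik.symm]
    · simp [sub_dotProduct, smul_dotProduct, single_dotProduct, Pi.single_apply, hjk, hjk.symm]

theorem zero_block (ha : 1 ≤ a) (hb : 3 ≤ b) (M : Subgroup (GL (Fin a × Fin b) F))
    (hS : HasS M) (hNS : NS M) (x : GL (Fin a × Fin b) F) (hx : x ∈ M) (β w' : Fin b → F)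
    (hβ : β ≠ 0) (hw' : w' ≠ 0)
    (h0 : blk ((x⁻¹ : GL (Fin a × Fin b) F) : Matrix (Fin a × Fin b) (Fin a × Fin b) F) β w' = 0) :
    IsKron (x : Matrix (Fin a × Fin b) (Fin a × Fin b) F) := by
  obtain ⟨A, Λ, hA⟩ := T4ZH.zero_block_half ha hb M hS hNS x hx β w' hβ hw' h0
  obtain ⟨wa, hwa0, hwa⟩ := exists_perp1 (by omega : 2 ≤ b) β
  rw [dotProduct_comm] at hwa
  obtain ⟨β₁, β₂, p₁, p₂, h1l, h2l, h11, h12, h21, h22⟩ := exists_dual_pair hb (Λ wa)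
  have hβ₁ : β₁ ≠ 0 := by
    rintro rfl
    simp at h11
  have hβ₂ : β₂ ≠ 0 := by
    rintro rfl
    simp at h22
  have hz1 : blk (((x⁻¹)⁻¹ : GL (Fin a × Fin b) F) : Matrix (Fin a × Fin b) (Fin a × Fin b) F)
      β₁ wa = 0 := by
    rw [inv_inv, hA wa hwa β₁, h1l, zero_smul]
  have hz2 : blk (((x⁻¹)⁻¹ : GL (Fin a × Fin b) F) : Matrix (Fin a × Fin b) (Fin a × Fin b) F)
      β₂ wa = 0 := by
    rw [inv_inv, hA wa hwa β₂, h2l, zero_smul]
  obtain ⟨A₁, Λ₁, hA₁⟩ := T4ZH.zero_block_half ha hb M hS hNS x⁻¹ (M.inv_mem hx) β₁ wa hβ₁ hwa0 hz1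
  obtain ⟨A₂, Λ₂, hA₂⟩ := T4ZH.zero_block_half ha hb M hS hNS x⁻¹ (M.inv_mem hx) β₂ wa hβ₂ hwa0 hz2
  obtain ⟨w₀, hw₀, hw₀1, hw₀2⟩ := exists_perp2 hb β₁ β₂
  rw [dotProduct_comm] at hw₀1 hw₀2
  have hdet : ((x⁻¹ : GL (Fin a × Fin b) F) : Matrix (Fin a × Fin b) (Fin a × Fin b) F).det ≠ 0 :=
    ((Matrix.isUnit_iff_isUnit_det _).1 (x⁻¹).isUnit).ne_zero
  exact isKron_inv x (Cfsg.Agent.Helper74.T4GL2.glue2 ha _ hdet β₁ β₂ p₁ p₂ w₀ h11 h12 h21 h22 hw₀ hw₀1 hw₀2 A₁ A₂ Λ₁ Λ₂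
    hA₁ hA₂)

end Cfsg.Agent.Helper71.T4ZB
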