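import Mathlib
import Cfsg.Prelude.Def_GeometricClasses
import Cfsg.Agent.Helper71.T4Defs
import Cfsg.Agent.Helper71.T4N12
import Cfsg.Agent.Helper97.T4N3
import Cfsg.Agent.Helper37.T4K5b
import Cfsg.Agent.Helper66.T4K5a
import Cfsg.Agent.Helper74.T4PP
import Cfsg.Agent.Helper98.T4RED

/-!
# Helper71: the stabiliser of a tensor decomposition `F^n = F^{n₁} ⊗ F^{n₂}`, `2 ≤ n₁ < n₂`,
`(n₁, q) ≠ (2, 2)`, is maximal in `SL_n(F)` (no restriction on `n`).

Assembly of the pieces of CALL S5637: a subgroup `M` of `GL(U ⊗ W)` containing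
`SL(U) ⊗ SL(W)` either consists of Kronecker products or contains `SL(U ⊗ W)`.
-/

set_option autoImplicit false

namespace Cfsg.Agent.Helper71.T4Main

open Matrix Cfsg.Agent.Helper71.T4
open scoped Kronecker

variable {F : Type*} [Field F] {a b : ℕ}

theorem sl_of_nonscalar (ha : 2 ≤ a) (hb : 3 ≤ b) (hq : 3 ≤ a ∨ ∃ l : F, l ≠ 0 ∧ l ≠ 1)
    (M : Subgroup (GL (Fin a × Fin b) F)) (hS : HasS M)
    (C : Matrix (Fin a) (Fin a) F) (w β : Fin b → F) (h : β ⬝ᵥ w = 0) (hw : w ≠ 0) (hβ : β ≠ 0)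
    (hC : InM M (1 + C ⊗ₖ vecMulVec w β))
    (hns : ¬ ∃ c : F, C = c • (1 : Matrix (Fin a) (Fin a) F)) : HasSL M := by
  have h1 := Cfsg.Agent.Helper71.T4N12.tvC_of_nonscalar hb hq M hS C w β h hw hβ hC hns
  have h2 := Cfsg.Agent.Helper71.T4N12.tvC_all hb M hS w β h hw hβ (fun i j hij => h1 i j hij 1)
  exact Cfsg.Agent.Helper97.T4N3.sl_of_tvC ha hb M h2

theorem ns_of_not_sl (ha : 2 ≤ a) (hb : 3 ≤ b) (hq : 3 ≤ a ∨ ∃ l : F, l ≠ 0 ∧ l ≠ 1)
    (M : Subgroup (GL (Fin a × Fin b) F)) (hS : HasS M) (hn : ¬ HasSL M) : NS M := by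
  intro C w β h hw hβ hC
  by_contra hns
  exact hn (sl_of_nonscalar ha hb hq M hS C w β h hw hβ hC hns)

theorem kron_of_pure (hab : a < b) (g : Matrix (Fin a × Fin b) (Fin a × Fin b) F) (hg : g.det ≠ 0)
    (h : ∀ (u : Fin a → F) (w : Fin b → F), ∃ (u' : Fin a → F) (w' : Fin b → F),
      g *ᵥ pt u w = pt u' w') : IsKron g :=
  Cfsg.Agent.Helper37.T4K5b.kron_of_lines g hg
    (fun u hu => Cfsg.Agent.Helper66.T4K5a.pure_line hab g hg h u hu)

/-- A subgroup of `GL(U ⊗ W)` (`2 ≤ dim U < dim W`, and `dim U ≥ 3` or `|F| > 2`) containing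
`SL(U) ⊗ SL(W)` consists of Kronecker products or contains `SL(U ⊗ W)`. -/
theorem kron_or_sl [Finite F] (ha : 2 ≤ a) (hab : a < b) (hq : 3 ≤ a ∨ ∃ l : F, l ≠ 0 ∧ l ≠ 1)
    (M : Subgroup (GL (Fin a × Fin b) F)) (hS : HasS M) :
    (∀ g ∈ M, IsKron (g : Matrix (Fin a × Fin b) (Fin a × Fin b) F)) ∨ HasSL M := by
  by_cases hsl : HasSL M
  · exact Or.inr hsl
  · left
    have hb : 3 ≤ b := by omega
    have hNS := ns_of_not_sl ha hb hq M hS hsl
    intro g hg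
    refine kron_of_pure hab _ ?_
      (fun u w => Cfsg.Agent.Helper74.T4PP.pure_to_pure (by omega) hab hb M hS hNS g hg u w)
    have hdet := (Matrix.isUnit_iff_isUnit_det _).1 g.isUnit
    exact hdet.ne_zero

/-- **Maximality of the tensor-product stabiliser in `SL_n(F)`**, `n = n₁ n₂`, `2 ≤ n₁ < n₂`,
`(n₁, |F|) ≠ (2, 2)`; any `n`. -/
theorem tensor_maximal {F : Type*} [Field F] [Fintype F] (n n₁ n₂ : ℕ) (h1 : 2 ≤ n₁)
    (h12 : n₁ < n₂) (hex : ¬ (n₁ = 2 ∧ Fintype.card F = 2)) (e : Fin n ≃ Fin n₁ × Fin n₂)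
    (P : Matrix.GeneralLinearGroup (Fin n) F) :
    Cfsg.Geo.IsMaximalIn (Cfsg.Geo.specialLinear (Fin n) F)
      (Cfsg.Geo.tensorProductSubgroup n₁ n₂ e P ⊓ Cfsg.Geo.specialLinear (Fin n) F) := by
  classical
  have hq : 3 ≤ n₁ ∨ ∃ l : F, l ≠ 0 ∧ l ≠ 1 := by
    by_cases h3 : 3 ≤ n₁
    · exact Or.inl h3
    · right
      have hn1 : n₁ = 2 := by omega
      have hc : Fintype.card F ≠ 2 := fun h => hex ⟨hn1, h⟩
      have h2 : 1 < Fintype.card F := Fintype.one_lt_card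
      by_contra hcon
      push Not at hcon
      have hsub : (Finset.univ : Finset F) ⊆ {0, 1} := by
        intro l _
        by_cases hl0 : l = 0
        · simp [hl0]
        · simp [hcon l hl0]
      have := Finset.card_le_card hsub
      have h2' : ({0, 1} : Finset F).card ≤ 2 := Finset.card_le_two
      rw [Finset.card_univ] at this
      omega
  exact Cfsg.Agent.Helper98.T4RED.red n n₁ n₂ h1 h12 e P (fun M hS => kron_or_sl h1 h12 hq M hS)

end Cfsg.Agent.Helper71.T4Main
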