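import Mathlib
import Cfsg.Agent.Helper71.SODefs

/-!
# Helper71: definitions for the maximality of the tensor stabiliser `Sp_m(q) ⊗ O_3(q)` in
`Sp_{3m}(q)` (`q ≥ 5` odd, `m ≥ 4`).

Model: `V = F^m ⊗ F^n`, matrices indexed by `Fin m × Fin n` (notation of `Helper71.T4`:
`pt a b` is the pure tensor, `IsKron`, `InM`; `bl` of `Helper71.SO` is the bilinear form of a
Gram matrix).  The alternating form on `V` has Gram matrix `OmG J S = J ⊗ S`, with `J` an
alternating invertible `m × m` matrix and `S` a symmetric invertible `n × n` matrix.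
-/

set_option autoImplicit false
set_option linter.unusedVariables false

namespace Cfsg.Agent.Helper71.SQ

open Matrix Cfsg.Agent.Helper71.T4 Cfsg.Agent.Helper71.SO
open scoped Kronecker

variable {F : Type*} [Field F] {m n : ℕ}

/-- The Gram matrix `J ⊗ S` of the alternating form on `F^m ⊗ F^n`. -/
def OmG (J : Matrix (Fin m) (Fin m) F) (S : Matrix (Fin n) (Fin n) F) :
    Matrix (Fin m × Fin n) (Fin m × Fin n) F := J ⊗ₖ S

/-- `g` preserves the alternating form `OmG J S`. -/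
def IsSpG (J : Matrix (Fin m) (Fin m) F) (S : Matrix (Fin n) (Fin n) F)
    (g : Matrix (Fin m × Fin n) (Fin m × Fin n) F) : Prop :=
  gᵀ * OmG J S * g = OmG J S

/-- Every element of `M` preserves `OmG J S`. -/
def SpLEG (J : Matrix (Fin m) (Fin m) F) (S : Matrix (Fin n) (Fin n) F)
    (M : Subgroup (GL (Fin m × Fin n) F)) : Prop :=
  ∀ g ∈ M, IsSpG J S (g : Matrix (Fin m × Fin n) (Fin m × Fin n) F)

/-- `M` contains every Kronecker product `A ⊗ B` preserving `OmG J S`
(`A` a similarity of `J` with multiplier `ν`, `B` a similarity of `S` with multiplier `μ`,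
`ν * μ = 1`). -/
def HasHG (J : Matrix (Fin m) (Fin m) F) (S : Matrix (Fin n) (Fin n) F)
    (M : Subgroup (GL (Fin m × Fin n) F)) : Prop :=
  ∀ (A : Matrix (Fin m) (Fin m) F) (B : Matrix (Fin n) (Fin n) F) (ν μ : F),
    Aᵀ * J * A = ν • J → Bᵀ * S * B = μ • S → ν * μ = 1 → InM M (A ⊗ₖ B)

/-- The transvection `t_a(c) : x ↦ x + c * bl J x a • a`. -/
def Tac (J : Matrix (Fin m) (Fin m) F) (a : Fin m → F) (c : F) : Matrix (Fin m) (Fin m) F :=
  1 + c • vecMulVec a (J *ᵥ a)

/-- The element `e_{a,y} : x ↦ x + bl J x a • y + bl J x y • a` (`y ⟂ a`). -/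
def Eay (J : Matrix (Fin m) (Fin m) F) (a y : Fin m → F) : Matrix (Fin m) (Fin m) F :=
  1 + vecMulVec y (J *ᵥ a) + vecMulVec a (J *ᵥ y)

/-- Every element `1 + (a (J a)ᵀ) ⊗ D` of `M` (`a ≠ 0`) has `D` scalar. -/
def NS2 (J : Matrix (Fin m) (Fin m) F) (S : Matrix (Fin n) (Fin n) F)
    (M : Subgroup (GL (Fin m × Fin n) F)) : Prop :=
  ∀ (D : Matrix (Fin n) (Fin n) F) (a : Fin m → F), a ≠ 0 →
    InM M (1 + vecMulVec a (J *ᵥ a) ⊗ₖ D) → ∃ c : F, D = c • (1 : Matrix (Fin n) (Fin n) F)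

/-- `M` contains all symplectic transvections centred at pure tensors `a ⊗ u`, `u` singular. -/
def TvPG (J : Matrix (Fin m) (Fin m) F) (S : Matrix (Fin n) (Fin n) F)
    (M : Subgroup (GL (Fin m × Fin n) F)) : Prop :=
  ∀ (a : Fin m → F) (u : Fin n → F) (c : F), bl S u u = 0 →
    InM M (1 + c • vecMulVec (pt a u) (OmG J S *ᵥ pt a u))

end Cfsg.Agent.Helper71.SQ
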