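import Mathlib
import Cfsg.Agent.Helper71.SQDefs

/-!
# Helper71: definitions for the maximality of the tensor stabiliser `Sp_m(q) ⊗ O_n(q)` in
`Sp_{mn}(q)` (`q` odd, `m ≥ 4`, `n ≥ 4`).  Same model as `Helper71.SQDefs`.
-/

set_option autoImplicit false
set_option linter.unusedVariables false

namespace Cfsg.Agent.Helper71.SG

open Matrix Cfsg.Agent.Helper71.T4 Cfsg.Agent.Helper71.SO Cfsg.Agent.Helper71.SQ
open scoped Kronecker

variable {F : Type*} [Field F] {n : ℕ}

/-- The reflection in a non-singular vector `v` of the symmetric form with Gram matrix `S`: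
`x ↦ x - (2 * bl S x v / bl S v v) • v`. -/
def Rf (S : Matrix (Fin n) (Fin n) F) (v : Fin n → F) : Matrix (Fin n) (Fin n) F :=
  1 - (2 / bl S v v) • vecMulVec v (S *ᵥ v)

end Cfsg.Agent.Helper71.SG
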