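import Mathlib
import Cfsg.Prelude.Def_GeometricClasses
import Cfsg.Agent.Helper71.SQDefs
import Cfsg.Agent.Helper71.T4Main
import Cfsg.Agent.Helper76.T4SY
import Cfsg.Agent.Helper11.SORT
import Cfsg.Agent.Helper11.SORP
import Cfsg.Agent.Helper11.SOTR
import Cfsg.Agent.Helper96.T5Defs
import Cfsg.Agent.Helper53.SQET
import Cfsg.Agent.Helper51.SQEP
import Cfsg.Agent.Helper53.SQTA
import Cfsg.Agent.Helper4.SQFX
import Cfsg.Agent.Helper47.SQKS
import Cfsg.Agent.Helper29.SQCL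
import Cfsg.Agent.Helper96.SQR1
import Cfsg.Agent.Helper27.SQK3
import Cfsg.Agent.Helper59.SQIB
import Cfsg.Agent.Helper51.SQZA
import Cfsg.Agent.Helper72.SQZB1
import Cfsg.Agent.Helper12.SQZB2
import Cfsg.Agent.Helper73.SQNZ
import Cfsg.Agent.Helper27.SQIP
import Cfsg.Agent.Helper33.SQCN
import Cfsg.Agent.Helper70.SQCO
import Cfsg.Agent.Helper66.SQV1
import Cfsg.Agent.Helper46.SQV3
import Cfsg.Agent.Helper88.SQRED

/-!
# Helper71: `Sp_k(q) ⊗ O_3(q)` is maximal in `Sp_{3k}(q)` (`q ≥ 5` odd, `k ≥ 4`)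

Assembly of CALL S5867: the pieces (see the imports) were proved by other seats; the Sylow step
reuses `Helper76.T4SY.syl_conj`.
-/

set_option autoImplicit false
set_option linter.unusedVariables false
set_option linter.style.haveILetI false

namespace Cfsg.Agent.Helper71.SQMain

open Matrix Cfsg.Agent.Helper71.T4 Cfsg.Agent.Helper71.SO Cfsg.Agent.Helper71.SQ
open scoped Kronecker
open Cfsg.Agent.Helper53.SQET (tac_mulVec eay_mulVec eay_isom tac_eq_eay eroot_inM troot_inM)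
open Cfsg.Agent.Helper51.SQEP (eay_mul troot_pow)
open Cfsg.Agent.Helper53.SQTA (alt_partner alt_partner2 alt_trans)
open Cfsg.Agent.Helper4.SQFX (fix_vec)
open Cfsg.Agent.Helper47.SQKS (kron_of_pure_gt)
open Cfsg.Agent.Helper29.SQCL (quad_image)
open Cfsg.Agent.Helper96.SQR1 (rad_pair)
open Cfsg.Agent.Helper27.SQK3 (skew3)
open Cfsg.Agent.Helper59.SQIB (rad_struct)
open Cfsg.Agent.Helper51.SQZA (conj_rad)
open Cfsg.Agent.Helper72.SQZB1 (levi_graded)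
open Cfsg.Agent.Helper12.SQZB2 (levi_lift)
open Cfsg.Agent.Helper73.SQNZ (nz_add nz_smul nz_conj nz_sym)
open Cfsg.Agent.Helper27.SQIP (interp5)
open Cfsg.Agent.Helper33.SQCN (conic_nonscalar)
open Cfsg.Agent.Helper70.SQCO (conic_lemma)
open Cfsg.Agent.Helper66.SQV1 (tvp_of_not_ns2)
open Cfsg.Agent.Helper46.SQV3 (centres_all)
open Cfsg.Agent.Helper88.SQRED (red)

variable {F : Type*} [Field F] {m n : ℕ}

/-! ## Assembly (helper71) -/

theorem pt_left_cancel (a : Fin m → F) (ha : a ≠ 0) (x x' : Fin n → F)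
    (h : pt a x = pt a x') : x = x' := by
  obtain ⟨i, hi⟩ := Function.ne_iff.mp ha
  funext k
  have h3 := congrFun h (i, k)
  simp only [pt] at h3
  exact mul_left_cancel₀ hi h3

theorem bl_skew (J : Matrix (Fin m) (Fin m) F) (hJ : Jᵀ = -J) (x y : Fin m → F) :
    bl J y x = -bl J x y := by
  unfold bl
  rw [Matrix.dotProduct_mulVec, ← Matrix.mulVec_transpose, hJ, Matrix.neg_mulVec, neg_dotProduct,
    dotProduct_comm]

theorem bl_self (h2 : (2 : F) ≠ 0) (J : Matrix (Fin m) (Fin m) F) (hJ : Jᵀ = -J)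
    (x : Fin m → F) : bl J x x = 0 := by
  have h := bl_skew J hJ x x
  have h3 : 2 * bl J x x = 0 := by linear_combination h
  exact (mul_eq_zero.mp h3).resolve_left h2

theorem bl_add_r (J : Matrix (Fin m) (Fin m) F) (x y z : Fin m → F) :
    bl J x (y + z) = bl J x y + bl J x z := by
  unfold bl
  rw [Matrix.mulVec_add, dotProduct_add]

theorem bl_smul_r (J : Matrix (Fin m) (Fin m) F) (c : F) (x y : Fin m → F) :
    bl J x (c • y) = c * bl J x y := by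
  unfold bl
  rw [Matrix.mulVec_smul, dotProduct_smul, smul_eq_mul]

theorem bl_smul_l (J : Matrix (Fin m) (Fin m) F) (c : F) (x y : Fin m → F) :
    bl J (c • x) y = c * bl J x y := by
  unfold bl
  rw [smul_dotProduct, smul_eq_mul]

theorem rad_scalar (h2 : (2 : F) ≠ 0) (J : Matrix (Fin m) (Fin m) F) (hJ : Jᵀ = -J)
    (hdetJ : J.det ≠ 0) (S : Matrix (Fin 3) (Fin 3) F) (hS : Sᵀ = S) (hdetS : S.det ≠ 0)
    (M : Subgroup (GL (Fin m × Fin 3) F)) (hSp : SpLEG J S M) (hH : HasHG J S M)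
    (hNS : NS2 J S M) (a : Fin m → F) (ha : a ≠ 0)
    (ρ : GL (Fin m × Fin 3) F) (hρ : ρ ∈ M)
    (h1 : ∀ b : Fin 3 → F, (ρ : Matrix (Fin m × Fin 3) (Fin m × Fin 3) F) *ᵥ pt a b = pt a b)
    (h2' : ∀ (y : Fin m → F) (b : Fin 3 → F), bl J a y = 0 → ∃ b' : Fin 3 → F,
      (ρ : Matrix (Fin m × Fin 3) (Fin m × Fin 3) F) *ᵥ pt y b = pt y b + pt a b')
    (y : Fin m → F) (C : Matrix (Fin 3) (Fin 3) F) (hay : bl J a y = 0)
    (hC : ∀ b : Fin 3 → F,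
      (ρ : Matrix (Fin m × Fin 3) (Fin m × Fin 3) F) *ᵥ pt y b = pt y b + pt a (C *ᵥ b)) :
    ∃ γ : F, C = γ • (1 : Matrix (Fin 3) (Fin 3) F) := by
  by_cases hy : ∃ l : F, y = l • a
  · obtain ⟨l, rfl⟩ := hy
    refine ⟨0, ?_⟩
    rw [zero_smul]
    have hb : ∀ b : Fin 3 → F, C *ᵥ b = 0 := by
      intro b
      have h3 := hC b
      rw [Cfsg.Agent.Helper96.T5.pt_smul_left, Matrix.mulVec_smul, h1] at h3
      have h4 : pt a (C *ᵥ b) = pt a (0 : Fin 3 → F) := by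
        rw [Cfsg.Agent.Helper96.T5.pt_zero_right]
        exact (add_eq_left.mp h3.symm)
      exact pt_left_cancel a ha _ _ h4
    ext i j
    have h3 := congrFun (hb (Pi.single j 1)) i
    simpa using h3
  · push Not at hy
    obtain ⟨⟨a₁, haa₁, hya₁⟩, ⟨y', hay', hyy'⟩⟩ := alt_partner2 h2 J hJ hdetJ a y ha hay hy
    have step : ∀ (σ : GL (Fin m × Fin 3) F), σ ∈ M →
        (∀ b : Fin 3 → F, (σ : Matrix (Fin m × Fin 3) (Fin m × Fin 3) F) *ᵥ pt a b = pt a b) →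
        (∀ (y : Fin m → F) (b : Fin 3 → F), bl J a y = 0 → ∃ b' : Fin 3 → F,
          (σ : Matrix (Fin m × Fin 3) (Fin m × Fin 3) F) *ᵥ pt y b = pt y b + pt a b') →
        ∀ Cσ : Matrix (Fin 3) (Fin 3) F, (∀ b : Fin 3 → F,
          (σ : Matrix (Fin m × Fin 3) (Fin m × Fin 3) F) *ᵥ pt y b = pt y b + pt a (Cσ *ᵥ b)) →
        ∃ l : F, Cσ * S⁻¹ * Cσᵀ * S = l • (1 : Matrix (Fin 3) (Fin 3) F) := by
      intro σ hσ h1σ h2σ Cσ hCσ
      obtain ⟨t, htM, ht⟩ := troot_inM h2 J hJ S M hH y 1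
      obtain ⟨t', ht'M, ht'⟩ := troot_inM h2 J hJ S M hH y (-1)
      have hR := rad_pair h2 J hJ hdetJ S hS hdetS a a₁ y ha haa₁ hay hya₁
        (σ : Matrix (Fin m × Fin 3) (Fin m × Fin 3) F)
        ((σ⁻¹ : GL (Fin m × Fin 3) F) : Matrix (Fin m × Fin 3) (Fin m × Fin 3) F)
        (by rw [← Units.val_mul, mul_inv_cancel, Units.val_one])
        (by rw [← Units.val_mul, inv_mul_cancel, Units.val_one])
        (hSp σ hσ) h1σ h2σ Cσ hCσ 1
      have hin : InM M (1 + vecMulVec a (J *ᵥ a) ⊗ₖ ((-2 * 1 : F) • (Cσ * S⁻¹ * Cσᵀ * S))) := by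
        refine ⟨((t * σ * t') * σ)⁻¹ * (σ * (t * σ * t')),
          M.mul_mem (M.inv_mem (M.mul_mem (M.mul_mem (M.mul_mem htM hσ) ht'M) hσ))
            (M.mul_mem hσ (M.mul_mem (M.mul_mem htM hσ) ht'M)), ?_⟩
        have e1 : ((σ * (t * σ * t') : GL (Fin m × Fin 3) F) :
            Matrix (Fin m × Fin 3) (Fin m × Fin 3) F)
            = (((t * σ * t') * σ : GL (Fin m × Fin 3) F) :
                Matrix (Fin m × Fin 3) (Fin m × Fin 3) F)
              * (1 + vecMulVec a (J *ᵥ a) ⊗ₖ ((-2 * 1 : F) • (Cσ * S⁻¹ * Cσᵀ * S))) := by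
          simp only [Units.val_mul]
          rw [ht, ht']
          exact hR
        rw [Units.val_mul, e1, ← mul_assoc, ← Units.val_mul, inv_mul_cancel, Units.val_one,
          one_mul]
      obtain ⟨l₀, hl₀⟩ := hNS _ a ha hin
      refine ⟨(-2 * 1 : F)⁻¹ * l₀, ?_⟩
      have hne : (-2 * 1 : F) ≠ 0 := by
        rw [mul_one]
        exact neg_ne_zero.mpr h2
      rw [← smul_smul, ← hl₀, smul_smul, inv_mul_cancel₀ hne, one_smul]
    obtain ⟨l, hl⟩ := step ρ hρ h1 h2' C hC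
    obtain ⟨e, heM, he⟩ := eroot_inM h2 J hJ S M hH a y' hay'
    have hev : ∀ (x : Fin m → F) (b : Fin 3 → F),
        (e : Matrix (Fin m × Fin 3) (Fin m × Fin 3) F) *ᵥ pt x b
          = pt (x + bl J x a • y' + bl J x y' • a) b := by
      intro x b
      rw [he, kron_mulVec_pt, eay_mulVec, Matrix.one_mulVec]
    have hea : ∀ b : Fin 3 → F,
        (e : Matrix (Fin m × Fin 3) (Fin m × Fin 3) F) *ᵥ pt a b = pt a b := by
      intro b
      rw [hev, bl_self h2 J hJ, hay', zero_smul, zero_smul, add_zero, add_zero]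
    have hey : ∀ (y₀ : Fin m → F) (b : Fin 3 → F), bl J a y₀ = 0 →
        (e : Matrix (Fin m × Fin 3) (Fin m × Fin 3) F) *ᵥ pt y₀ b
          = pt y₀ b + bl J y₀ y' • pt a b := by
      intro y₀ b hy₀
      rw [hev, bl_skew J hJ a y₀, hy₀, neg_zero, zero_smul, add_zero,
        Cfsg.Agent.Helper96.T5.pt_add_left, Cfsg.Agent.Helper96.T5.pt_smul_left]
    obtain ⟨l', hl'⟩ := step (ρ * e) (M.mul_mem hρ heM)
      (by
        intro b
        rw [Units.val_mul, ← Matrix.mulVec_mulVec, hea, h1])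
      (by
        intro y₀ b hy₀
        obtain ⟨b', hb'⟩ := h2' y₀ b hy₀
        refine ⟨b' + bl J y₀ y' • b, ?_⟩
        rw [Units.val_mul, ← Matrix.mulVec_mulVec, hey y₀ b hy₀, Matrix.mulVec_add,
          Matrix.mulVec_smul, hb', h1, Cfsg.Agent.Helper96.T5.pt_add_right,
          Cfsg.Agent.Helper96.T5.pt_smul_right, add_assoc])
      (C + 1)
      (by
        intro b
        rw [Units.val_mul, ← Matrix.mulVec_mulVec, hey y b hay, Matrix.mulVec_add,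
          Matrix.mulVec_smul, hC, h1, hyy', one_smul, Matrix.add_mulVec, Matrix.one_mulVec,
          Cfsg.Agent.Helper96.T5.pt_add_right, add_assoc])
    exact skew3 h2 S hS hdetS C l l' hl hl'

theorem rad_kron (h2 : (2 : F) ≠ 0) (J : Matrix (Fin m) (Fin m) F) (hJ : Jᵀ = -J)
    (hdetJ : J.det ≠ 0) (S : Matrix (Fin 3) (Fin 3) F) (hS : Sᵀ = S) (hdetS : S.det ≠ 0)
    (M : Subgroup (GL (Fin m × Fin 3) F)) (hSp : SpLEG J S M) (hH : HasHG J S M)
    (hNS : NS2 J S M) (a : Fin m → F) (ha : a ≠ 0)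
    (ρ : GL (Fin m × Fin 3) F) (hρ : ρ ∈ M)
    (h1 : ∀ b : Fin 3 → F, (ρ : Matrix (Fin m × Fin 3) (Fin m × Fin 3) F) *ᵥ pt a b = pt a b)
    (h2' : ∀ (y : Fin m → F) (b : Fin 3 → F), bl J a y = 0 → ∃ b' : Fin 3 → F,
      (ρ : Matrix (Fin m × Fin 3) (Fin m × Fin 3) F) *ᵥ pt y b = pt y b + pt a b') :
    ∃ y₀ : Fin m → F, bl J a y₀ = 0 ∧ (ρ : Matrix (Fin m × Fin 3) (Fin m × Fin 3) F)
      = Eay J a y₀ ⊗ₖ (1 : Matrix (Fin 3) (Fin 3) F) := by
  have hsc := fun y C hay hC =>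
    rad_scalar h2 J hJ hdetJ S hS hdetS M hSp hH hNS a ha ρ hρ h1 h2' y C hay hC
  obtain ⟨y₀, hy₀, D, hD⟩ := rad_struct h2 J hJ hdetJ S hS hdetS a ha _ (hSp ρ hρ) h1 h2' hsc
  obtain ⟨τ, hτM, hτ⟩ := eroot_inM h2 J hJ S M hH a y₀ hy₀
  have hin : InM M (1 + vecMulVec a (J *ᵥ a) ⊗ₖ D) := by
    refine ⟨τ⁻¹ * ρ, M.mul_mem (M.inv_mem hτM) hρ, ?_⟩
    rw [Units.val_mul, hD, ← hτ, ← mul_assoc, ← Units.val_mul, inv_mul_cancel, Units.val_one,
      one_mul]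
  obtain ⟨d, hd⟩ := hNS D a ha hin
  have haa : bl J a a = 0 := bl_self h2 J hJ a
  have hay2 : bl J a ((2⁻¹ * d) • a) = 0 := by rw [bl_smul_r, haa, mul_zero]
  refine ⟨y₀ + (2⁻¹ * d) • a, ?_, ?_⟩
  · rw [bl_add_r, hy₀, hay2, add_zero]
  · have e1 : (1 : Matrix (Fin m × Fin 3) (Fin m × Fin 3) F)
        + vecMulVec a (J *ᵥ a) ⊗ₖ (d • (1 : Matrix (Fin 3) (Fin 3) F))
        = Tac J a d ⊗ₖ (1 : Matrix (Fin 3) (Fin 3) F) := by
      unfold Tac
      rw [Matrix.add_kronecker, Matrix.one_kronecker_one, Matrix.kronecker_smul,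
        Matrix.smul_kronecker]
    rw [hD, hd, e1, ← Matrix.mul_kronecker_mul, Matrix.mul_one, tac_eq_eay h2,
      eay_mul h2 J hJ a y₀ _ hy₀ hay2, bl_smul_l, hy₀, mul_zero, mul_zero, zero_smul, add_zero]

theorem zb0 (h2 : (2 : F) ≠ 0) (J : Matrix (Fin m) (Fin m) F) (hJ : Jᵀ = -J)
    (hdetJ : J.det ≠ 0) (S : Matrix (Fin 3) (Fin 3) F) (hS : Sᵀ = S) (hdetS : S.det ≠ 0)
    (M : Subgroup (GL (Fin m × Fin 3) F)) (hSp : SpLEG J S M) (hH : HasHG J S M)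
    (hNS : NS2 J S M) (a : Fin m → F) (ha : a ≠ 0)
    (k : GL (Fin m × Fin 3) F) (hk : k ∈ M)
    (hka : ∀ b : Fin 3 → F, ∃ b' : Fin 3 → F,
      (k : Matrix (Fin m × Fin 3) (Fin m × Fin 3) F) *ᵥ pt a b = pt a b') :
    IsKron (k : Matrix (Fin m × Fin 3) (Fin m × Fin 3) F) := by
  obtain ⟨a₁, haa₁⟩ := alt_partner J hdetJ a ha
  have hrad := fun ρ hρ h1 h2' =>
    rad_kron h2 J hJ hdetJ S hS hdetS M hSp hH hNS a ha ρ hρ h1 h2'
  have hconj := fun y hay => conj_rad h2 J hJ hdetJ S hS hdetS M hSp hH a ha hrad k hk hka y hay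
  have hkdet : (k : Matrix (Fin m × Fin 3) (Fin m × Fin 3) F).det ≠ 0 :=
    ((Matrix.isUnit_iff_isUnit_det _).1 k.isUnit).ne_zero
  obtain ⟨B, A₁, μ, ν, hνμ, hB, hk0, hk1, hk2, hk3⟩ :=
    levi_graded (by norm_num) h2 J hJ hdetJ S hS hdetS a a₁ ha haa₁ _ hkdet (hSp k hk) hka hconj
  obtain ⟨A, ρ, hA, hkρ, hρ1, hρ2⟩ :=
    levi_lift (by norm_num) h2 J hJ hdetJ S hS hdetS a a₁ ha haa₁ _ B A₁ μ ν hνμ hB hk0 hk1 hk2
      hk3
  obtain ⟨h, hhM, hh⟩ := hH A B ν μ hA hB hνμ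
  have hρeq : ((h⁻¹ * k : GL (Fin m × Fin 3) F) : Matrix (Fin m × Fin 3) (Fin m × Fin 3) F)
      = ρ := by
    rw [Units.val_mul, hkρ, ← hh, ← mul_assoc, ← Units.val_mul, inv_mul_cancel, Units.val_one,
      one_mul]
  obtain ⟨y₀, -, hy₀⟩ := hrad (h⁻¹ * k) (M.mul_mem (M.inv_mem hhM) hk)
    (by rw [hρeq]; exact hρ1) (by rw [hρeq]; exact hρ2)
  rw [hρeq] at hy₀
  refine ⟨A * Eay J a y₀, B * 1, ?_⟩
  rw [hkρ, hy₀, Matrix.mul_kronecker_mul]

theorem rigid (hm : 4 ≤ m) (h2 : (2 : F) ≠ 0) (J : Matrix (Fin m) (Fin m) F) (hJ : Jᵀ = -J)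
    (hdetJ : J.det ≠ 0) (S : Matrix (Fin 3) (Fin 3) F) (hS : Sᵀ = S) (hdetS : S.det ≠ 0)
    (M : Subgroup (GL (Fin m × Fin 3) F)) (hSp : SpLEG J S M) (hH : HasHG J S M)
    (hNS : NS2 J S M) (g : GL (Fin m × Fin 3) F) (hg : g ∈ M) (a : Fin m → F) (ha : a ≠ 0)
    (c : F) (hc : c ≠ 0)
    (hk : IsKron ((g : Matrix (Fin m × Fin 3) (Fin m × Fin 3) F)
      * (Tac J a c ⊗ₖ (1 : Matrix (Fin 3) (Fin 3) F))
      * ((g⁻¹ : GL (Fin m × Fin 3) F) : Matrix (Fin m × Fin 3) (Fin m × Fin 3) F))) :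
    IsKron (g : Matrix (Fin m × Fin 3) (Fin m × Fin 3) F) := by
  have hγ : (g : Matrix (Fin m × Fin 3) (Fin m × Fin 3) F)
      * ((g⁻¹ : GL (Fin m × Fin 3) F) : Matrix (Fin m × Fin 3) (Fin m × Fin 3) F) = 1 := by
    rw [← Units.val_mul, mul_inv_cancel, Units.val_one]
  have hγ' : ((g⁻¹ : GL (Fin m × Fin 3) F) : Matrix (Fin m × Fin 3) (Fin m × Fin 3) F)
      * (g : Matrix (Fin m × Fin 3) (Fin m × Fin 3) F) = 1 := by
    rw [← Units.val_mul, inv_mul_cancel, Units.val_one]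
  obtain ⟨a', ha', himg⟩ := quad_image (by omega) h2 J hJ hdetJ a ha c hc _ _ hγ hγ' hk
  obtain ⟨A, hA, hAa⟩ := alt_trans h2 J hJ hdetJ a a' ha ha'
  obtain ⟨b, hbM, hb⟩ := hH A 1 1 1 (by rw [hA, one_smul])
    (by rw [Matrix.transpose_one, Matrix.one_mul, Matrix.mul_one, one_smul]) (by rw [mul_one])
  have hkk : IsKron ((b * g : GL (Fin m × Fin 3) F) :
      Matrix (Fin m × Fin 3) (Fin m × Fin 3) F) := by
    apply zb0 h2 J hJ hdetJ S hS hdetS M hSp hH hNS a ha (b * g) (M.mul_mem hbM hg)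
    intro x
    obtain ⟨x', hx'⟩ := himg x
    refine ⟨x', ?_⟩
    rw [Units.val_mul, ← Matrix.mulVec_mulVec, hx', hb, kron_mulVec_pt, hAa, Matrix.one_mulVec]
  have hbk : b ∈ kronSub m 3 F := mem_kronSub.mpr ⟨A, 1, hb⟩
  have hbg : b * g ∈ kronSub m 3 F := mem_kronSub.mpr hkk
  have := (kronSub m 3 F).mul_mem ((kronSub m 3 F).inv_mem hbk) hbg
  rw [inv_mul_cancel_left] at this
  exact mem_kronSub.mp this

theorem pure_to_pure [Finite F] (hm : 4 ≤ m) (h2 : (2 : F) ≠ 0) (J : Matrix (Fin m) (Fin m) F)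
    (hJ : Jᵀ = -J) (hdetJ : J.det ≠ 0) (S : Matrix (Fin 3) (Fin 3) F) (hS : Sᵀ = S)
    (hdetS : S.det ≠ 0) (M : Subgroup (GL (Fin m × Fin 3) F)) (hSp : SpLEG J S M)
    (hH : HasHG J S M) (hNS : NS2 J S M) (g : GL (Fin m × Fin 3) F) (hg : g ∈ M)
    (a : Fin m → F) (b : Fin 3 → F) :
    ∃ (a' : Fin m → F) (b' : Fin 3 → F),
      (g : Matrix (Fin m × Fin 3) (Fin m × Fin 3) F) *ᵥ pt a b = pt a' b' := by
  classical
  haveI : Fact (ringChar F).Prime := ⟨CharP.char_is_prime F _⟩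
  obtain ⟨v, hv⟩ : ∃ v : Fin m × Fin 3 → F,
      v = (g : Matrix (Fin m × Fin 3) (Fin m × Fin 3) F) *ᵥ pt a b := ⟨_, rfl⟩
  obtain ⟨a₁, ha₁, hfix₁⟩ := fix_vec (n := 3) (by omega) J hJ v
  obtain ⟨a₂, ha₂, hfix₂⟩ := fix_vec (n := 3) (by omega) J hJ (pt a b)
  obtain ⟨t', ht'M, ht'⟩ := troot_inM h2 J hJ S M hH a₁ 1
  obtain ⟨t'', ht''M, ht''⟩ := troot_inM h2 J hJ S M hH a₂ 1
  let T : Set (GL (Fin m × Fin 3) F) := {t | ∃ (a : Fin m → F) (c : F), a ≠ 0 ∧ c ≠ 0 ∧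
    (t : Matrix (Fin m × Fin 3) (Fin m × Fin 3) F)
      = Tac J a c ⊗ₖ (1 : Matrix (Fin 3) (Fin 3) F)}
  have hTM : ∀ t ∈ T, t ∈ M := by
    rintro t ⟨a, c, -, -, ht⟩
    apply mem_of_inM
    rw [ht]
    exact troot_inM h2 J hJ S M hH a c
  have hTH : ∀ t ∈ T, t ∈ kronSub m 3 F := by
    rintro t ⟨a, c, -, -, ht⟩
    exact mem_kronSub.mpr ⟨Tac J a c, 1, ht⟩
  have hTp : ∀ t ∈ T, t ^ (ringChar F) = 1 := by
    rintro t ⟨a, c, -, -, ht⟩
    exact troot_pow h2 J hJ (ringChar F) a c t ht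
  have hi : ∀ t ∈ T, ∀ g ∈ M, g * t * g⁻¹ ∈ kronSub m 3 F → g ∈ kronSub m 3 F := by
    rintro t ⟨a, c, ha, hc, ht⟩ g hg hgt
    rw [mem_kronSub] at hgt ⊢
    apply rigid hm h2 J hJ hdetJ S hS hdetS M hSp hH hNS g hg a ha c hc
    rw [← ht]
    rw [Units.val_mul, Units.val_mul] at hgt
    exact hgt
  let C : Subgroup (GL (Fin m × Fin 3) F) :=
    { carrier := {c | (c : Matrix (Fin m × Fin 3) (Fin m × Fin 3) F) *ᵥ pt a b = pt a b}
      mul_mem' := by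
        intro c₁ c₂ h₁ h₂
        show ((c₁ * c₂ : GL (Fin m × Fin 3) F) : Matrix (Fin m × Fin 3) (Fin m × Fin 3) F)
          *ᵥ pt a b = pt a b
        have h₁' : (c₁ : Matrix (Fin m × Fin 3) (Fin m × Fin 3) F) *ᵥ pt a b = pt a b := h₁
        have h₂' : (c₂ : Matrix (Fin m × Fin 3) (Fin m × Fin 3) F) *ᵥ pt a b = pt a b := h₂
        rw [Units.val_mul, ← Matrix.mulVec_mulVec, h₂', h₁']
      one_mem' := by
        show ((1 : GL (Fin m × Fin 3) F) : Matrix (Fin m × Fin 3) (Fin m × Fin 3) F)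
          *ᵥ pt a b = pt a b
        rw [Units.val_one, Matrix.one_mulVec]
      inv_mem' := by
        intro c hc
        show ((c⁻¹ : GL (Fin m × Fin 3) F) : Matrix (Fin m × Fin 3) (Fin m × Fin 3) F)
          *ᵥ pt a b = pt a b
        have hc' : (c : Matrix (Fin m × Fin 3) (Fin m × Fin 3) F) *ᵥ pt a b = pt a b := hc
        conv_lhs => rw [← hc']
        rw [Matrix.mulVec_mulVec, ← Units.val_mul, inv_mul_cancel, Units.val_one,
          Matrix.one_mulVec] }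
  have hCmem : ∀ c : GL (Fin m × Fin 3) F, c ∈ C ↔
      (c : Matrix (Fin m × Fin 3) (Fin m × Fin 3) F) *ᵥ pt a b = pt a b := fun c => Iff.rfl
  have h1 : t'' ∈ C := by
    rw [hCmem, ht'']
    exact hfix₂ 1
  have ht'v : (t' : Matrix (Fin m × Fin 3) (Fin m × Fin 3) F) *ᵥ v = v := by
    rw [ht']
    exact hfix₁ 1
  have h2c : g⁻¹ * t' * g ∈ C := by
    rw [hCmem, Units.val_mul, Units.val_mul, ← Matrix.mulVec_mulVec, ← Matrix.mulVec_mulVec,
      ← hv, ht'v, hv, Matrix.mulVec_mulVec, ← Units.val_mul, inv_mul_cancel, Units.val_one,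
      Matrix.one_mulVec]
  obtain ⟨x, hxM, hxC, hxH⟩ := Cfsg.Agent.Helper76.T4SY.syl_conj (ringChar F) M (kronSub m 3 F) T
    hTM hTH hTp hi C g t' t'' hg ⟨a₁, 1, ha₁, one_ne_zero, ht'⟩
    ⟨a₂, 1, ha₂, one_ne_zero, ht''⟩ h1 h2c
  have hgm : g * x⁻¹ ∈ kronSub m 3 F := by
    have h3 := (kronSub m 3 F).inv_mem hxH
    rwa [_root_.mul_inv_rev, inv_inv] at h3
  obtain ⟨A, B, hAB⟩ := mem_kronSub.mp hgm
  refine ⟨A *ᵥ a, B *ᵥ b, ?_⟩
  have hx' : ((x⁻¹ : GL (Fin m × Fin 3) F) : Matrix (Fin m × Fin 3) (Fin m × Fin 3) F)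
      *ᵥ pt a b = pt a b := (hCmem _).mp (C.inv_mem hxC)
  rw [← kron_mulVec_pt, ← hAB, Units.val_mul, ← Matrix.mulVec_mulVec, hx']

/-- The model dichotomy. -/
theorem main [Finite F] (hq : 5 ≤ Nat.card F) (hm : 4 ≤ m) (h2 : (2 : F) ≠ 0)
    (J : Matrix (Fin m) (Fin m) F) (hJ : Jᵀ = -J) (hdetJ : J.det ≠ 0)
    (S : Matrix (Fin 3) (Fin 3) F) (hS : Sᵀ = S) (hdetS : S.det ≠ 0)
    (M : Subgroup (GL (Fin m × Fin 3) F)) (hSp : SpLEG J S M) (hH : HasHG J S M) :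
    (∀ g ∈ M, IsKron (g : Matrix (Fin m × Fin 3) (Fin m × Fin 3) F)) ∨ TvPG J S M := by
  by_cases hNS : NS2 J S M
  · left
    intro g hg
    refine kron_of_pure_gt (by omega) _ ?_
      (fun a b => pure_to_pure hm h2 J hJ hdetJ S hS hdetS M hSp hH hNS g hg a b)
    exact ((Matrix.isUnit_iff_isUnit_det _).1 g.isUnit).ne_zero
  · right
    exact tvp_of_not_ns2 h2 J hJ hdetJ S hS hdetS M hSp hH hNS
      (fun a a' ha ha' => alt_trans h2 J hJ hdetJ a a' ha ha')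
      (fun u u' hu hu' huu hu'u' =>
        Cfsg.Agent.Helper11.SOTR.sing_trans h2 S hS hdetS u u' hu hu' huu hu'u')
      (fun a D D' h h' => nz_add h2 J hJ M a D D' h h')
      (fun a D c ha h => nz_smul h2 J hJ S M hH
        (fun a a' ha ha' => alt_trans h2 J hJ hdetJ a a' ha ha') a ha D h c)
      (fun a D B B' hB hBB' h => nz_conj J S M hH a D B B' hB hBB' h)
      (fun a D ha h => nz_sym h2 J hJ hdetJ S hS a ha D h)
      (fun D hsym hns => conic_nonscalar hq h2 S hS hdetS D hsym hns)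
      (fun U hadd hsmul hconj D hD u hu huu huD =>
        conic_lemma hq h2 S hS hdetS U hadd hsmul hconj
          (fun Dk h => interp5 hq U hadd hsmul Dk h) D hD u hu huu huD)

/-- A non-zero singular vector of a non-degenerate ternary form over a finite field. -/
theorem sing3 [Finite F] (hq : 5 ≤ Nat.card F) (h2 : (2 : F) ≠ 0)
    (S : Matrix (Fin 3) (Fin 3) F) (hS : Sᵀ = S) (hdet : S.det ≠ 0) :
    ∃ u : Fin 3 → F, u ≠ 0 ∧ bl S u u = 0 := by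
  obtain ⟨T, hT⟩ : ∃ T : Matrix (Fin 3) (Fin 3) F, T = Matrix.diagonal ![1, 0, 0] := ⟨_, rfl⟩
  have hTs : Tᵀ = T := by rw [hT, Matrix.diagonal_transpose]
  have hTdet : T.det = 0 := by
    rw [hT, Matrix.det_diagonal, Fin.prod_univ_three]
    simp
  have hSS : S * S⁻¹ = 1 := Matrix.mul_nonsing_inv S (Ne.isUnit hdet)
  obtain ⟨u, hu, huu, -⟩ := conic_nonscalar hq h2 S hS hdet (S⁻¹ * T)
    (by rw [← mul_assoc, hSS, one_mul, hTs])
    (by
      intro c hc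
      have h3 : T = c • S := by
        have h3' : S * (S⁻¹ * T) = S * (c • (1 : Matrix (Fin 3) (Fin 3) F)) := by rw [hc]
        rw [← mul_assoc, hSS, one_mul, Matrix.mul_smul, Matrix.mul_one] at h3'
        exact h3'
      have h4 : c = 0 := by
        have h5 := congrArg Matrix.det h3
        rw [hTdet, Matrix.det_smul, Fintype.card_fin] at h5
        rcases mul_eq_zero.mp h5.symm with h6 | h6
        · exact pow_eq_zero_iff (by norm_num) |>.mp h6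
        · exact absurd h6 hdet
      rw [h4, zero_smul] at h3
      have h7 := congrFun (congrFun h3 0) 0
      rw [hT] at h7
      simp at h7)
  exact ⟨u, hu, huu⟩

/-- **`Sp_k(q) ⊗ O_3(q)` is maximal in `Sp_{3k}(q)`** (`q ≥ 5` odd, `k ≥ 4`). -/
theorem spk3_tensor_max {F : Type*} [Field F] [Fintype F] (m k : ℕ) (hk : 4 ≤ k)
    (hodd : Odd (Fintype.card F)) (hq : 5 ≤ Fintype.card F)
    (e : (Fin m ⊕ Fin m) ≃ Fin k × Fin 3) (P : Matrix.GeneralLinearGroup (Fin m ⊕ Fin m) F)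
    (f₁ : (Fin k → F) → (Fin k → F) → F) (f₂ : (Fin 3 → F) → (Fin 3 → F) → F)
    (h₁ : Cfsg.Geo.IsSymplecticForm f₁) (h₂ : Cfsg.Geo.IsSymmetricForm f₂)
    (hT : Cfsg.Geo.IsTensorFormStructure id (Cfsg.sympForm m F) f₁ f₂ e P) :
    Cfsg.Geo.IsMaximalIn (Cfsg.spGL m F)
      (Cfsg.Geo.tensorProductSubgroup k 3 e P ⊓ Cfsg.spGL m F) := by
  have h2 : (2 : F) ≠ 0 := by
    intro h
    have hch : ringChar F = 2 := by
      have := (CharP.cast_eq_zero_iff F (ringChar F) 2).mp (by exact_mod_cast h)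
      exact (Nat.prime_dvd_prime_iff_eq (CharP.char_is_prime F _) Nat.prime_two).mp this
    have hdvd : ringChar F ∣ Fintype.card F := by
      obtain ⟨k, hk⟩ := FiniteField.card F (ringChar F)
      rw [hk.2]
      exact dvd_pow_self _ (PNat.ne_zero k)
    rw [hch] at hdvd
    exact (Nat.not_even_iff_odd.mpr hodd) (even_iff_two_dvd.mpr hdvd)
  have hq' : 5 ≤ Nat.card F := by rw [Nat.card_eq_fintype_card]; exact hq
  refine red m k 3 (by norm_num) hodd e P f₁ f₂ h₁ h₂ hT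
    (fun J S hJ hdetJ hS hdetS M hSp hH => main hq' hk h2 J hJ hdetJ S hS hdetS M hSp hH) ?_
    (by omega)
  intro J S hJ hdetJ hS hdetS C hC1 hC3
  obtain ⟨s₀, hs₀, hs₀s₀⟩ := sing3 hq' h2 S hS hdetS
  exact centres_all h2 (by norm_num) J hJ hdetJ S hS hdetS s₀ hs₀ hs₀s₀ C hC1 hC3

end Cfsg.Agent.Helper71.SQMain
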