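import Mathlib
import Cfsg.Prelude.Def_GeometricClasses
import Cfsg.Agent.Helper71.QMTen

set_option autoImplicit false
set_option linter.unusedSectionVars false

namespace Cfsg.Agent.Helper71.Q6Comm

open Matrix Cfsg.Agent.Helper93 Cfsg.Agent.Helper94 Cfsg.Agent.Helper98 Cfsg.Geo

variable {ι : Type} [Fintype ι] [DecidableEq ι] {F : Type*} [Field F]
variable {Q Q' : (ι → F) → F}

/-- A commutator of products of two reflections for two forms which is a transvection with
functional proportional to `B(·, a)`. -/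
theorem q6_comm_refl (hQ : IsNondegenerateQuadraticForm Q) (hQ' : IsNondegenerateQuadraticForm Q')
    (a b c d : ι → F) (ha : Q a ≠ 0) (hb : Q b ≠ 0) (hc : Q' c ≠ 0) (hd : Q' d ≠ 0)
    (hca : polB hQ c a = 0) (hda : polB hQ d a = 0) (hcb : polB hQ c b = 0)
    (hdb : polB hQ d b = 0) (hbc' : polB hQ' b c = 0) (hbd' : polB hQ' b d = 0)
    (x : ι → F) :
    ((reflGL hQ a ha * reflGL hQ b hb * (reflGL hQ' c hc * reflGL hQ' d hd) *
        (reflGL hQ b hb * reflGL hQ a ha) * (reflGL hQ' d hd * reflGL hQ' c hc) : GL ι F) :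
        Matrix ι ι F) *ᵥ x = x + qm_cf hQ a x • (qm_cf hQ' d a • d +
          (qm_cf hQ' c a - qm_cf hQ' d a * qm_cf hQ' c d) • c) := by
  have f1 : qm_cf hQ a c = 0 := qm_cf_orth hQ a c hca
  have f2 : qm_cf hQ a d = 0 := qm_cf_orth hQ a d hda
  have f3 : qm_cf hQ b c = 0 := qm_cf_orth hQ b c hcb
  have f4 : qm_cf hQ b d = 0 := qm_cf_orth hQ b d hdb
  have f5 : qm_cf hQ' c b = 0 := qm_cf_orth hQ' c b hbc'
  have f6 : qm_cf hQ' d b = 0 := qm_cf_orth hQ' d b hbd'
  have f7 : qm_cf hQ a a = 2 := qm_cf_self hQ a ha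
  have f8 : qm_cf hQ b b = 2 := qm_cf_self hQ b hb
  have f9 : qm_cf hQ' c c = 2 := qm_cf_self hQ' c hc
  have f10 : qm_cf hQ' d d = 2 := qm_cf_self hQ' d hd
  simp only [Units.val_mul, ← mulVec_mulVec, qm_refl_mulVec, map_sub, map_smul, smul_eq_mul,
    f1, f2, f3, f4, f5, f6, f7, f8, f9, f10, mul_zero, sub_zero]
  module

end Cfsg.Agent.Helper71.Q6Comm
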