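import Mathlib

set_option autoImplicit false

namespace Cfsg.Agent.Helper71

open Subgroup

open scoped commutatorElement

/-- The subgroup of elements commuting with `y` modulo the normal subgroup `K`. -/
def commModSubgroup {G : Type*} [Group G] (K : Subgroup G) [hK : K.Normal] (y : G) :
    Subgroup G where
  carrier := {g | g * y * g⁻¹ * y⁻¹ ∈ K}
  one_mem' := by
    show (1 : G) * y * 1⁻¹ * y⁻¹ ∈ K
    have e : (1 : G) * y * 1⁻¹ * y⁻¹ = 1 := by group
    rw [e]; exact K.one_mem
  mul_mem' := by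
    intro a b ha hb
    show (a * b) * y * (a * b)⁻¹ * y⁻¹ ∈ K
    have e : (a * b) * y * (a * b)⁻¹ * y⁻¹ =
        a * (b * y * b⁻¹ * y⁻¹) * a⁻¹ * (a * y * a⁻¹ * y⁻¹) := by group
    rw [e]
    exact K.mul_mem (hK.conj_mem _ hb a) ha
  inv_mem' := by
    intro a ha
    show a⁻¹ * y * a⁻¹⁻¹ * y⁻¹ ∈ K
    have e : a⁻¹ * y * a⁻¹⁻¹ * y⁻¹ = a⁻¹ * (a * y * a⁻¹ * y⁻¹)⁻¹ * a⁻¹⁻¹ := by group
    rw [e]
    exact hK.conj_mem _ (K.inv_mem ha) a⁻¹

theorem mem_commModSubgroup {G : Type*} [Group G] (K : Subgroup G) [K.Normal] (y g : G) :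
    g ∈ commModSubgroup K y ↔ g * y * g⁻¹ * y⁻¹ ∈ K := Iff.rfl

/-- If the centralizer of `y` has prime index and some element does not commute with `y` modulo
the normal subgroup `K`, then `K` centralizes `y`. -/
theorem le_centralizer_of_index_prime {G : Type*} [Group G] (K : Subgroup G)
    [hK : K.Normal] (y : G) (hy : ((centralizer ({y} : Set G)).index).Prime) (g : G)
    (hg : g * y * g⁻¹ * y⁻¹ ∉ K) : K ≤ centralizer ({y} : Set G) := by
  have hE : centralizer ({y} : Set G) ≤ commModSubgroup K y := by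
    intro e he
    rw [mem_commModSubgroup]
    have h1 : y * e = e * y := mem_centralizer_iff.mp he y rfl
    have e1 : e * y * e⁻¹ * y⁻¹ = 1 := by rw [← h1]; group
    rw [e1]; exact K.one_mem
  have hKT : K ≤ commModSubgroup K y := by
    intro k hk
    rw [mem_commModSubgroup]
    have e1 : k * y * k⁻¹ * y⁻¹ = k * (y * k⁻¹ * y⁻¹) := by group
    rw [e1]
    exact K.mul_mem hk (hK.conj_mem _ (K.inv_mem hk) y)
  have hT : commModSubgroup K y ≠ ⊤ := by
    intro h
    apply hg
    rw [← mem_commModSubgroup, h]; exact mem_top g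
  have h1 := relIndex_mul_index hE
  have h2 : (commModSubgroup K y).index ≠ 1 := fun h => hT (index_eq_one.mp h)
  have h3 : (centralizer ({y} : Set G)).relIndex (commModSubgroup K y) = 1 := by
    have hdvd : (commModSubgroup K y).index ∣ (centralizer ({y} : Set G)).index :=
      Dvd.intro_left _ h1
    rcases (Nat.dvd_prime hy).mp hdvd with h | h
    · exact absurd h h2
    · rw [h] at h1
      have hpos : 0 < (centralizer ({y} : Set G)).index := hy.pos
      exact Nat.eq_of_mul_eq_mul_right hpos (by rw [h1, one_mul])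
  exact hKT.trans (relIndex_eq_one.mp h3)

/-- A finite group all of whose class sizes are `1` or prime and in which some centralizer is
not normal has central quotient a non-abelian group of order `pq`. -/
theorem card_quotient_center_of_nonnormal_centralizer {G : Type*} [Group G] [Finite G]
    (h : ∀ x : G, (centralizer ({x} : Set G)).index = 1 ∨
      ((centralizer ({x} : Set G)).index).Prime)
    (x : G) (hx : ¬ (centralizer ({x} : Set G)).Normal) :
    ∃ p q : ℕ, p.Prime ∧ q.Prime ∧ p ≠ q ∧ Nat.card (G ⧸ center G) = p * q ∧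
      ¬ IsMulCommutative (G ⧸ center G) := by
  obtain ⟨H, hH⟩ : ∃ H : Subgroup G, H = centralizer ({x} : Set G) := ⟨_, rfl⟩
  rw [← hH] at hx
  have hZH : center G ≤ H := by rw [hH]; exact center_le_centralizer _
  obtain ⟨p, hpdef⟩ : ∃ p, p = H.index := ⟨_, rfl⟩
  have hp : p.Prime := by
    rw [hpdef]
    rcases h x with h1 | h1
    · exfalso; apply hx; rw [hH, index_eq_one.mp h1]; infer_instance
    · rw [hH]; exact h1
  have : Fact p.Prime := ⟨hp⟩
  obtain ⟨K, hKdef⟩ : ∃ K : Subgroup G, K = H.normalCore := ⟨_, rfl⟩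
  have hKn : K.Normal := by rw [hKdef]; infer_instance
  have hKH : K ≤ H := by rw [hKdef]; exact normalCore_le H
  have hZK : center G ≤ K := by rw [hKdef]; exact normal_le_normalCore.mpr hZH
  have hKmem : ∀ a, (∀ b : G, b * a * b⁻¹ ∈ H) → a ∈ K := by
    intro a ha; rw [hKdef]; exact ha
  have hprime : ∀ y : G, y ∉ center G → ((centralizer ({y} : Set G)).index).Prime := by
    intro y hy
    rcases h y with h1 | h1
    · exfalso; apply hy
      have h2 := index_eq_one.mp h1
      rw [mem_center_iff]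
      intro g
      have hg : g ∈ centralizer ({y} : Set G) := by rw [h2]; exact mem_top g
      exact (mem_centralizer_iff.mp hg y rfl).symm
    · exact h1
  obtain ⟨h₀, hh₀H, hh₀K⟩ : ∃ h₀ ∈ H, h₀ ∉ K := by
    by_contra hcon
    push Not at hcon
    have hHK : H = K := le_antisymm hcon hKH
    exact hx (hHK ▸ hKn)
  obtain ⟨c, hcH, hcp⟩ : ∃ c : G, c ∉ H ∧ c ^ p ∈ K := by
    have hdvd : p ∣ Nat.card (G ⧸ K) := by
      rw [← index_eq_card, hpdef]; exact index_dvd_of_le hKH
    obtain ⟨cbar, hcbar⟩ := exists_prime_orderOf_dvd_card' p hdvd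
    obtain ⟨c₀, rfl⟩ := QuotientGroup.mk_surjective cbar
    have hc₀K : c₀ ∉ K := by
      intro hc
      have h1 : (c₀ : G ⧸ K) = 1 := (QuotientGroup.eq_one_iff c₀).mpr hc
      rw [h1, orderOf_one] at hcbar
      exact hp.one_lt.ne hcbar
    have hc₀p : c₀ ^ p ∈ K := by
      rw [← QuotientGroup.eq_one_iff, QuotientGroup.mk_pow]
      have h1 := pow_orderOf_eq_one (c₀ : G ⧸ K)
      rw [hcbar] at h1
      exact h1
    have hex : ¬ ∀ b : G, b * c₀ * b⁻¹ ∈ H := fun hall => hc₀K (hKmem c₀ hall)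
    push Not at hex
    obtain ⟨b, hb⟩ := hex
    refine ⟨b * c₀ * b⁻¹, hb, ?_⟩
    rw [conj_pow]
    exact hKn.conj_mem _ hc₀p b
  have hpow : ∀ d : ℕ, 0 < d → d < p → c ^ d ∉ H := by
    intro d hd hdp hmem
    have hcop : Nat.Coprime p d :=
      (Nat.Prime.coprime_iff_not_dvd hp).mpr (Nat.not_dvd_of_pos_of_lt hd hdp)
    obtain ⟨a, b, hab⟩ := Nat.isCoprime_iff_coprime.mpr hcop
    apply hcH
    have e : c = (c ^ p) ^ a * (c ^ d) ^ b := by
      rw [← zpow_natCast c p, ← zpow_natCast c d, ← zpow_mul, ← zpow_mul, ← zpow_add,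
        mul_comm (p : ℤ) a, mul_comm (d : ℤ) b, hab, zpow_one]
    rw [e]
    exact H.mul_mem (H.zpow_mem (hKH hcp) a) (H.zpow_mem hmem b)
  have hinj : ∀ i j : ℕ, i ≤ j → j < p → ∀ u v : G, u ∈ H → v ∈ H →
      c ^ i * u = c ^ j * v → i = j := by
    intro i j hij hjp u v hu hv huv
    by_contra hne
    have hlt : i < j := lt_of_le_of_ne hij hne
    apply hpow (j - i) (by omega) (by omega)
    have e : c ^ (j - i) = u * v⁻¹ := by
      have h1 : c ^ j = c ^ i * c ^ (j - i) := by rw [← pow_add]; congr 1; omega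
      rw [h1, mul_assoc] at huv
      have h2 : u = c ^ (j - i) * v := mul_left_cancel huv
      rw [h2]; group
    rw [e]; exact H.mul_mem hu (H.inv_mem hv)
  have htrans : ∀ g : G, ∃ i : ℕ, i < p ∧ ∃ u ∈ H, g = c ^ i * u := by
    obtain ⟨f, hf⟩ : ∃ f : Fin p × H → G, ∀ t, f t = c ^ (t.1 : ℕ) * (t.2 : G) :=
      ⟨fun t => c ^ (t.1 : ℕ) * (t.2 : G), fun t => rfl⟩
    have hfinj : Function.Injective f := by
      rintro ⟨i, u⟩ ⟨j, v⟩ huv
      rw [hf, hf] at huv
      have huv' : c ^ (i : ℕ) * (u : G) = c ^ (j : ℕ) * (v : G) := huv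
      have hij : (i : ℕ) = j := by
        rcases le_total (i : ℕ) j with hle | hle
        · exact hinj i j hle j.2 u v u.2 v.2 huv'
        · exact (hinj j i hle i.2 v u v.2 u.2 huv'.symm).symm
      have hi : i = j := Fin.ext hij
      subst hi
      have h1 : (u : G) = v := mul_left_cancel huv'
      rw [Subtype.ext h1]
    have hcard : Nat.card (Fin p × H) = Nat.card G := by
      rw [Nat.card_prod, Nat.card_fin, hpdef, mul_comm, Subgroup.card_mul_index]
    have hbij := (Nat.bijective_iff_injective_and_card f).mpr ⟨hfinj, hcard⟩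
    intro g
    obtain ⟨⟨i, u⟩, hiu⟩ := hbij.2 g
    rw [hf] at hiu
    exact ⟨i, i.2, u, u.2, hiu.symm⟩
  have hF2 : ∀ d ∈ H, d * c * d⁻¹ * c⁻¹ ∈ K → d ∈ K := by
    intro d hd hdc
    apply hKmem
    intro b
    obtain ⟨i, -, u, hu, hb⟩ := htrans b⁻¹
    have hcT : c ∈ commModSubgroup K d := by
      rw [mem_commModSubgroup]
      have e : c * d * c⁻¹ * d⁻¹ = (d * c * d⁻¹ * c⁻¹)⁻¹ := by group
      rw [e]; exact K.inv_mem hdc
    have h1 : (c ^ i)⁻¹ ∈ commModSubgroup K d :=
      Subgroup.inv_mem _ (Subgroup.pow_mem _ hcT i)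
    rw [mem_commModSubgroup, inv_inv] at h1
    have h2 : (c ^ i)⁻¹ * d * c ^ i ∈ H := by
      have e : (c ^ i)⁻¹ * d * c ^ i = ((c ^ i)⁻¹ * d * c ^ i * d⁻¹) * d := by group
      rw [e]; exact H.mul_mem (hKH h1) hd
    have hb' : b = u⁻¹ * (c ^ i)⁻¹ := by
      rw [← mul_inv_rev, ← hb, inv_inv]
    have e : b * d * b⁻¹ = u⁻¹ * ((c ^ i)⁻¹ * d * c ^ i) * u := by
      rw [hb, hb']; group
    rw [e]
    exact H.mul_mem (H.mul_mem (H.inv_mem hu) h2) hu
  have hc_not_center : c ∉ center G := fun hc => hcH (hZH hc)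
  have hKc : K ≤ centralizer ({c} : Set G) :=
    le_centralizer_of_index_prime K c (hprime c hc_not_center) h₀
      (fun hk => hh₀K (hF2 h₀ hh₀H hk))
  have hKh : ∀ u ∈ H, u ∉ K → K ≤ centralizer ({u} : Set G) := by
    intro u hu huK
    refine le_centralizer_of_index_prime K u (hprime u (fun hz => huK (hZK hz))) c ?_
    intro hk
    apply huK
    apply hF2 u hu
    have e : u * c * u⁻¹ * c⁻¹ = (c * u * c⁻¹ * u⁻¹)⁻¹ := by group
    rw [e]; exact K.inv_mem hk
  have hKH_comm : ∀ k ∈ K, ∀ u ∈ H, u * k = k * u := by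
    intro k hk u hu
    by_cases huK : u ∈ K
    · have h1 : h₀ * u ∉ K := fun hmem => hh₀K (by
        have h2 := K.mul_mem hmem (K.inv_mem huK)
        rwa [mul_inv_cancel_right] at h2)
      have h2 : h₀ * u * k = k * (h₀ * u) :=
        mem_centralizer_iff.mp (hKh (h₀ * u) (H.mul_mem hh₀H hu) h1 hk) (h₀ * u) rfl
      have h3 : h₀ * k = k * h₀ := mem_centralizer_iff.mp (hKh h₀ hh₀H hh₀K hk) h₀ rfl
      have h4 : h₀ * (u * k) = h₀ * (k * u) := by
        calc h₀ * (u * k) = h₀ * u * k := by rw [mul_assoc]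
          _ = k * (h₀ * u) := h2
          _ = (k * h₀) * u := by rw [mul_assoc]
          _ = (h₀ * k) * u := by rw [h3]
          _ = h₀ * (k * u) := by rw [mul_assoc]
      exact mul_left_cancel h4
    · exact mem_centralizer_iff.mp (hKh u hu huK hk) u rfl
  have hKZ : K ≤ center G := by
    intro k hk
    rw [mem_center_iff]
    intro g
    obtain ⟨i, -, u, hu, rfl⟩ := htrans g
    have hck : Commute c k := mem_centralizer_iff.mp (hKc hk) c rfl
    have hcik : c ^ i * k = k * c ^ i := (hck.pow_left i).eq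
    rw [mul_assoc, hKH_comm k hk u hu, ← mul_assoc, hcik, mul_assoc]
  have hZeq : center G = K := le_antisymm hZK hKZ
  obtain ⟨q, hqdef⟩ : ∃ q, q = (centralizer ({c} : Set G)).index := ⟨_, rfl⟩
  have hq : q.Prime := hqdef ▸ hprime c hc_not_center
  have hcC : ∀ i : ℕ, c ^ i ∈ centralizer ({c} : Set G) := by
    intro i
    apply Subgroup.pow_mem
    rw [mem_centralizer_iff]
    intro y hy
    rw [Set.mem_singleton_iff.mp hy]
  have hcardC : Nat.card (centralizer ({c} : Set G)) = p * Nat.card K := by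
    obtain ⟨f, hf⟩ : ∃ f : Fin p × K → centralizer ({c} : Set G),
        ∀ t, (f t : G) = c ^ (t.1 : ℕ) * (t.2 : G) :=
      ⟨fun t => ⟨c ^ (t.1 : ℕ) * (t.2 : G), Subgroup.mul_mem _ (hcC _) (hKc t.2.2)⟩,
        fun t => rfl⟩
    have hfinj : Function.Injective f := by
      rintro ⟨i, u⟩ ⟨j, v⟩ huv
      have huv' : c ^ (i : ℕ) * (u : G) = c ^ (j : ℕ) * (v : G) := by
        have h1 := congrArg Subtype.val huv
        rw [hf, hf] at h1
        exact h1
      have hij : (i : ℕ) = j := by
        rcases le_total (i : ℕ) j with hle | hle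
        · exact hinj i j hle j.2 u v (hKH u.2) (hKH v.2) huv'
        · exact (hinj j i hle i.2 v u (hKH v.2) (hKH u.2) huv'.symm).symm
      have hi : i = j := Fin.ext hij
      subst hi
      have h1 : (u : G) = v := mul_left_cancel huv'
      rw [Subtype.ext h1]
    have hfsurj : Function.Surjective f := by
      rintro ⟨g, hg⟩
      obtain ⟨i, hi, u, hu, rfl⟩ := htrans g
      have huC : u ∈ centralizer ({c} : Set G) := by
        have h1 := Subgroup.mul_mem _ (Subgroup.inv_mem _ (hcC i)) hg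
        rwa [inv_mul_cancel_left] at h1
      have huK : u ∈ K := by
        apply hF2 u hu
        have h1 : c * u = u * c := mem_centralizer_iff.mp huC c rfl
        have e : u * c * u⁻¹ * c⁻¹ = 1 := by rw [← h1]; group
        rw [e]; exact K.one_mem
      refine ⟨(⟨i, hi⟩, ⟨u, huK⟩), ?_⟩
      apply Subtype.ext
      rw [hf]
    have h1 := Nat.card_congr (Equiv.ofBijective f ⟨hfinj, hfsurj⟩)
    rw [← h1, Nat.card_prod, Nat.card_fin]
  have hindex : K.index = p * q := by
    have h1 := Subgroup.card_mul_index K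
    have h2 := Subgroup.card_mul_index (centralizer ({c} : Set G))
    rw [hcardC, ← hqdef] at h2
    have hKpos : 0 < Nat.card K := Nat.card_pos
    apply Nat.eq_of_mul_eq_mul_left hKpos
    rw [h1, ← h2]; ring
  have hcardQ : Nat.card (G ⧸ center G) = p * q := by
    rw [← index_eq_card, hZeq, hindex]
  have hnc : ¬ IsMulCommutative (G ⧸ center G) := by
    intro hcomm
    apply hx
    constructor
    intro n hn g
    have h1 : (g : G ⧸ center G) * (n : G ⧸ center G) = n * g := hcomm.is_comm.comm _ _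
    have h2 : g * n * g⁻¹ * n⁻¹ ∈ center G := by
      rw [← QuotientGroup.eq_one_iff]
      simp only [QuotientGroup.mk_mul, QuotientGroup.mk_inv]
      rw [h1]; group
    have e : g * n * g⁻¹ = (g * n * g⁻¹ * n⁻¹) * n := by group
    rw [e]; exact H.mul_mem (hZH h2) hn
  have hpq : p ≠ q := by
    intro hpq
    apply hnc
    rw [← hpq] at hcardQ
    exact IsPGroup.isMulCommutative_of_card_eq_prime_sq (p := p) (by rw [hcardQ, pow_two])
  exact ⟨p, q, hp, hq, hpq, hcardQ, hnc⟩

/-- If all centralizers are normal and all class sizes are `1` or prime, the group has class at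
most two. -/
theorem upperCentralSeries_two_eq_top_of_normal_centralizers {G : Type*} [Group G] [Finite G]
    (h : ∀ x : G, (centralizer ({x} : Set G)).index = 1 ∨
      ((centralizer ({x} : Set G)).index).Prime)
    (hn : ∀ x : G, (centralizer ({x} : Set G)).Normal) :
    Subgroup.upperCentralSeries G 2 = ⊤ := by
  rw [eq_top_iff]
  intro g _
  rw [Subgroup.mem_upperCentralSeries_succ_iff]
  intro y
  rw [Subgroup.upperCentralSeries_one, mem_center_iff]
  intro z
  have hmem : ⁅g, y⁆ ∈ centralizer ({z} : Set G) := by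
    rcases h z with h1 | h1
    · rw [index_eq_one.mp h1]; exact mem_top _
    · have hN := hn z
      have : Fact ((centralizer ({z} : Set G)).index).Prime := ⟨h1⟩
      have hcyc : IsCyclic (G ⧸ centralizer ({z} : Set G)) :=
        isCyclic_of_prime_card (p := (centralizer ({z} : Set G)).index)
          (index_eq_card _).symm
      letI := IsCyclic.commGroup (α := G ⧸ centralizer ({z} : Set G))
      rw [← QuotientGroup.eq_one_iff, commutatorElement_def]
      simp only [QuotientGroup.mk_mul, QuotientGroup.mk_inv]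
      have h2 : (g : G ⧸ centralizer ({z} : Set G)) * (y : G ⧸ centralizer ({z} : Set G)) =
          y * g := mul_comm _ _
      rw [h2]; group
  exact mem_centralizer_iff.mp hmem z rfl

end Cfsg.Agent.Helper71
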