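import Mathlib
import Cfsg.Agent.Helper59.Deg11A

/-!
# Degree 11: a two-point stabilizer of order 72 is impossible (helper71, piece H of S0679)
-/

set_option autoImplicit false

namespace Cfsg.Agent.Helper71.Deg11H

open MulAction Cfsg.Agent.Helper59

theorem isPGroup_zpowers_of_pow_nine {K : Type*} [Group K] {g : K} (h : g ^ 9 = 1) :
    IsPGroup 3 (Subgroup.zpowers g) := by
  rintro ⟨x, hx⟩
  obtain ⟨n, rfl⟩ := Subgroup.mem_zpowers_iff.mp hx
  refine ⟨2, Subtype.ext ?_⟩
  show (g ^ n) ^ 3 ^ 2 = 1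
  rw [show (3 : ℕ) ^ 2 = 9 by norm_num, ← zpow_natCast, ← zpow_mul, mul_comm, zpow_mul,
    zpow_natCast, h, one_zpow]

variable {G α : Type*} [Group G] [Finite G] [MulAction G α] [Fintype α] [DecidableEq α]

theorem d11_stab_seventy_two (D : D11 G α) {a b : α} (hab : a ≠ b)
    (hH : Nat.card (stabilizer G a ⊓ stabilizer G b : Subgroup G) = 72)
    (h6 : ∀ T : Subgroup G, T ≤ stabilizer G a ⊓ stabilizer G b → Nat.card T = 9 →
      Nat.card {t : G // t ∈ T ∧ fx α t = 5} = 6) : False := by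
  classical
  haveI : Fintype G := Fintype.ofFinite G
  haveI : Fact (Nat.Prime 3) := ⟨by norm_num⟩
  set H : Subgroup G := stabilizer G a ⊓ stabilizer G b with hHdef
  have hmemH : ∀ g : G, g ∈ H ↔ g • a = a ∧ g • b = b := by
    intro g; rw [hHdef, Subgroup.mem_inf, mem_stabilizer_iff, mem_stabilizer_iff]
  obtain ⟨X, hXmem, h10⟩ : ∃ X : Finset G,
      (∀ y, y ∈ X ↔ (y ^ 9 = 1 ∧ fx α y = 5 ∧ y • a = a ∧ y • b = b)) ∧ 10 ∣ X.card :=
    ⟨_, fun y => by simp only [Finset.mem_filter, Finset.mem_univ, true_and], D.three_count2 hab⟩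
  -- Sylow 3-subgroups of `H` have order 9
  have hPcard : ∀ P : Sylow 3 H, Nat.card (P : Subgroup H) = 9 := by
    intro P
    obtain ⟨k, hk⟩ := IsPGroup.iff_card.mp P.isPGroup'
    have hidx : (P : Subgroup H).index * Nat.card (P : Subgroup H) = 72 := by
      rw [← hH]; exact Subgroup.index_mul_card _
    have hnd : ¬ 3 ∣ (P : Subgroup H).index := P.not_dvd_index
    rw [hk] at hidx ⊢
    have hk3 : k ≤ 3 := by
      by_contra hcon
      push Not at hcon
      have h81 : 3 ^ 4 ∣ 72 := by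
        rw [← hidx]
        exact Dvd.dvd.mul_left (pow_dvd_pow 3 hcon) _
      norm_num at h81
    interval_cases k <;> norm_num at hidx ⊢ <;> omega
  let T : Sylow 3 H → Subgroup G := fun P => (P : Subgroup H).map H.subtype
  have hTle : ∀ P, T P ≤ H := fun P => Subgroup.map_subtype_le _
  have hTcard : ∀ P, Nat.card (T P) = 9 := by
    intro P
    rw [← hPcard P]
    exact Subgroup.card_map_of_injective H.subtype_injective
  have hTpow : ∀ P, ∀ t ∈ T P, t ^ 9 = 1 := by
    intro P t ht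
    have h1 : (⟨t, ht⟩ : T P) ^ 9 = 1 := by
      rw [← hTcard P]; exact pow_card_eq_one'
    simpa using congrArg Subtype.val h1
  have hX6 : ∀ P, (X.filter (fun t => t ∈ T P)).card = 6 := by
    intro P
    have h := h6 (T P) (hTle P) (hTcard P)
    rw [← h]
    symm
    apply Nat.subtype_card
    intro t
    simp only [Finset.mem_filter, hXmem]
    constructor
    · rintro ⟨⟨-, h5, -, -⟩, ht⟩; exact ⟨ht, h5⟩
    · rintro ⟨ht, h5⟩
      have := (hmemH t).mp (hTle P ht)
      exact ⟨⟨hTpow P t ht, h5, this.1, this.2⟩, ht⟩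
  -- every element of `X` lies in some `T P`
  have hcover : ∀ g ∈ X, ∃ P : Sylow 3 H, g ∈ T P := by
    intro g hg
    obtain ⟨h9, -, ha, hb⟩ := (hXmem g).mp hg
    have hgH : g ∈ H := (hmemH g).mpr ⟨ha, hb⟩
    have hg9 : (⟨g, hgH⟩ : H) ^ 9 = 1 := Subtype.ext (by simpa using h9)
    obtain ⟨P, hP⟩ := (isPGroup_zpowers_of_pow_nine hg9).exists_le_sylow
    exact ⟨P, ⟨⟨g, hgH⟩, hP (Subgroup.mem_zpowers _), rfl⟩⟩
  haveI : Fintype (Sylow 3 H) := Fintype.ofFinite _
  have hM_le : X.card ≤ 6 * Fintype.card (Sylow 3 H) := by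
    have hsub : X ⊆ (Finset.univ : Finset (Sylow 3 H)).biUnion
        (fun P => X.filter (fun t => t ∈ T P)) := by
      intro g hg
      obtain ⟨P, hP⟩ := hcover g hg
      exact Finset.mem_biUnion.mpr ⟨P, Finset.mem_univ _, Finset.mem_filter.mpr ⟨hg, hP⟩⟩
    calc X.card ≤ ((Finset.univ : Finset (Sylow 3 H)).biUnion
          (fun P => X.filter (fun t => t ∈ T P))).card := Finset.card_le_card hsub
      _ ≤ ∑ P : Sylow 3 H, (X.filter (fun t => t ∈ T P)).card := Finset.card_biUnion_le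
      _ = 6 * Fintype.card (Sylow 3 H) := by
        rw [Finset.sum_congr rfl (fun P _ => hX6 P), Finset.sum_const, Finset.card_univ,
          smul_eq_mul, mul_comm]
  obtain ⟨P0⟩ : Nonempty (Sylow 3 H) := inferInstance
  have hn3mod : Nat.card (Sylow 3 H) ≡ 1 [MOD 3] := card_sylow_modEq_one 3 H
  have hn3dvd : Nat.card (Sylow 3 H) ∣ (P0 : Subgroup H).index := Sylow.card_dvd_index P0
  have hidx0 : (P0 : Subgroup H).index = 8 := by
    have := Subgroup.index_mul_card (P0 : Subgroup H)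
    rw [hPcard P0, hH] at this; omega
  have hn3le : Fintype.card (Sylow 3 H) ≤ 4 := by
    rw [← Nat.card_eq_fintype_card]
    rw [hidx0] at hn3dvd
    have hle := Nat.le_of_dvd (by norm_num) hn3dvd
    unfold Nat.ModEq at hn3mod
    generalize Nat.card (Sylow 3 H) = n at hn3dvd hle hn3mod ⊢
    interval_cases n <;> omega
  -- `T P0` is abelian
  have hTab : ∀ q ∈ T P0, ∀ s ∈ T P0, q * s = s * q := by
    rintro q ⟨x, hx, rfl⟩ s ⟨y, hy, rfl⟩
    haveI hmc : IsMulCommutative (P0 : Subgroup H) :=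
      IsPGroup.isMulCommutative_of_card_eq_prime_sq (p := 3) (by rw [hPcard P0]; norm_num)
    have hc : (⟨x, hx⟩ : (P0 : Subgroup H)) * ⟨y, hy⟩ = ⟨y, hy⟩ * ⟨x, hx⟩ := mul_comm' _ _
    have hc' : x * y = y * x := by simpa using congrArg Subtype.val hc
    simpa using congrArg Subtype.val hc'
  have h3M : X.card ≡ (X.filter (fun t => t ∈ T P0)).card [MOD 3] := by
    apply card_modEq_conj_fixed (T P0) ?_ X (X.filter (fun t => t ∈ T P0))
    · intro q hq s hs
      obtain ⟨h9, h5, ha, hb⟩ := (hXmem s).mp hs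
      obtain ⟨hqa, hqb⟩ := (hmemH q).mp (hTle P0 hq)
      refine (hXmem _).mpr ⟨?_, ?_, ?_, ?_⟩
      · rw [conj_pow, h9]; group
      · rw [fx_conj]; exact h5
      · rw [mul_smul, mul_smul, inv_smul_eq_iff.mpr hqa.symm, ha, hqa]
      · rw [mul_smul, mul_smul, inv_smul_eq_iff.mpr hqb.symm, hb, hqb]
    · intro s
      rw [Finset.mem_filter]
      refine and_congr_right (fun hs => ⟨fun hsT q hq => hTab q hq s hsT, fun hcomm => ?_⟩)
      obtain ⟨h9, -, ha, hb⟩ := (hXmem s).mp hs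
      have hsH : s ∈ H := (hmemH s).mpr ⟨ha, hb⟩
      have hs9 : (⟨s, hsH⟩ : H) ^ 9 = 1 := Subtype.ext (by simpa using h9)
      have hcent : (⟨s, hsH⟩ : H) ∈ Subgroup.centralizer ((P0 : Subgroup H) : Set H) := by
        rw [Subgroup.mem_centralizer_iff]
        intro x hx
        have := hcomm x.1 ⟨x, hx, rfl⟩
        apply Subtype.ext
        simpa using this
      have hnorm : (⟨s, hsH⟩ : H) ∈ Subgroup.normalizer ((P0 : Subgroup H) : Set H) :=
        Subgroup.centralizer_le_normalizer _ hcent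
      have hinf := (isPGroup_zpowers_of_pow_nine hs9).inf_normalizer_sylow P0
      have hmem := hinf.le ⟨Subgroup.mem_zpowers _, hnorm⟩
      exact ⟨⟨s, hsH⟩, hmem.2, rfl⟩
    · -- `T P0` is a 3-group
      apply IsPGroup.of_card (n := 2)
      rw [hTcard P0]; norm_num
  have hge : 6 ≤ X.card := by
    rw [← hX6 P0]
    exact Finset.card_le_card (Finset.filter_subset _ _)
  rw [hX6 P0] at h3M
  unfold Nat.ModEq at h3M
  omega

end Cfsg.Agent.Helper71.Deg11H
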