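import Mathlib
import Cfsg.Agent.S0732
import Cfsg.Agent.Helper58.SylowNorm
import Cfsg.Agent.Helper58.Deg7

/-!
# A transitive group of degree 11 and order 660 is `PSL(2,11)` (helper71, piece L of S0679)
-/

set_option autoImplicit false

namespace Cfsg.Agent.Helper71.Deg11L

open MulAction

/-- the number of Sylow 11-subgroups is 12 -/
theorem card_sylow_eq_twelve {α : Type*} [Fintype α] [DecidableEq α] (hα : Fintype.card α = 11)
    (G : Subgroup (Equiv.Perm α)) [MulAction.IsPretransitive G α] (hcard : Nat.card G = 660) :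
    haveI : Fact (Nat.Prime 11) := ⟨by norm_num⟩
    Nat.card (Sylow 11 G) = 12 := by
  have : Fact (Nat.Prime 11) := ⟨by norm_num⟩
  obtain ⟨P⟩ : Nonempty (Sylow 11 G) := inferInstance
  have hN1 := Helper58.card_normalizer_dvd hα G P
  have hN2 := Helper58.dvd_card_normalizer hα G P
  have hn : Nat.card (Sylow 11 G) = (Subgroup.normalizer ((P : Subgroup G) : Set G)).index :=
    Sylow.card_eq_index_normalizer P
  have hmod : Nat.card (Sylow 11 G) ≡ 1 [MOD 11] := card_sylow_modEq_one 11 G
  have hidx : (Subgroup.normalizer ((P : Subgroup G) : Set G)).index *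
      Nat.card (Subgroup.normalizer ((P : Subgroup G) : Set G)) = 660 := by
    rw [← hcard]; exact Subgroup.index_mul_card _
  rw [hn] at hmod ⊢
  obtain ⟨d, hd⟩ := hN2
  rw [hd] at hN1 hidx
  have hd10 : d ∣ 10 := by
    have h11 : (11 : ℕ) * d ∣ 11 * 10 := hN1
    exact Nat.dvd_of_mul_dvd_mul_left (by norm_num) h11
  have hdle : d ≤ 10 := Nat.le_of_dvd (by norm_num) hd10
  have hdpos : 0 < d := Nat.pos_of_dvd_of_pos hd10 (by norm_num)
  generalize (Subgroup.normalizer ((P : Subgroup G) : Set G)).index = i at hmod hidx ⊢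
  have hi : i * d = 60 := by nlinarith
  unfold Nat.ModEq at hmod
  interval_cases d <;> omega

theorem deg11_card660 {α : Type*} [Fintype α] [DecidableEq α] (hα : Fintype.card α = 11)
    (G : Subgroup (Equiv.Perm α)) [MulAction.IsPretransitive G α] (hcard : Nat.card G = 660) :
    Nonempty (G ≃* Matrix.ProjectiveSpecialLinearGroup (Fin 2) (ZMod 11)) := by
  classical
  have : Fact (Nat.Prime 11) := ⟨by norm_num⟩
  have h12 := card_sylow_eq_twelve hα G hcard
  have hprim : MulAction.IsPreprimitive G α := by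
    apply MulAction.IsPreprimitive.of_prime_card
    rw [Nat.card_eq_fintype_card, hα]; norm_num
  -- the conjugation action on the Sylow 11-subgroups
  let φ : G →* Equiv.Perm (Sylow 11 G) := MulAction.toPermHom G (Sylow 11 G)
  have hφ : ∀ (g : G) (Q : Sylow 11 G), φ g Q = g • Q := fun g Q => rfl
  have hker : φ.ker = ⊥ := by
    by_contra hK
    have htr := Helper58.transitive_of_normal_ne_bot G hprim φ.ker hK
    have h11 : 11 ∣ Nat.card (φ.ker.map G.subtype) :=
      Helper58.prime_dvd_card_of_transitive hα (φ.ker.map G.subtype)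
    have hcm : Nat.card (φ.ker.map G.subtype) = Nat.card φ.ker :=
      Subgroup.card_map_of_injective G.subtype_injective
    rw [hcm] at h11
    obtain ⟨k, hk⟩ := exists_prime_orderOf_dvd_card' (G := φ.ker) 11 h11
    have hk11 : orderOf (k : G) = 11 := by rw [Subgroup.orderOf_coe]; exact hk
    have hkfix : ∀ Q : Sylow 11 G, (k : G) • Q = Q := by
      intro Q
      have := k.2
      rw [MonoidHom.mem_ker] at this
      rw [← hφ, this]; rfl
    have hkmem : ∀ Q : Sylow 11 G, (k : G) ∈ (Q : Subgroup G) := by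
      intro Q
      have hnorm : (k : G) ∈ Subgroup.normalizer ((Q : Subgroup G) : Set G) :=
        Sylow.smul_eq_iff_mem_normalizer.mp (hkfix Q)
      have hpg : IsPGroup 11 (Subgroup.zpowers (k : G)) := by
        apply IsPGroup.of_card (n := 1)
        rw [Nat.card_zpowers, hk11]; norm_num
      have hinf := hpg.inf_normalizer_sylow Q
      have hmem := hinf.le ⟨Subgroup.mem_zpowers _, hnorm⟩
      exact hmem.2
    have hQeq : ∀ Q : Sylow 11 G, (Q : Subgroup G) = Subgroup.zpowers (k : G) := by
      intro Q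
      have hle : Subgroup.zpowers (k : G) ≤ (Q : Subgroup G) :=
        (Subgroup.zpowers_le).mpr (hkmem Q)
      have hQc : Nat.card (Q : Subgroup G) = 11 := Helper58.card_sylow_prime_degree hα G Q
      symm
      apply Subgroup.eq_of_le_of_card_ge hle
      rw [hQc, Nat.card_zpowers, hk11]
    have hsub : Subsingleton (Sylow 11 G) := by
      constructor
      intro Q Q'
      apply Sylow.ext
      rw [hQeq Q, hQeq Q']
    have : Nat.card (Sylow 11 G) ≤ 1 := Finite.card_le_one_iff_subsingleton.mpr hsub
    omega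
  have hinj : Function.Injective φ := (MonoidHom.ker_eq_bot_iff φ).mp hker
  let e : G ≃* φ.range := MonoidHom.ofInjective hinj
  haveI : Fintype (Sylow 11 G) := Fintype.ofFinite _
  have : MulAction.IsPretransitive φ.range (Sylow 11 G) := by
    constructor
    intro Q Q'
    obtain ⟨g, hg⟩ := MulAction.exists_smul_eq G Q Q'
    refine ⟨⟨φ g, ⟨g, rfl⟩⟩, ?_⟩
    rw [Subgroup.smul_def]
    exact hg
  have hα' : Fintype.card (Sylow 11 G) = 11 + 1 := by
    rw [← Nat.card_eq_fintype_card, h12]
  have hG' : Nat.card φ.range = (11 + 1) * 11 * 5 := by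
    rw [← Nat.card_congr e.toEquiv, hcard]
  rcases Cfsg.Agent.S0732.result (p := 11) (d := 5) (by norm_num) hα' φ.range hG' (by norm_num) with
    h | h | h
  · omega
  · obtain ⟨-, ⟨E⟩⟩ := h
    exact ⟨e.trans E⟩
  · obtain ⟨q, -, hq, -⟩ := h
    exfalso
    rcases Nat.lt_or_ge q 4 with h4 | h4
    · interval_cases q <;> omega
    · have : 2 ^ 4 ≤ 2 ^ q := Nat.pow_le_pow_right (by norm_num) h4
      omega

end Cfsg.Agent.Helper71.Deg11L
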