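import Mathlib

set_option autoImplicit false

namespace Cfsg.Agent.Helper71

/-- The arithmetic core of the argument on automorphisms of doubly transitive groups. -/
theorem design_arith (n k m : ℕ) (s x y : ℤ) (hn : 2 ≤ n) (hk1 : 1 ≤ k) (hkn : k < n)
    (hcop : Nat.Coprime k n) (hm : Odd m) (hs : s * ((n : ℤ) - 1) = k * ((n : ℤ) - k))
    (hxy : x + n * y = (k : ℤ) ^ m) (hx : x ^ 2 = s ^ m) : k = 1 ∨ k = n - 1 := by
  have hn1 : (0 : ℤ) < (n : ℤ) - 1 := by
    have : (2 : ℤ) ≤ n := by exact_mod_cast hn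
    linarith
  have hkz : (1 : ℤ) ≤ k := by exact_mod_cast hk1
  have hknz : (k : ℤ) < n := by exact_mod_cast hkn
  have hspos : 0 < s := by
    have h1 : 0 < (k : ℤ) * ((n : ℤ) - k) := mul_pos (by linarith) (by linarith)
    rw [← hs] at h1
    by_contra hcon
    push Not at hcon
    have : s * ((n : ℤ) - 1) ≤ 0 := mul_nonpos_of_nonpos_of_nonneg hcon hn1.le
    linarith
  obtain ⟨e, rfl⟩ := hm
  have hse : 0 < s ^ e := pow_pos hspos e
  have hx2 : x ^ 2 = (s ^ e) ^ 2 * s := by rw [hx]; ring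
  have hdvd : s ^ e ∣ x := by
    have h1 : (s ^ e) ^ 2 ∣ x ^ 2 := by rw [hx2]; exact dvd_mul_right _ _
    exact (Int.pow_dvd_pow_iff (by norm_num)).mp h1
  obtain ⟨t, ht⟩ := hdvd
  have ht2 : t ^ 2 = s := by
    have h1 : (s ^ e) ^ 2 * t ^ 2 = (s ^ e) ^ 2 * s := by rw [← hx2, ht]; ring
    exact mul_left_cancel₀ (pow_pos hse 2).ne' h1
  obtain ⟨τ, hτ⟩ : ∃ τ : ℕ, τ = t.natAbs := ⟨_, rfl⟩
  have hτ2 : (τ : ℤ) ^ 2 = s := by
    rw [hτ, ← ht2]; exact Int.natAbs_sq t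
  have hτpos : (1 : ℤ) ≤ τ := by
    by_contra hcon
    push Not at hcon
    have h0 : (τ : ℤ) = 0 := by have := Int.natCast_nonneg τ; omega
    rw [h0] at hτ2
    simp at hτ2
    omega
  have hsk : s ≤ k := by
    by_contra hcon
    push Not at hcon
    nlinarith
  have hτk : (τ : ℤ) ≤ k := by nlinarith
  -- `n ∣ k² - τ²`
  have hd1 : (n : ℤ) ∣ (k : ℤ) ^ 2 - (τ : ℤ) ^ 2 := by
    refine ⟨(k : ℤ) - (τ : ℤ) ^ 2, ?_⟩
    rw [hτ2]; linarith
  have hd2 : (n : ℤ) ∣ ((k : ℤ) ^ 2) ^ e - ((τ : ℤ) ^ 2) ^ e :=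
    hd1.trans (sub_dvd_pow_sub_pow _ _ e)
  have hxt : x = ((τ : ℤ) ^ 2) ^ e * t := by rw [ht, hτ2]
  have hd3 : (n : ℤ) ∣ ((k : ℤ) ^ 2) ^ e * ((k : ℤ) - t) := by
    have h1 : ((k : ℤ) ^ 2) ^ e * ((k : ℤ) - t) =
        n * y - (((k : ℤ) ^ 2) ^ e - ((τ : ℤ) ^ 2) ^ e) * t := by
      have h2 : (k : ℤ) ^ (2 * e + 1) = ((k : ℤ) ^ 2) ^ e * k := by ring
      rw [h2] at hxy
      rw [hxt] at hxy
      linarith
    rw [h1]
    exact dvd_sub (dvd_mul_right _ _) (hd2.mul_right t)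
  have hcop' : IsCoprime (n : ℤ) (((k : ℤ) ^ 2) ^ e) := by
    have h1 : IsCoprime (n : ℤ) (k : ℤ) := (Nat.isCoprime_iff_coprime.mpr hcop).symm
    exact (h1.pow_right).pow_right
  have hd4 : (n : ℤ) ∣ (k : ℤ) - t := hcop'.dvd_of_dvd_mul_left hd3
  have hs' : (τ : ℤ) ^ 2 * ((n : ℤ) - 1) = k * ((n : ℤ) - k) := by rw [hτ2]; exact hs
  rcases Int.natAbs_eq t with h | h
  · -- `t = τ`
    rw [h, ← hτ] at hd4
    have h0 : (k : ℤ) - τ = 0 := by
      apply Int.eq_zero_of_abs_lt_dvd hd4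
      rw [abs_of_nonneg (by linarith)]
      linarith
    have hkτ : (τ : ℤ) = k := by linarith
    rw [hkτ] at hs'
    left
    have h1 : (k : ℤ) * ((k : ℤ) * ((n : ℤ) - 1) - ((n : ℤ) - k)) = 0 := by linarith
    rcases mul_eq_zero.mp h1 with h2 | h2
    · omega
    · have h3 : (k : ℤ) * n = n := by linarith
      have h4 : ((k : ℤ) - 1) * n = 0 := by linarith
      rcases mul_eq_zero.mp h4 with h5 | h5
      · omega
      · omega
  · -- `t = -τ`
    rw [h, ← hτ] at hd4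
    have hd5 : (n : ℤ) ∣ (k : ℤ) + τ := by
      have : (k : ℤ) - -(τ : ℤ) = k + τ := by ring
      rwa [this] at hd4
    obtain ⟨c, hc⟩ := hd5
    have hc1 : c = 1 := by
      have hcpos : 0 < c := by
        by_contra hcon
        push Not at hcon
        have : (n : ℤ) * c ≤ 0 := mul_nonpos_of_nonneg_of_nonpos (by linarith) hcon
        linarith
      have hclt : c < 2 := by
        by_contra hcon
        push Not at hcon
        have : (n : ℤ) * 2 ≤ n * c := mul_le_mul_of_nonneg_left hcon (by linarith)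
        linarith
      omega
    rw [hc1, mul_one] at hc
    have hτn : (τ : ℤ) = n - k := by linarith
    rw [hτn] at hs'
    right
    have hnk : (0 : ℤ) < (n : ℤ) - k := by linarith
    have h1 : ((n : ℤ) - k) * (((n : ℤ) - k) * ((n : ℤ) - 1) - k) = 0 := by linarith
    rcases mul_eq_zero.mp h1 with h2 | h2
    · omega
    · have h3 : ((n : ℤ) - k) * ((n : ℤ) - 1) = k := by linarith
      have h4 : (n : ℤ) - k < 2 := by
        by_contra hcon
        push Not at hcon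
        nlinarith
      omega

end Cfsg.Agent.Helper71
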