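import Mathlib

/-!
# Irreducible fixed-point-free matrix representations

A fixed-point-free matrix representation of minimal positive degree is irreducible and faithful.
-/

set_option autoImplicit false

namespace Cfsg.Agent.Helper71.FpfIrr

variable {G : Type*} [Group G] {K : Type*} [Field K]

/-- fixed-point-free matrix representations -/
def MFpf {n : ℕ} (τ : G →* Matrix (Fin n) (Fin n) K) : Prop :=
  ∀ g : G, g ≠ 1 → ∀ v : Fin n → K, (τ g).mulVec v = v → v = 0

/-- restriction of a matrix representation to an invariant subspace, in a basis -/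
theorem exists_restrict {n : ℕ} (τ : G →* Matrix (Fin n) (Fin n) K) (hτ : MFpf τ)
    (W : Submodule K (Fin n → K)) (hW : ∀ g : G, ∀ w ∈ W, (τ g).mulVec w ∈ W) :
    ∃ τ' : G →* Matrix (Fin (Module.finrank K W)) (Fin (Module.finrank K W)) K, MFpf τ' := by
  classical
  let bW := Module.finBasis K W
  let f : G → (W →ₗ[K] W) := fun g => (Matrix.mulVecLin (τ g)).restrict (hW g)
  have hf : ∀ (g : G) (w : W), ((f g w : W) : Fin n → K) = (τ g).mulVec (w : Fin n → K) :=
    fun g w => rfl
  have hf1 : f 1 = LinearMap.id := by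
    apply LinearMap.ext
    intro w
    apply Subtype.ext
    rw [hf, map_one, Matrix.one_mulVec, LinearMap.id_apply]
  have hfm : ∀ g h : G, f (g * h) = (f g).comp (f h) := by
    intro g h
    apply LinearMap.ext
    intro w
    apply Subtype.ext
    rw [LinearMap.comp_apply, hf, hf, hf, map_mul, Matrix.mulVec_mulVec]
  refine ⟨{ toFun := fun g => LinearMap.toMatrix bW bW (f g), map_one' := ?_, map_mul' := ?_ }, ?_⟩
  · rw [hf1, LinearMap.toMatrix_id]
  · intro g h
    rw [hfm, LinearMap.toMatrix_comp bW bW bW]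
  · intro g hg u hu
    have h1 := LinearMap.toMatrix_mulVec_repr bW bW (f g) (bW.equivFun.symm u)
    have h2 : ⇑(bW.repr (bW.equivFun.symm u)) = u := by
      have := bW.equivFun.apply_symm_apply u
      exact this
    rw [h2] at h1
    have h3 : (LinearMap.toMatrix bW bW (f g)).mulVec u = u := hu
    rw [h3] at h1
    have h4 : bW.repr (f g (bW.equivFun.symm u)) = bW.repr (bW.equivFun.symm u) := by
      apply DFunLike.coe_injective
      rw [← h1, h2]
    have h5 : f g (bW.equivFun.symm u) = bW.equivFun.symm u := bW.repr.injective h4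
    have h6 := congrArg Subtype.val h5
    rw [hf] at h6
    have h7 := hτ g hg _ h6
    have h8 : bW.equivFun.symm u = 0 := Subtype.ext h7
    have h9 : u = bW.equivFun 0 := by
      rw [← h8, LinearEquiv.apply_symm_apply]
    rw [h9, map_zero]

/-- **A fixed-point-free representation of minimal degree is faithful and irreducible.** -/
theorem exists_irred [Finite G] {r : ℕ} (τ₀ : G →* Matrix (Fin r) (Fin r) K) (hr : 0 < r)
    (hτ₀ : MFpf τ₀) :
    ∃ (n : ℕ) (ρ : G →* Matrix.GeneralLinearGroup (Fin n) K), 0 < n ∧ Function.Injective ρ ∧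
      (∀ W : Submodule K (Fin n → K),
        (∀ g : G, ∀ w ∈ W, ((ρ g : Matrix.GeneralLinearGroup (Fin n) K) :
          Matrix (Fin n) (Fin n) K).mulVec w ∈ W) → W = ⊥ ∨ W = ⊤) ∧
      ∀ g : G, g ≠ 1 → ∀ v : Fin n → K,
        ((ρ g : Matrix.GeneralLinearGroup (Fin n) K) : Matrix (Fin n) (Fin n) K).mulVec v = v →
          v = 0 := by
  classical
  have hex : ∃ n : ℕ, 0 < n ∧ ∃ τ : G →* Matrix (Fin n) (Fin n) K, MFpf τ := ⟨r, hr, τ₀, hτ₀⟩
  obtain ⟨n, ⟨hn, τ, hτ⟩, hmin⟩ : ∃ n : ℕ,
      (0 < n ∧ ∃ τ : G →* Matrix (Fin n) (Fin n) K, MFpf τ) ∧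
        ∀ d : ℕ, d < n → ¬ (0 < d ∧ ∃ τ : G →* Matrix (Fin d) (Fin d) K, MFpf τ) :=
    ⟨Nat.find hex, Nat.find_spec hex, fun d hd => Nat.find_min hex hd⟩
  have hcoe : ∀ g : G, ((τ.toHomUnits g : (Matrix (Fin n) (Fin n) K)ˣ) :
      Matrix (Fin n) (Fin n) K) = τ g := fun g => rfl
  refine ⟨n, τ.toHomUnits, hn, ?_, ?_, ?_⟩
  · rw [injective_iff_map_eq_one]
    intro g hg
    by_contra hg1
    have h1 : τ g = 1 := by rw [← hcoe, hg]; rfl
    have h2 := hτ g hg1 (fun _ => 1) (by rw [h1, Matrix.one_mulVec])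
    have h3 := congrFun h2 ⟨0, hn⟩
    simp at h3
  · intro W hW
    by_contra hcon
    push Not at hcon
    obtain ⟨hbot, htop⟩ := hcon
    have hW' : ∀ g : G, ∀ w ∈ W, (τ g).mulVec w ∈ W := hW
    obtain ⟨τ', hτ'⟩ := exists_restrict τ hτ W hW'
    have hd0 : 0 < Module.finrank K W := by
      rw [Module.finrank_pos_iff]
      exact (Submodule.nontrivial_iff_ne_bot).mpr hbot
    have hdn : Module.finrank K W < n := by
      have := Submodule.finrank_lt htop
      rwa [Module.finrank_fin_fun] at this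
    exact hmin _ hdn ⟨hd0, τ', hτ'⟩
  · intro g hg v hv
    exact hτ g hg v hv

end Cfsg.Agent.Helper71.FpfIrr
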