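import Mathlib
import Cfsg.Agent.Helper56.ZRing

/-!
# Norm elements in group algebras

For a group `G` and a commutative ring `k` we consider the norm elements
`nrm k c = ∑ i < orderOf c, c ^ i` of the cyclic subgroups generated by elements `c` of prime
order, and the (two-sided) ideal `J k` of `k[G]` they generate.  A fixed-point-free ring
representation of `G` kills `J ℤ`.
-/

set_option autoImplicit false

namespace Cfsg.Agent.Helper71.FpfLift

open Cfsg.Agent.Helper56

variable {G : Type*} [Group G]

section general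

variable (k : Type*) [CommRing k]

/-- the norm element of the cyclic subgroup generated by `c` -/
noncomputable def nrm (c : G) : MonoidAlgebra k G :=
  ∑ i ∈ Finset.range (orderOf c), MonoidAlgebra.of k G (c ^ i)

/-- the generators of the ideal of norm elements -/
def gens : Set (MonoidAlgebra k G) :=
  {x | ∃ c g : G, (orderOf c).Prime ∧ x = nrm k c * MonoidAlgebra.of k G g}

/-- the ideal generated by the norm elements of the subgroups of prime order -/
noncomputable def J : Ideal (MonoidAlgebra k G) := Ideal.span (gens k (G := G))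

variable {k}

theorem of_mul_nrm_self (c : G) : MonoidAlgebra.of k G c * nrm k c = nrm k c := by
  unfold nrm
  rw [Finset.mul_sum]
  have h1 : ∀ i ∈ Finset.range (orderOf c),
      MonoidAlgebra.of k G c * MonoidAlgebra.of k G (c ^ i) = MonoidAlgebra.of k G (c ^ (i + 1)) := by
    intro i _
    rw [← map_mul, pow_succ']
  rw [Finset.sum_congr rfl h1]
  have h2 := Finset.sum_range_succ (fun i => MonoidAlgebra.of k G (c ^ i)) (orderOf c)
  have h3 := Finset.sum_range_succ' (fun i => MonoidAlgebra.of k G (c ^ i)) (orderOf c)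
  rw [h3, pow_orderOf_eq_one, pow_zero] at h2
  exact add_right_cancel h2

theorem of_pow_mul_nrm (c : G) (i : ℕ) : MonoidAlgebra.of k G (c ^ i) * nrm k c = nrm k c := by
  induction i with
  | zero => rw [pow_zero, map_one, one_mul]
  | succ i ih => rw [pow_succ, map_mul, mul_assoc, of_mul_nrm_self, ih]

theorem nrm_mul_nrm (c : G) : nrm k c * nrm k c = orderOf c • nrm k c := by
  have h1 : nrm k c * nrm k c =
      (∑ i ∈ Finset.range (orderOf c), MonoidAlgebra.of k G (c ^ i)) * nrm k c := rfl
  rw [h1, Finset.sum_mul, Finset.sum_congr rfl (fun i _ => of_pow_mul_nrm c i), Finset.sum_const,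
    Finset.card_range]

theorem of_mul_nrm (g c : G) :
    MonoidAlgebra.of k G g * nrm k c = nrm k (g * c * g⁻¹) * MonoidAlgebra.of k G g := by
  have ho : orderOf (g * c * g⁻¹) = orderOf c := by
    rw [← MulAut.conj_apply, MulEquiv.orderOf_eq]
  unfold nrm
  rw [Finset.mul_sum, Finset.sum_mul, ho]
  refine Finset.sum_congr rfl fun i _ => ?_
  rw [← map_mul, ← map_mul, conj_pow]
  congr 1
  group

theorem nrm_mem_J {c : G} (hc : (orderOf c).Prime) : nrm k c ∈ J k (G := G) := by
  apply Ideal.subset_span
  exact ⟨c, 1, hc, by rw [map_one, mul_one]⟩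

theorem J_mul_of {x : MonoidAlgebra k G} (hx : x ∈ J k (G := G)) (g : G) :
    x * MonoidAlgebra.of k G g ∈ J k (G := G) := by
  unfold J at hx ⊢
  induction hx using Submodule.span_induction with
  | mem x hx =>
    obtain ⟨c, g', hc, rfl⟩ := hx
    apply Ideal.subset_span
    exact ⟨c, g' * g, hc, by rw [map_mul, mul_assoc]⟩
  | zero => rw [zero_mul]; exact Submodule.zero_mem _
  | add x y _ _ hx hy => rw [add_mul]; exact Submodule.add_mem _ hx hy
  | smul a x _ hx =>
    rw [smul_eq_mul, mul_assoc]
    exact Ideal.mul_mem_left _ a hx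

theorem J_mul_right {x : MonoidAlgebra k G} (hx : x ∈ J k (G := G)) (y : MonoidAlgebra k G) :
    x * y ∈ J k (G := G) := by
  induction y using MonoidAlgebra.induction_on with
  | of g => exact J_mul_of hx g
  | add y z hy hz => rw [mul_add]; exact Submodule.add_mem _ hy hz
  | smul r y hy =>
    rw [mul_smul_comm]
    exact Submodule.smul_of_tower_mem _ r hy

theorem nrm_mul_mem_J {c : G} (hc : (orderOf c).Prime) (y : MonoidAlgebra k G) :
    nrm k c * y ∈ J k (G := G) :=
  J_mul_right (nrm_mem_J hc) y

theorem map_of {k' : Type*} [CommRing k'] (f : k →+* k') (g : G) :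
    MonoidAlgebra.mapRingHom G f (MonoidAlgebra.of k G g) = MonoidAlgebra.of k' G g := by
  rw [MonoidAlgebra.of_apply, MonoidAlgebra.mapRingHom_single, map_one, MonoidAlgebra.of_apply]

theorem map_nrm {k' : Type*} [CommRing k'] (f : k →+* k') (c : G) :
    MonoidAlgebra.mapRingHom G f (nrm k c) = nrm k' c := by
  unfold nrm
  rw [map_sum]
  exact Finset.sum_congr rfl fun i _ => map_of f _

theorem map_mem_J {k' : Type*} [CommRing k'] (f : k →+* k') {x : MonoidAlgebra k G}
    (hx : x ∈ J k (G := G)) : MonoidAlgebra.mapRingHom G f x ∈ J k' (G := G) := by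
  unfold J at hx
  induction hx using Submodule.span_induction with
  | mem x hx =>
    obtain ⟨c, g, hc, rfl⟩ := hx
    rw [map_mul, map_nrm, map_of]
    exact Ideal.subset_span ⟨c, g, hc, rfl⟩
  | zero => rw [map_zero]; exact Submodule.zero_mem _
  | add x y _ _ hx hy => rw [map_add]; exact Submodule.add_mem _ hx hy
  | smul a x _ hx =>
    rw [smul_eq_mul, map_mul]
    exact Ideal.mul_mem_left _ _ hx

end general

section rho

variable {R : Type*} [Ring R] {ρ : G →* R}

/-- a fixed-point-free ring representation kills the norm elements -/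
theorem lift_nrm (hρ : Fpf ρ) {c : G} (hc : (orderOf c).Prime) :
    MonoidAlgebra.lift ℤ R G ρ (nrm ℤ c) = 0 := by
  unfold nrm
  rw [map_sum]
  have h1 : ∀ i ∈ Finset.range (orderOf c),
      MonoidAlgebra.lift ℤ R G ρ (MonoidAlgebra.of ℤ G (c ^ i)) = ρ c ^ i := by
    intro i _
    rw [MonoidAlgebra.lift_of, map_pow]
  rw [Finset.sum_congr rfl h1]
  have hc1 : c ≠ 1 := by
    rintro rfl
    rw [orderOf_one] at hc
    exact Nat.not_prime_one hc
  exact hρ.geom_sum_eq_zero hc1 (pow_orderOf_eq_one c)

/-- a fixed-point-free ring representation kills the ideal of norm elements -/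
theorem lift_J (hρ : Fpf ρ) {x : MonoidAlgebra ℤ G} (hx : x ∈ J ℤ (G := G)) :
    MonoidAlgebra.lift ℤ R G ρ x = 0 := by
  unfold J at hx
  induction hx using Submodule.span_induction with
  | mem x hx =>
    obtain ⟨c, g, hc, rfl⟩ := hx
    rw [map_mul, lift_nrm hρ hc, zero_mul]
  | zero => rw [map_zero]
  | add x y _ _ hx hy => rw [map_add, hx, hy, add_zero]
  | smul a x _ hx => rw [smul_eq_mul, map_mul, hx, mul_zero]

end rho

end Cfsg.Agent.Helper71.FpfLift
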