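import Mathlib
import Cfsg.Agent.Helper71.FpfLiftA

/-!
# Norm elements: reduction to a prime not dividing the group order, and Maschke
-/

set_option autoImplicit false

namespace Cfsg.Agent.Helper71.FpfLift

open Cfsg.Agent.Helper56

variable {G : Type*} [Group G]

/-- surjectivity of the coefficient map `ℤ[G] → (ZMod n)[G]` -/
theorem mapInt_surjective (n : ℕ) :
    Function.Surjective (MonoidAlgebra.mapRingHom G (Int.castRingHom (ZMod n))) := by
  intro a
  induction a using MonoidAlgebra.induction_on with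
  | of g => exact ⟨MonoidAlgebra.of ℤ G g, map_of _ g⟩
  | add y z hy hz =>
    obtain ⟨y', rfl⟩ := hy
    obtain ⟨z', rfl⟩ := hz
    exact ⟨y' + z', map_add _ _ _⟩
  | smul r y hy =>
    obtain ⟨y', rfl⟩ := hy
    refine ⟨(r.cast : ℤ) • y', ?_⟩
    rw [map_zsmul, ← Int.cast_smul_eq_zsmul (ZMod n), ZMod.intCast_zmod_cast]

/-- the kernel of the coefficient map `ℤ[G] → (ZMod n)[G]` -/
theorem exists_eq_smul_of_mapInt_eq_zero (n : ℕ) (y : MonoidAlgebra ℤ G)
    (hy : MonoidAlgebra.mapRingHom G (Int.castRingHom (ZMod n)) y = 0) :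
    ∃ z : MonoidAlgebra ℤ G, y = (n : ℤ) • z := by
  refine ⟨MonoidAlgebra.ofCoeff (y.coeff.mapRange (fun a => a / (n : ℤ)) (by simp)), ?_⟩
  apply MonoidAlgebra.coeff_injective
  ext g
  rw [MonoidAlgebra.coeff_smul, MonoidAlgebra.coeff_ofCoeff, Finsupp.smul_apply,
    Finsupp.mapRange_apply, smul_eq_mul]
  have h1 : (MonoidAlgebra.mapRingHom G (Int.castRingHom (ZMod n)) y).coeff g = 0 := by
    rw [hy]; rfl
  rw [MonoidAlgebra.coeff_mapRingHom] at h1
  have h2 : (n : ℤ) ∣ y.coeff g := (ZMod.intCast_zmod_eq_zero_iff_dvd _ n).mp h1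
  exact (Int.mul_ediv_cancel' h2).symm

/-- the ideal of norm elements over `ZMod n` is the image of the one over `ℤ` -/
theorem exists_lift_J (n : ℕ) {x : MonoidAlgebra (ZMod n) G} (hx : x ∈ J (ZMod n) (G := G)) :
    ∃ y ∈ J ℤ (G := G), MonoidAlgebra.mapRingHom G (Int.castRingHom (ZMod n)) y = x := by
  have hle : J (ZMod n) (G := G) ≤
      Ideal.map (MonoidAlgebra.mapRingHom G (Int.castRingHom (ZMod n))) (J ℤ (G := G)) := by
    unfold J
    rw [Ideal.span_le]
    rintro x ⟨c, g, hc, rfl⟩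
    have h1 : nrm (ZMod n) c * MonoidAlgebra.of (ZMod n) G g =
        MonoidAlgebra.mapRingHom G (Int.castRingHom (ZMod n))
          (nrm ℤ c * MonoidAlgebra.of ℤ G g) := by
      rw [map_mul, map_nrm, map_of]
    rw [h1]
    have h2 : nrm ℤ c * MonoidAlgebra.of ℤ G g ∈ Ideal.span (gens ℤ (G := G)) :=
      Ideal.subset_span ⟨c, g, hc, rfl⟩
    exact Ideal.mem_map_of_mem (MonoidAlgebra.mapRingHom G (Int.castRingHom (ZMod n))) h2
  exact (Ideal.mem_map_iff_of_surjective
    (MonoidAlgebra.mapRingHom G (Int.castRingHom (ZMod n))) (mapInt_surjective n)).mp (hle hx)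

section rho

variable {R : Type*} [Ring R] {ρ : G →* R}

/-- If a positive integer lies in the ideal of norm elements, some prime `q` not dividing the
group order has `1 ∉ J (ZMod q)`. -/
theorem exists_prime_data [Finite G] [Nontrivial R] (hρ : Fpf ρ) {m : ℕ} (hm : 0 < m)
    (hmJ : (m : MonoidAlgebra ℤ G) ∈ J ℤ (G := G)) :
    ∃ q : ℕ, q.Prime ∧ ¬ q ∣ Nat.card G ∧
      (1 : MonoidAlgebra (ZMod q) G) ∉ J (ZMod q) (G := G) := by
  classical
  have h0 : (m : R) = 0 := by
    have := lift_J hρ hmJ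
    rwa [map_natCast] at this
  have hex : ∃ n : ℕ, 0 < n ∧ (n : R) = 0 := ⟨m, hm, h0⟩
  obtain ⟨hpos, hzero⟩ := Nat.find_spec hex
  have hmin : ∀ n : ℕ, n < Nat.find hex → ¬ (0 < n ∧ (n : R) = 0) := fun n hn => Nat.find_min hex hn
  set m₀ := Nat.find hex with hm₀
  have hne1 : m₀ ≠ 1 := by
    intro h1
    rw [h1, Nat.cast_one] at hzero
    exact one_ne_zero hzero
  have hq : (Nat.minFac m₀).Prime := Nat.minFac_prime hne1
  have hqd : Nat.minFac m₀ ∣ m₀ := Nat.minFac_dvd m₀
  set q := Nat.minFac m₀ with hqdef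
  obtain ⟨d, hd⟩ := hqd
  have hdpos : 0 < d := by
    rcases Nat.eq_zero_or_pos d with h | h
    · rw [h, mul_zero] at hd; omega
    · exact h
  have hdlt : d < m₀ := by
    have := hq.two_le
    nlinarith
  have hw : (d : R) ≠ 0 := fun h => hmin d hdlt ⟨hdpos, h⟩
  have hwq : (d : R) * (q : R) = 0 := by
    rw [← Nat.cast_mul, mul_comm, ← hd]; exact hzero
  refine ⟨q, hq, ?_, ?_⟩
  · intro hdvd
    have : Fact q.Prime := ⟨hq⟩
    obtain ⟨c, hc⟩ := exists_prime_orderOf_dvd_card' q hdvd
    have hc1 : c ≠ 1 := by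
      rintro rfl
      rw [orderOf_one] at hc
      exact hq.one_lt.ne hc
    have hxq : ρ c ^ q = 1 := by
      rw [← map_pow, ← hc, pow_orderOf_eq_one, map_one]
    have hu : IsUnit ((ρ c - 1) ^ q) := (hρ c hc1).pow q
    have key : (d : R) * (ρ c - 1) ^ q = 0 := by
      have hcomm : Commute (ρ c) (-1 : R) := (Commute.one_right (ρ c)).neg_right
      rw [sub_eq_add_neg, hcomm.add_pow, Finset.mul_sum]
      rw [Finset.sum_eq_add 0 q hq.ne_zero.symm]
      · rw [pow_zero, one_mul, Nat.sub_zero, Nat.choose_zero_right, Nat.cast_one, mul_one,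
          hxq, one_mul, Nat.sub_self, pow_zero, Nat.choose_self, Nat.cast_one, mul_one, mul_one]
        rcases hq.eq_two_or_odd' with h2 | hodd
        · have h22 : (d : R) * 2 = 0 := by
            have := hwq
            rw [h2] at this
            simpa using this
          rw [h2, neg_one_sq, mul_one, ← mul_two, h22]
        · rw [hodd.neg_one_pow, mul_neg, mul_one, neg_add_cancel]
      · intro j hj hj2
        have hjq : j < q := by
          have := Finset.mem_range.mp hj
          omega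
        obtain ⟨e, he⟩ := hq.dvd_choose_self hj2.1 hjq
        rw [he, Nat.cast_mul, ← mul_assoc, ← mul_assoc, ← mul_assoc]
        have h1 : (d : R) * ρ c ^ j * (-1) ^ (q - j) * (q : R) =
            ρ c ^ j * (-1) ^ (q - j) * ((d : R) * (q : R)) := by
          rw [mul_assoc (d : R), (Nat.cast_commute d _).eq, mul_assoc]
        rw [h1, hwq, mul_zero, zero_mul]
      · intro h
        exact absurd (Finset.mem_range.mpr (Nat.succ_pos q)) h
      · intro h
        exact absurd (Finset.mem_range.mpr (Nat.lt_succ_self q)) h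
    exact hw (hu.mul_left_eq_zero.mp key)
  · intro h1
    obtain ⟨y, hyJ, hy⟩ := exists_lift_J q h1
    have h2 : MonoidAlgebra.mapRingHom G (Int.castRingHom (ZMod q)) (y - 1) = 0 := by
      rw [map_sub, hy, map_one, sub_self]
    obtain ⟨z, hz⟩ := exists_eq_smul_of_mapInt_eq_zero q (y - 1) h2
    have h3 := congrArg (MonoidAlgebra.lift ℤ R G ρ) hz
    rw [map_sub, lift_J hρ hyJ, map_one, zero_sub, map_zsmul, zsmul_eq_mul, Int.cast_natCast]
      at h3
    have h4 : (d : R) * (-1) = (d : R) * ((q : R) * MonoidAlgebra.lift ℤ R G ρ z) := by rw [h3]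
    rw [← mul_assoc, hwq, zero_mul, mul_neg, mul_one, neg_eq_zero] at h4
    exact hw h4

end rho

/-- **Maschke**: a nonzero idempotent annihilated by the norm elements. -/
theorem exists_idem [Finite G] {q : ℕ} [Fact q.Prime] (hq : ¬ q ∣ Nat.card G)
    (h1 : (1 : MonoidAlgebra (ZMod q) G) ∉ J (ZMod q) (G := G)) :
    ∃ t : MonoidAlgebra (ZMod q) G, t ≠ 0 ∧ t * t = t ∧
      ∀ c : G, (orderOf c).Prime → ∀ s : MonoidAlgebra (ZMod q) G,
        nrm (ZMod q) c * s * t = 0 := by
  have hne : NeZero (Nat.card G : ZMod q) := ⟨by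
    rw [Ne, ZMod.natCast_eq_zero_iff]; exact hq⟩
  obtain ⟨T, hT⟩ := MonoidAlgebra.Submodule.exists_isCompl (J (ZMod q) (G := G))
  have htop : (1 : MonoidAlgebra (ZMod q) G) ∈ J (ZMod q) (G := G) ⊔ T := by
    rw [hT.sup_eq_top]; exact Submodule.mem_top
  obtain ⟨j, hj, t, ht, hjt⟩ := Submodule.mem_sup.mp htop
  have hdisj : ∀ x : MonoidAlgebra (ZMod q) G, x ∈ J (ZMod q) (G := G) → x ∈ T → x = 0 := by
    intro x hxJ hxT
    have : x ∈ J (ZMod q) (G := G) ⊓ T := ⟨hxJ, hxT⟩
    rw [hT.inf_eq_bot] at this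
    exact (Submodule.mem_bot _).mp this
  have hmulT : ∀ a : MonoidAlgebra (ZMod q) G, a * t ∈ T := fun a => by
    have := T.smul_mem a ht
    rwa [smul_eq_mul] at this
  refine ⟨t, ?_, ?_, ?_⟩
  · rintro rfl
    rw [add_zero] at hjt
    exact h1 (hjt ▸ hj)
  · have h2 : t * j = 0 := by
      apply hdisj
      · exact Ideal.mul_mem_left _ t hj
      · have h3 : t * j = t - t * t := by
          have : t * (j + t) = t := by rw [hjt, mul_one]
          rw [mul_add] at this
          exact eq_sub_of_add_eq this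
        rw [h3]
        exact T.sub_mem ht (hmulT t)
    have : t * (j + t) = t := by rw [hjt, mul_one]
    rw [mul_add, h2, zero_add] at this
    exact this
  · intro c hc s
    apply hdisj
    · rw [mul_assoc]
      exact nrm_mul_mem_J hc _
    · exact hmulT _

end Cfsg.Agent.Helper71.FpfLift
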