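import Mathlib
import Cfsg.Agent.Helper71.FpfLiftB

/-!
# Norm elements: lifting the Maschke idempotent modulo `q ^ k`

The ideal of norm elements of `ℤ[G]` contains no positive integer, provided `G` has a
fixed-point-free ring representation.
-/

set_option autoImplicit false

namespace Cfsg.Agent.Helper71.FpfLift

open Cfsg.Agent.Helper56

variable {G : Type*} [Group G]

section reduction

variable (q k : ℕ) [Fact q.Prime] (hk : k ≠ 0)

/-- reduction modulo `q` of the group algebra over `ZMod (q ^ k)` -/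
noncomputable def red : MonoidAlgebra (ZMod (q ^ k)) G →+* MonoidAlgebra (ZMod q) G :=
  MonoidAlgebra.mapRingHom G (ZMod.castHom (dvd_pow_self q hk) (ZMod q))

theorem red_coeff (x : MonoidAlgebra (ZMod (q ^ k)) G) (g : G) :
    (red (G := G) q k hk x).coeff g = ZMod.castHom (dvd_pow_self q hk) (ZMod q) (x.coeff g) :=
  MonoidAlgebra.coeff_mapRingHom _ _ _

instance neZero_pow : NeZero (q ^ k) := ⟨pow_ne_zero k (Fact.out : q.Prime).ne_zero⟩

theorem red_surjective : Function.Surjective (red (G := G) q k hk) := by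
  intro x
  refine ⟨MonoidAlgebra.ofCoeff
    (x.coeff.mapRange (fun a => ((a.val : ℕ) : ZMod (q ^ k))) (by simp)), ?_⟩
  apply MonoidAlgebra.coeff_injective
  ext g
  rw [red_coeff, MonoidAlgebra.coeff_ofCoeff, Finsupp.mapRange_apply, map_natCast,
    ZMod.natCast_zmod_val]

theorem exists_eq_smul_of_red_eq_zero (x : MonoidAlgebra (ZMod (q ^ k)) G)
    (hx : red (G := G) q k hk x = 0) : ∃ y : MonoidAlgebra (ZMod (q ^ k)) G, x = q • y := by
  refine ⟨MonoidAlgebra.ofCoeff
    (x.coeff.mapRange (fun a => ((a.val / q : ℕ) : ZMod (q ^ k))) (by simp)), ?_⟩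
  apply MonoidAlgebra.coeff_injective
  ext g
  rw [MonoidAlgebra.coeff_smul, MonoidAlgebra.coeff_ofCoeff, Finsupp.smul_apply,
    Finsupp.mapRange_apply, nsmul_eq_mul, ← Nat.cast_mul]
  have h1 : (red (G := G) q k hk x).coeff g = 0 := by rw [hx]; rfl
  rw [red_coeff] at h1
  have h2 : ((x.coeff g).val : ZMod q) = 0 := by
    rw [← map_natCast (ZMod.castHom (dvd_pow_self q hk) (ZMod q)), ZMod.natCast_zmod_val]
    exact h1
  have h3 : q ∣ (x.coeff g).val := (ZMod.natCast_eq_zero_iff _ _).mp h2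
  rw [Nat.mul_div_cancel' h3, ZMod.natCast_zmod_val]

omit [Fact q.Prime] in
theorem pow_smul_eq_zero (y : MonoidAlgebra (ZMod (q ^ k)) G) : (q ^ k) • y = 0 := by
  rw [← Nat.cast_smul_eq_nsmul (ZMod (q ^ k)), ZMod.natCast_self, zero_smul]

theorem red_ker_nilpotent (x : MonoidAlgebra (ZMod (q ^ k)) G)
    (hx : x ∈ RingHom.ker (red (G := G) q k hk)) : IsNilpotent x := by
  obtain ⟨y, rfl⟩ := exists_eq_smul_of_red_eq_zero q k hk x ((RingHom.mem_ker).mp hx)
  exact ⟨k, by rw [smul_pow, pow_smul_eq_zero]⟩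

theorem red_nrm (c : G) : red (G := G) q k hk (nrm (ZMod (q ^ k)) c) = nrm (ZMod q) c :=
  map_nrm _ c

end reduction

/-- the lifted idempotent is annihilated by the norm elements -/
theorem lift_annihilated [Finite G] (q k : ℕ) [Fact q.Prime] (hk : k ≠ 0)
    (hq : ¬ q ∣ Nat.card G) (t : MonoidAlgebra (ZMod q) G)
    (htn : ∀ c : G, (orderOf c).Prime → ∀ s : MonoidAlgebra (ZMod q) G,
      nrm (ZMod q) c * s * t = 0)
    (e : MonoidAlgebra (ZMod (q ^ k)) G) (he : e * e = e) (hπe : red (G := G) q k hk e = t)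
    (c : G) (hc : (orderOf c).Prime) (s : MonoidAlgebra (ZMod (q ^ k)) G) :
    nrm (ZMod (q ^ k)) c * s * e = 0 := by
  have base : ∀ s : MonoidAlgebra (ZMod (q ^ k)) G, ∃ y : MonoidAlgebra (ZMod (q ^ k)) G,
      nrm (ZMod (q ^ k)) c * s * e = q • y := by
    intro s
    apply exists_eq_smul_of_red_eq_zero q k hk
    rw [map_mul, map_mul, red_nrm, hπe]
    exact htn c hc _
  have step : ∀ j : ℕ, ∀ s : MonoidAlgebra (ZMod (q ^ k)) G,
      ∃ y : MonoidAlgebra (ZMod (q ^ k)) G,
        (orderOf c) ^ j • (nrm (ZMod (q ^ k)) c * s * e) = q ^ (j + 1) • y := by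
    intro j
    induction j with
    | zero =>
      intro s
      obtain ⟨y, hy⟩ := base s
      exact ⟨y, by rw [pow_zero, one_smul, zero_add, pow_one, hy]⟩
    | succ j ih =>
      intro s
      obtain ⟨y₀, hy₀⟩ := base s
      obtain ⟨y', hy'⟩ := ih y₀
      refine ⟨y', ?_⟩
      have hx1 : nrm (ZMod (q ^ k)) c * s * e = q • (y₀ * e) := by
        calc nrm (ZMod (q ^ k)) c * s * e = nrm (ZMod (q ^ k)) c * s * (e * e) := by rw [he]
          _ = (nrm (ZMod (q ^ k)) c * s * e) * e := by rw [mul_assoc _ e e]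
          _ = q • (y₀ * e) := by rw [hy₀, smul_mul_assoc]
      have hx2 : orderOf c • (nrm (ZMod (q ^ k)) c * s * e) =
          q • (nrm (ZMod (q ^ k)) c * y₀ * e) := by
        calc orderOf c • (nrm (ZMod (q ^ k)) c * s * e)
            = (orderOf c • nrm (ZMod (q ^ k)) c) * s * e := by
              rw [smul_mul_assoc, smul_mul_assoc]
          _ = nrm (ZMod (q ^ k)) c * (nrm (ZMod (q ^ k)) c * s * e) := by
              rw [← nrm_mul_nrm, mul_assoc, mul_assoc, mul_assoc]
          _ = nrm (ZMod (q ^ k)) c * (q • (y₀ * e)) := by rw [hx1]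
          _ = q • (nrm (ZMod (q ^ k)) c * y₀ * e) := by rw [mul_smul_comm, mul_assoc]
      calc (orderOf c) ^ (j + 1) • (nrm (ZMod (q ^ k)) c * s * e)
          = (orderOf c) ^ j • (orderOf c • (nrm (ZMod (q ^ k)) c * s * e)) := by
            rw [pow_succ, mul_smul]
        _ = (orderOf c) ^ j • (q • (nrm (ZMod (q ^ k)) c * y₀ * e)) := by rw [hx2]
        _ = q • ((orderOf c) ^ j • (nrm (ZMod (q ^ k)) c * y₀ * e)) := by rw [smul_comm]
        _ = q • (q ^ (j + 1) • y') := by rw [hy']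
        _ = q ^ (j + 1 + 1) • y' := by rw [← mul_smul, ← pow_succ']
  obtain ⟨y, hy⟩ := step (k - 1) s
  have hk1 : k - 1 + 1 = k := Nat.succ_pred_eq_of_ne_zero hk
  rw [hk1, pow_smul_eq_zero] at hy
  have hcop : Nat.Coprime ((orderOf c) ^ (k - 1)) (q ^ k) := by
    apply Nat.Coprime.pow
    rw [Nat.coprime_primes hc (Fact.out : q.Prime)]
    intro h
    exact hq (h ▸ orderOf_dvd_natCard c)
  have hunit : IsUnit (((orderOf c) ^ (k - 1) : ℕ) : ZMod (q ^ k)) :=
    (ZMod.isUnit_iff_coprime _ _).mpr hcop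
  have h2 : (((orderOf c) ^ (k - 1) : ℕ) : ZMod (q ^ k)) • (nrm (ZMod (q ^ k)) c * s * e) = 0 := by
    rw [Nat.cast_smul_eq_nsmul]; exact hy
  exact (hunit.smul_eq_zero).mp h2

section rho

variable {R : Type*} [Ring R] {ρ : G →* R}

/-- **Non-torsion**: the ideal of norm elements of `ℤ[G]` contains no positive integer when `G`
has a fixed-point-free ring representation. -/
theorem natCast_notMem_J [Finite G] [Nontrivial R] (hρ : Fpf ρ) {m : ℕ} (hm : 0 < m) :
    (m : MonoidAlgebra ℤ G) ∉ J ℤ (G := G) := by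
  intro hmJ
  obtain ⟨q, hq, hqG, h1⟩ := exists_prime_data hρ hm hmJ
  have : Fact q.Prime := ⟨hq⟩
  obtain ⟨t, ht0, htt, htn⟩ := exists_idem hqG h1
  have hk : m ≠ 0 := hm.ne'
  obtain ⟨e, he, hπe⟩ := exists_isIdempotentElem_eq_of_ker_isNilpotent (red (G := G) q m hk)
    (red_ker_nilpotent q m hk) t (RingHom.mem_range.mpr (red_surjective q m hk t)) htt
  have hann := lift_annihilated q m hk hqG t htn e he.eq hπe
  -- the ideal of norm elements annihilates `e`
  have hJe : ∀ x : MonoidAlgebra (ZMod (q ^ m)) G, x ∈ J (ZMod (q ^ m)) (G := G) → x * e = 0 := by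
    intro x hx
    unfold J at hx
    induction hx using Submodule.span_induction with
    | mem x hx =>
      obtain ⟨c, g, hc, rfl⟩ := hx
      exact hann c hc _
    | zero => rw [zero_mul]
    | add x y _ _ hx hy => rw [add_mul, hx, hy, add_zero]
    | smul a x _ hx => rw [smul_eq_mul, mul_assoc, hx, mul_zero]
  have hm1 : (m : MonoidAlgebra (ZMod (q ^ m)) G) ∈ J (ZMod (q ^ m)) (G := G) := by
    have := map_mem_J (Int.castRingHom (ZMod (q ^ m))) hmJ
    rwa [map_natCast] at this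
  have hme : m • e = 0 := by
    rw [nsmul_eq_mul]; exact hJe _ hm1
  -- a coefficient of `e` which is a unit
  have hcoef : ∃ g : G, t.coeff g ≠ 0 := by
    by_contra hno
    push Not at hno
    apply ht0
    apply MonoidAlgebra.coeff_injective
    ext g
    exact hno g
  obtain ⟨g, hg⟩ := hcoef
  rw [← hπe, red_coeff] at hg
  have h2 : ((e.coeff g).val : ZMod q) ≠ 0 := by
    rw [← map_natCast (ZMod.castHom (dvd_pow_self q hk) (ZMod q)), ZMod.natCast_zmod_val]
    exact hg
  have h3 : ¬ q ∣ (e.coeff g).val := fun h => h2 ((ZMod.natCast_eq_zero_iff _ _).mpr h)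
  have h4 : Nat.Coprime (q ^ m) (e.coeff g).val :=
    Nat.Coprime.pow_left m ((Nat.Prime.coprime_iff_not_dvd hq).mpr h3)
  have h5 : ((m * (e.coeff g).val : ℕ) : ZMod (q ^ m)) = 0 := by
    have h6 : (m • e).coeff g = 0 := by rw [hme]; rfl
    rw [MonoidAlgebra.coeff_smul, Finsupp.smul_apply, nsmul_eq_mul] at h6
    rw [Nat.cast_mul, ZMod.natCast_zmod_val]
    exact h6
  have h7 : q ^ m ∣ m * (e.coeff g).val := (ZMod.natCast_eq_zero_iff _ _).mp h5
  have h8 : q ^ m ∣ m := h4.dvd_of_dvd_mul_right h7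
  have h9 := Nat.le_of_dvd hm h8
  have h10 : m < q ^ m := Nat.lt_pow_self hq.one_lt
  omega

end rho

end Cfsg.Agent.Helper71.FpfLift
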