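import Mathlib
import Cfsg.Agent.Helper71.FpfLiftC

/-!
# An integral fixed-point-free representation

A finite group with a fixed-point-free ring representation has an integral matrix representation
of positive degree in which the norm elements of all subgroups of prime order act as zero; over
any field whose characteristic does not divide the group order this representation is
fixed-point-free.
-/

set_option autoImplicit false

namespace Cfsg.Agent.Helper71.FpfLift

open Cfsg.Agent.Helper56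

variable {G : Type*} [Group G]

/-- the saturation of the ideal of norm elements, as a `ℤ`-submodule -/
noncomputable def Jsat : Submodule ℤ (MonoidAlgebra ℤ G) where
  carrier := {x | ∃ a : ℤ, a ≠ 0 ∧ a • x ∈ J ℤ (G := G)}
  add_mem' := by
    rintro x y ⟨a, ha, hx⟩ ⟨b, hb, hy⟩
    refine ⟨a * b, mul_ne_zero ha hb, ?_⟩
    have h1 : (a * b) • (x + y) = b • (a • x) + a • (b • y) := by
      rw [smul_add, mul_smul, mul_smul, smul_comm a b x]
    rw [h1]
    exact Submodule.add_mem _ (zsmul_mem hx b) (zsmul_mem hy a)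
  zero_mem' := ⟨1, one_ne_zero, by rw [smul_zero]; exact Submodule.zero_mem _⟩
  smul_mem' := by
    rintro c x ⟨a, ha, hx⟩
    refine ⟨a, ha, ?_⟩
    rw [smul_comm]
    exact zsmul_mem hx c

theorem mem_Jsat {x : MonoidAlgebra ℤ G} :
    x ∈ Jsat (G := G) ↔ ∃ a : ℤ, a ≠ 0 ∧ a • x ∈ J ℤ (G := G) := Iff.rfl

theorem J_le_Jsat {x : MonoidAlgebra ℤ G} (hx : x ∈ J ℤ (G := G)) : x ∈ Jsat (G := G) :=
  ⟨1, one_ne_zero, by rwa [one_smul]⟩

theorem mul_mem_Jsat (a : MonoidAlgebra ℤ G) {x : MonoidAlgebra ℤ G} (hx : x ∈ Jsat (G := G)) :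
    a * x ∈ Jsat (G := G) := by
  obtain ⟨n, hn, hx⟩ := hx
  refine ⟨n, hn, ?_⟩
  rw [← mul_smul_comm]
  exact Ideal.mul_mem_left _ a hx

/-- the action of a group element on the lattice -/
noncomputable def act (g : G) :
    (MonoidAlgebra ℤ G ⧸ Jsat (G := G)) →ₗ[ℤ] (MonoidAlgebra ℤ G ⧸ Jsat (G := G)) :=
  (Jsat (G := G)).mapQ (Jsat (G := G)) (LinearMap.mulLeft ℤ (MonoidAlgebra.of ℤ G g))
    (fun _ hx => mul_mem_Jsat _ hx)

theorem act_mk (g : G) (x : MonoidAlgebra ℤ G) :
    act g (Submodule.Quotient.mk x) = Submodule.Quotient.mk (MonoidAlgebra.of ℤ G g * x) := rfl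

theorem act_one : act (1 : G) = LinearMap.id := by
  apply LinearMap.ext
  intro x
  obtain ⟨x, rfl⟩ := Submodule.Quotient.mk_surjective _ x
  rw [act_mk, map_one, one_mul, LinearMap.id_apply]

theorem act_mul (g h : G) : act (g * h) = (act g).comp (act h) := by
  apply LinearMap.ext
  intro x
  obtain ⟨x, rfl⟩ := Submodule.Quotient.mk_surjective _ x
  rw [LinearMap.comp_apply, act_mk, act_mk, act_mk, map_mul, mul_assoc]

theorem act_nrm {c : G} (hc : (orderOf c).Prime) :
    ∑ i ∈ Finset.range (orderOf c), act (c ^ i) = 0 := by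
  apply LinearMap.ext
  intro x
  obtain ⟨x, rfl⟩ := Submodule.Quotient.mk_surjective _ x
  rw [LinearMap.sum_apply, LinearMap.zero_apply]
  have h1 : ∀ i ∈ Finset.range (orderOf c), act (c ^ i) (Submodule.Quotient.mk x) =
      (Jsat (G := G)).mkQ (MonoidAlgebra.of ℤ G (c ^ i) * x) := fun i _ => rfl
  rw [Finset.sum_congr rfl h1, ← map_sum, ← Finset.sum_mul]
  have h2 : (∑ i ∈ Finset.range (orderOf c), MonoidAlgebra.of ℤ G (c ^ i)) * x ∈
      Jsat (G := G) := J_le_Jsat (nrm_mul_mem_J hc x)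
  rw [Submodule.mkQ_apply, Submodule.Quotient.mk_eq_zero]
  exact h2

section rho

variable {R : Type*} [Ring R] {ρ : G →* R}

theorem one_notMem_Jsat [Finite G] [Nontrivial R] (hρ : Fpf ρ) :
    (1 : MonoidAlgebra ℤ G) ∉ Jsat (G := G) := by
  rintro ⟨a, ha, h1⟩
  have h2 : (a.natAbs : MonoidAlgebra ℤ G) ∈ J ℤ (G := G) := by
    rcases Int.natAbs_eq a with h | h
    · have h3 : a • (1 : MonoidAlgebra ℤ G) = (a.natAbs : MonoidAlgebra ℤ G) := by
        rw [zsmul_eq_mul, mul_one]
        conv_lhs => rw [h]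
        rw [Int.cast_natCast]
      rwa [h3] at h1
    · have h3 : a • (1 : MonoidAlgebra ℤ G) = -(a.natAbs : MonoidAlgebra ℤ G) := by
        rw [zsmul_eq_mul, mul_one]
        conv_lhs => rw [h]
        rw [Int.cast_neg, Int.cast_natCast]
      rw [h3] at h1
      simpa using Submodule.neg_mem _ h1
  exact natCast_notMem_J hρ (Int.natAbs_pos.mpr ha) h2

/-- **The integral representation.** -/
theorem exists_int_rep [Finite G] [Nontrivial R] (hρ : Fpf ρ) :
    ∃ (r : ℕ) (σ : G →* Matrix (Fin r) (Fin r) ℤ), 0 < r ∧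
      ∀ c : G, (orderOf c).Prime → ∑ i ∈ Finset.range (orderOf c), σ c ^ i = 0 := by
  classical
  have hfin : Module.Finite ℤ (MonoidAlgebra ℤ G ⧸ Jsat (G := G)) :=
    Module.Finite.of_surjective (Jsat (G := G)).mkQ (Submodule.mkQ_surjective _)
  have htf : Module.IsTorsionFree ℤ (MonoidAlgebra ℤ G ⧸ Jsat (G := G)) := by
    apply Module.IsTorsionFree.of_smul_eq_zero
    intro a x hx
    obtain ⟨x, rfl⟩ := Submodule.Quotient.mk_surjective _ x
    by_cases ha : a = 0
    · exact Or.inl ha
    · right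
      rw [← Submodule.Quotient.mk_smul, Submodule.Quotient.mk_eq_zero] at hx
      obtain ⟨b, hb, hx⟩ := hx
      rw [Submodule.Quotient.mk_eq_zero]
      exact ⟨b * a, mul_ne_zero hb ha, by rwa [mul_smul]⟩
  obtain ⟨r, b⟩ := Module.basisOfFiniteTypeTorsionFree' (R := ℤ)
    (M := MonoidAlgebra ℤ G ⧸ Jsat (G := G))
  have hne : (Submodule.Quotient.mk (1 : MonoidAlgebra ℤ G) :
      MonoidAlgebra ℤ G ⧸ Jsat (G := G)) ≠ 0 := by
    rw [Ne, Submodule.Quotient.mk_eq_zero]
    exact one_notMem_Jsat hρ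
  refine ⟨r, { toFun := fun g => LinearMap.toMatrix b b (act g), map_one' := ?_, map_mul' := ?_ },
    ?_, ?_⟩
  · rw [act_one, LinearMap.toMatrix_id]
  · intro g h
    rw [act_mul, LinearMap.toMatrix_comp b b b]
  · rcases Nat.eq_zero_or_pos r with h0 | h0
    · exfalso
      subst h0
      apply hne
      apply b.repr.injective
      ext i
      exact i.elim0
    · exact h0
  · intro c hc
    have h1 : ∀ i : ℕ,
        (LinearMap.toMatrix b b (act c)) ^ i = LinearMap.toMatrix b b (act (c ^ i)) := by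
      intro i
      induction i with
      | zero => rw [pow_zero, pow_zero, act_one, LinearMap.toMatrix_id]
      | succ i ih => rw [pow_succ, ih, pow_succ, act_mul, LinearMap.toMatrix_comp b b b]
    show ∑ i ∈ Finset.range (orderOf c), (LinearMap.toMatrix b b (act c)) ^ i = 0
    rw [Finset.sum_congr rfl (fun i _ => h1 i), ← map_sum, act_nrm hc, map_zero]

end rho

section field

variable {K : Type*} [Field K]

/-- a matrix representation over a field in which the norm elements act as zero is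
fixed-point-free if the group order is invertible -/
theorem fpf_of_nrm [Finite G] {r : ℕ} (τ : G →* Matrix (Fin r) (Fin r) K)
    (hτ : ∀ c : G, (orderOf c).Prime → ∑ i ∈ Finset.range (orderOf c), τ c ^ i = 0)
    (hK : (Nat.card G : K) ≠ 0) (g : G) (hg : g ≠ 1) (v : Fin r → K)
    (hv : (τ g).mulVec v = v) : v = 0 := by
  have ho1 : orderOf g ≠ 1 := fun h => hg (orderOf_eq_one_iff.mp h)
  have ho0 : orderOf g ≠ 0 := (orderOf_pos g).ne'
  have hp : (orderOf g).minFac.Prime := Nat.minFac_prime ho1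
  have hpd : (orderOf g).minFac ∣ orderOf g := Nat.minFac_dvd _
  set p := (orderOf g).minFac with hpdef
  have hc : orderOf (g ^ (orderOf g / p)) = p := orderOf_pow_orderOf_div ho0 hpd
  have hfix : ∀ n : ℕ, (τ g ^ n).mulVec v = v := by
    intro n
    induction n with
    | zero => rw [pow_zero, Matrix.one_mulVec]
    | succ n ih => rw [pow_succ, ← Matrix.mulVec_mulVec, hv, ih]
  have h1 := hτ _ (hc ▸ hp)
  rw [hc] at h1
  have h2 : (∑ i ∈ Finset.range p, τ (g ^ (orderOf g / p)) ^ i).mulVec v = p • v := by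
    rw [Matrix.sum_mulVec]
    have h3 : ∀ i ∈ Finset.range p, (τ (g ^ (orderOf g / p)) ^ i).mulVec v = v := by
      intro i _
      rw [map_pow, ← pow_mul]
      exact hfix _
    rw [Finset.sum_congr rfl h3, Finset.sum_const, Finset.card_range]
  rw [h1, Matrix.zero_mulVec] at h2
  have hpK : (p : K) ≠ 0 := by
    intro h0
    apply hK
    obtain ⟨d, hd⟩ := hpd.trans (orderOf_dvd_natCard g)
    rw [hd, Nat.cast_mul, h0, zero_mul]
  have h4 : (p : K) • v = 0 := by
    rw [Nat.cast_smul_eq_nsmul]; exact h2.symm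
  exact (smul_eq_zero.mp h4).resolve_left hpK

/-- **A fixed-point-free matrix representation over any field of good characteristic.** -/
theorem exists_field_rep [Finite G] {R : Type*} [Ring R] [Nontrivial R] {ρ : G →* R}
    (hρ : Fpf ρ) (hK : (Nat.card G : K) ≠ 0) :
    ∃ (r : ℕ) (τ : G →* Matrix (Fin r) (Fin r) K), 0 < r ∧
      ∀ g : G, g ≠ 1 → ∀ v : Fin r → K, (τ g).mulVec v = v → v = 0 := by
  obtain ⟨r, σ, hr, hσ⟩ := exists_int_rep hρ
  refine ⟨r, ((Int.castRingHom K).mapMatrix :
    Matrix (Fin r) (Fin r) ℤ →+* Matrix (Fin r) (Fin r) K).toMonoidHom.comp σ, hr, ?_⟩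
  apply fpf_of_nrm _ _ hK
  intro c hc
  have h1 : ∀ i ∈ Finset.range (orderOf c),
      (((Int.castRingHom K).mapMatrix :
        Matrix (Fin r) (Fin r) ℤ →+* Matrix (Fin r) (Fin r) K).toMonoidHom.comp
        σ c) ^ i = (Int.castRingHom K).mapMatrix (σ c ^ i) := by
    intro i _
    rw [map_pow]
    rfl
  rw [Finset.sum_congr rfl h1, ← map_sum, hσ c hc, map_zero]

end field

end Cfsg.Agent.Helper71.FpfLift
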