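import Mathlib
import Cfsg.Agent.Helper71.FpfLiftD
import Cfsg.Agent.Helper71.Frobenius
import Cfsg.Agent.Helper56.ZFrob
import Cfsg.Agent.Helper56.ZSylow

/-!
# Frobenius complements and fixed-point-free ring representations

A finite nontrivial group is (isomorphic to) a Frobenius complement if and only if it has a
fixed-point-free ring representation; direct products of Frobenius complements of coprime orders
are Frobenius complements.
-/

set_option autoImplicit false

namespace Cfsg.Agent.Helper71.FpfProd

open Cfsg.Agent.Helper56 Cfsg.Agent.Helper71.FpfLift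

/-- a group isomorphic to a Frobenius complement has a fixed-point-free ring representation -/
theorem fpf_of_frob {G : Type*} [Group G]
    (hFC : ∃ (L : Type) (_ : Group L) (_ : Finite L) (H : Subgroup L),
      Cfsg.IsFrobeniusComplement H ∧ Nonempty (G ≃* H)) :
    ∃ (R : Type) (_ : Ring R) (_ : Nontrivial R) (ρ : G →* R), Fpf ρ := by
  obtain ⟨L, _, _, H, hH, ⟨e⟩⟩ := hFC
  obtain ⟨R, _, _, ρ, hρ⟩ := frobComp_fpf_ring H hH
  exact ⟨R, inferInstance, inferInstance, ρ.comp e.toMonoidHom,
    hρ.comp e.toMonoidHom e.injective⟩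

/-- a matrix all of whose columns are fixed by a fixed-point-free matrix is zero -/
theorem eq_zero_of_mul_eq {r s : ℕ} {K : Type*} [Field K] (Y : Matrix (Fin r) (Fin r) K)
    (hY : ∀ v : Fin r → K, Y.mulVec v = v → v = 0) (M : Matrix (Fin r) (Fin s) K)
    (h : Y * M = M) : M = 0 := by
  ext i j
  have h1 := hY (fun k => M k j) (by
    funext k
    have := congrFun (congrFun h k) j
    simpa [Matrix.mul_apply, Matrix.mulVec, dotProduct] using this)
  exact congrFun h1 i

/-- a prime not dividing two given positive numbers -/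
theorem exists_prime_not_dvd (a b : ℕ) (ha : 0 < a) (hb : 0 < b) :
    ∃ q : ℕ, q.Prime ∧ ¬ q ∣ a ∧ ¬ q ∣ b := by
  obtain ⟨q, hqge, hq⟩ := Nat.exists_infinite_primes (a + b + 1)
  refine ⟨q, hq, fun h => ?_, fun h => ?_⟩
  · have := Nat.le_of_dvd ha h
    omega
  · have := Nat.le_of_dvd hb h
    omega

/-- **A finite nontrivial group with a fixed-point-free ring representation is a Frobenius
complement.** -/
theorem frob_of_fpf {G : Type*} [Group G] [Finite G] [Nontrivial G] {R : Type*} [Ring R]
    [Nontrivial R] {ρ : G →* R} (hρ : Fpf ρ) :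
    ∃ (L : Type) (_ : Group L) (_ : Finite L) (H : Subgroup L),
      Cfsg.IsFrobeniusComplement H ∧ Nonempty (G ≃* H) := by
  obtain ⟨q, hq, hqG, -⟩ := exists_prime_not_dvd (Nat.card G) 1 Nat.card_pos one_pos
  have : Fact q.Prime := ⟨hq⟩
  have hK : (Nat.card G : ZMod q) ≠ 0 := by
    rw [Ne, ZMod.natCast_eq_zero_iff]; exact hqG
  obtain ⟨r, τ, hr, hτ⟩ := exists_field_rep (K := ZMod q) hρ hK
  have : Nonempty (Fin r) := Fin.pos_iff_nonempty.mp hr
  let act : DistribMulAction G (Fin r → ZMod q) :=
    { smul := fun g v => (τ g).mulVec v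
      one_smul := fun v => by
        show (τ 1).mulVec v = v
        rw [map_one, Matrix.one_mulVec]
      mul_smul := fun g h v => by
        show (τ (g * h)).mulVec v = (τ g).mulVec ((τ h).mulVec v)
        rw [map_mul, Matrix.mulVec_mulVec]
      smul_zero := fun g => Matrix.mulVec_zero _
      smul_add := fun g v w => Matrix.mulVec_add _ _ _ }
  exact Cfsg.Agent.Helper71.exists_frobenius_of_free_distribMulAction
    (H := G) (A := Fin r → ZMod q) (fun g hg v hv => hτ g hg v hv)

/-- **Direct products of coprime order.** -/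
theorem frob_prod {A B : Type*} [Group A] [Finite A] [Nontrivial A] [Group B] [Finite B]
    {R S : Type*} [Ring R] [Nontrivial R] [Ring S] [Nontrivial S] {ρ : A →* R} {σ : B →* S}
    (hρ : Fpf ρ) (hσ : Fpf σ) (hcop : (Nat.card A).Coprime (Nat.card B)) :
    ∃ (L : Type) (_ : Group L) (_ : Finite L) (H : Subgroup L),
      Cfsg.IsFrobeniusComplement H ∧ Nonempty ((A × B) ≃* H) := by
  obtain ⟨q, hq, hqA, hqB⟩ :=
    exists_prime_not_dvd (Nat.card A) (Nat.card B) Nat.card_pos Nat.card_pos
  have : Fact q.Prime := ⟨hq⟩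
  have hKA : (Nat.card A : ZMod q) ≠ 0 := by
    rw [Ne, ZMod.natCast_eq_zero_iff]; exact hqA
  have hKB : (Nat.card B : ZMod q) ≠ 0 := by
    rw [Ne, ZMod.natCast_eq_zero_iff]; exact hqB
  obtain ⟨r, τA, hr, hτA⟩ := exists_field_rep (K := ZMod q) hρ hKA
  obtain ⟨s, τB, hs, hτB⟩ := exists_field_rep (K := ZMod q) hσ hKB
  have : Nonempty (Fin r) := Fin.pos_iff_nonempty.mp hr
  have : Nonempty (Fin s) := Fin.pos_iff_nonempty.mp hs
  let act : DistribMulAction (A × B) (Matrix (Fin r) (Fin s) (ZMod q)) :=
    { smul := fun g M => τA g.1 * M * (τB g.2).transpose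
      one_smul := fun M => by
        show τA (1 : A × B).1 * M * (τB (1 : A × B).2).transpose = M
        rw [Prod.fst_one, Prod.snd_one, map_one, map_one, Matrix.transpose_one, Matrix.one_mul,
          Matrix.mul_one]
      mul_smul := fun g h M => by
        show τA (g * h).1 * M * (τB (g * h).2).transpose =
          τA g.1 * (τA h.1 * M * (τB h.2).transpose) * (τB g.2).transpose
        rw [Prod.fst_mul, Prod.snd_mul, map_mul, map_mul, Matrix.transpose_mul]
        simp only [Matrix.mul_assoc]
      smul_zero := fun g => by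
        show τA g.1 * 0 * (τB g.2).transpose = 0
        rw [Matrix.mul_zero, Matrix.zero_mul]
      smul_add := fun g M N => by
        show τA g.1 * (M + N) * (τB g.2).transpose =
          τA g.1 * M * (τB g.2).transpose + τA g.1 * N * (τB g.2).transpose
        rw [Matrix.mul_add, Matrix.add_mul] }
  have hsmul : ∀ (g : A × B) (M : Matrix (Fin r) (Fin s) (ZMod q)),
      g • M = τA g.1 * M * (τB g.2).transpose := fun g M => rfl
  apply Cfsg.Agent.Helper71.exists_frobenius_of_free_distribMulAction
    (H := A × B) (A := Matrix (Fin r) (Fin s) (ZMod q))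
  intro g hg M hM
  have hpow : ∀ n : ℕ, g ^ n • M = M := by
    intro n
    induction n with
    | zero => rw [pow_zero, one_smul]
    | succ n ih => rw [pow_succ, mul_smul, hM, ih]
  by_cases ha : g.1 = 1
  · have hb : g.2 ≠ 1 := fun hb => hg (Prod.ext ha hb)
    rw [hsmul, ha, map_one, Matrix.one_mul] at hM
    have h1 : τB g.2 * M.transpose = M.transpose := by
      have := congrArg Matrix.transpose hM
      rwa [Matrix.transpose_mul, Matrix.transpose_transpose] at this
    have h2 := eq_zero_of_mul_eq (τB g.2) (hτB g.2 hb) M.transpose h1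
    have h3 := congrArg Matrix.transpose h2
    rwa [Matrix.transpose_transpose, Matrix.transpose_zero] at h3
  · have h1 := hpow (orderOf g.2)
    rw [hsmul, Prod.pow_fst, Prod.pow_snd, pow_orderOf_eq_one, map_one, Matrix.transpose_one,
      Matrix.mul_one] at h1
    have h2 : g.1 ^ orderOf g.2 ≠ 1 := by
      intro h
      have h3 : orderOf g.1 ∣ orderOf g.2 := orderOf_dvd_of_pow_eq_one h
      have h4 : orderOf g.1 ∣ Nat.card A := orderOf_dvd_natCard g.1
      have h5 : orderOf g.2 ∣ Nat.card B := orderOf_dvd_natCard g.2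
      have h6 : orderOf g.1 = 1 :=
        Nat.eq_one_of_dvd_coprimes hcop h4 (h3.trans h5)
      exact ha (orderOf_eq_one_iff.mp h6)
    exact eq_zero_of_mul_eq (τA (g.1 ^ orderOf g.2)) (hτA _ h2) M h1

/-- the orders of the factors of a direct product with a fixed-point-free ring representation
are coprime -/
theorem coprime_of_fpf_prod {A B : Type*} [Group A] [Finite A] [Group B] [Finite B]
    {R : Type*} [Ring R] [Nontrivial R] {ρ : A × B →* R} (hρ : Fpf ρ) :
    (Nat.card A).Coprime (Nat.card B) := by
  by_contra hcon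
  obtain ⟨p, hp, hpA, hpB⟩ := Nat.Prime.not_coprime_iff_dvd.mp hcon
  have : Fact p.Prime := ⟨hp⟩
  obtain ⟨a, ha⟩ := exists_prime_orderOf_dvd_card' p hpA
  obtain ⟨b, hb⟩ := exists_prime_orderOf_dvd_card' p hpB
  have ha1 : a ≠ 1 := by
    rintro rfl
    rw [orderOf_one] at ha
    exact hp.one_lt.ne ha
  have hb1 : b ≠ 1 := by
    rintro rfl
    rw [orderOf_one] at hb
    exact hp.one_lt.ne hb
  have h1 : ((1 : A), b) ∈ Subgroup.zpowers ((a, (1 : B)) : A × B) := by
    apply hρ.mem_zpowers_of_commute hp
    · ext <;> simp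
    · ext
      · simp [← ha, pow_orderOf_eq_one]
      · simp
    · ext
      · simp
      · simp [← hb, pow_orderOf_eq_one]
    · intro h
      exact ha1 (congrArg Prod.fst h)
  obtain ⟨k, hk⟩ := Subgroup.mem_zpowers_iff.mp h1
  have h2 := congrArg Prod.snd hk
  simp at h2
  exact hb1 h2.symm

end Cfsg.Agent.Helper71.FpfProd
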