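import Mathlib

set_option autoImplicit false

namespace Cfsg.Agent.Helper71

universe u

/-- Restriction of an additive endomorphism to an invariant subgroup. -/
def addRestr {A : Type*} [AddCommGroup A] (S : AddSubgroup A) (i : A →+ A)
    (h : ∀ x ∈ S, i x ∈ S) : S →+ S :=
  (i.comp S.subtype).codRestrict S (fun x => h x.1 x.2)

theorem addRestr_coe {A : Type*} [AddCommGroup A] (S : AddSubgroup A) (i : A →+ A)
    (h : ∀ x ∈ S, i x ∈ S) (x : S) : ((addRestr S i h x : S) : A) = i x := rfl

/-- A finite abelian group killed by an odd prime `r` and carrying endomorphisms `i`, `j` with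
`i² = j² = -1`, `ij = -ji` has square order. -/
theorem isSquare_card_of_prime_torsion {V : Type*} [AddCommGroup V] [Finite V] (r : ℕ)
    (hr : r.Prime) (hr2 : r ≠ 2) (htor : ∀ x : V, r • x = 0) (i j : V →+ V)
    (hi : ∀ x, i (i x) = -x) (hj : ∀ x, j (j x) = -x) (hij : ∀ x, i (j x) = -j (i x)) :
    IsSquare (Nat.card V) := by
  haveI : Fact r.Prime := ⟨hr⟩
  obtain ⟨a, b, -, -, hab⟩ := Nat.sq_add_sq_zmodEq r (-1)
  obtain ⟨c, hc⟩ : ∃ c : ℤ, (a : ℤ) ^ 2 + (b : ℤ) ^ 2 + 1 = r * c := by
    obtain ⟨c, hc⟩ := hab.symm.dvd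
    exact ⟨c, by linarith⟩
  have htorz : ∀ x : V, (r : ℤ) • x = 0 := by
    intro x; rw [natCast_zsmul]; exact htor x
  obtain ⟨u, hu_apply⟩ : ∃ u : V →+ V, ∀ x, u x = (a : ℤ) • i x + (b : ℤ) • j x :=
    ⟨(a : ℤ) • i + (b : ℤ) • j, fun x => rfl⟩
  have hiji : ∀ x, i (j (i x)) = j x := by
    intro x; rw [hij, hi, map_neg, neg_neg]
  have hjij : ∀ x, j (i (j x)) = i x := by
    intro x; rw [hij, map_neg, hj, neg_neg]
  have hu : ∀ x, u (u x) = x := by
    intro x
    rw [hu_apply, hu_apply]
    simp only [map_add, map_zsmul, hi, hj, hij]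
    have e : (a : ℤ) • ((a : ℤ) • -x + (b : ℤ) • -j (i x)) +
        (b : ℤ) • ((a : ℤ) • j (i x) + (b : ℤ) • -x) =
        x - ((a : ℤ) ^ 2 + (b : ℤ) ^ 2 + 1) • x := by module
    rw [e, hc, mul_smul, htorz, sub_zero]
  obtain ⟨k, hk_apply⟩ : ∃ k : V →+ V, ∀ x, k x = i (j x) := ⟨i.comp j, fun x => rfl⟩
  have hk : ∀ x, k (k x) = -x := by
    intro x
    rw [hk_apply, hk_apply, hjij, hi]
  have hku : ∀ x, u (k x) = -k (u x) := by
    intro x
    rw [hu_apply, hk_apply, hk_apply, hu_apply]
    simp only [map_add, map_zsmul, hi, hj, hjij, hiji, map_neg]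
    module
  have hkinj : Function.Injective k := by
    intro x y hxy
    have := congrArg k hxy
    rw [hk, hk] at this
    exact neg_injective this
  obtain ⟨f, hf_apply⟩ : ∃ f : V →+ V, ∀ x, f x = x - u x :=
    ⟨AddMonoidHom.id V - u, fun x => rfl⟩
  have hker : ∀ x, x ∈ f.ker ↔ u x = x := by
    intro x
    rw [AddMonoidHom.mem_ker, hf_apply, sub_eq_zero]
    exact eq_comm
  have hrange : ∀ y, y ∈ f.range ↔ u y = -y := by
    intro y
    constructor
    · rintro ⟨x, rfl⟩
      rw [hf_apply, map_sub, hu, neg_sub]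
    · intro hy
      obtain ⟨t, ht⟩ : ∃ t, r = 2 * t + 1 := by
        rcases hr.eq_two_or_odd' with h | h
        · exact absurd h hr2
        · exact h
      refine ⟨(t + 1) • y, ?_⟩
      rw [hf_apply, map_nsmul, hy]
      have e : (t + 1) • y - (t + 1) • -y = r • y + y := by
        rw [ht]; module
      rw [e, htor, zero_add]
  have h1 : Nat.card f.ker * Nat.card f.range = Nat.card V := by
    rw [← AddSubgroup.index_ker, AddSubgroup.card_mul_index]
  have h2 : Nat.card f.ker ≤ Nat.card f.range := by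
    refine Nat.card_le_card_of_injective
      (fun x : f.ker => (⟨k x.1, (hrange _).mpr (by rw [hku, (hker _).mp x.2])⟩ : f.range)) ?_
    intro x y hxy
    exact Subtype.ext (hkinj (congrArg Subtype.val hxy))
  have h3 : Nat.card f.range ≤ Nat.card f.ker := by
    refine Nat.card_le_card_of_injective
      (fun x : f.range => (⟨k x.1, (hker _).mpr (by
        rw [hku, (hrange _).mp x.2, map_neg, neg_neg])⟩ : f.ker)) ?_
    intro x y hxy
    exact Subtype.ext (hkinj (congrArg Subtype.val hxy))
  refine ⟨Nat.card f.ker, ?_⟩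
  rw [← h1, le_antisymm h3 h2]

/-- A finite abelian group of odd order carrying endomorphisms `i`, `j` with `i² = j² = -1`,
`ij = -ji` has square order (additive form, by induction on the order). -/
theorem isSquare_card_of_quat_add_aux : ∀ (n : ℕ) (A : Type u) [AddCommGroup A] [Finite A]
    (i j : A →+ A), Nat.card A = n → Odd n → (∀ x, i (i x) = -x) → (∀ x, j (j x) = -x) →
    (∀ x, i (j x) = -j (i x)) → IsSquare n := by
  intro n
  induction n using Nat.strong_induction_on with
  | _ n ih =>
    intro A _ _ i j hA hodd hi hj hij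
    by_cases h1 : n = 1
    · rw [h1]; exact ⟨1, rfl⟩
    obtain ⟨r, hr, hrn⟩ := Nat.exists_prime_and_dvd h1
    have hr2 : r ≠ 2 := by
      rintro rfl
      exact (Nat.not_even_iff_odd.mpr hodd) (even_iff_two_dvd.mpr hrn)
    obtain ⟨φ, hφ⟩ : ∃ φ : A →+ A, ∀ x, φ x = r • x := ⟨nsmulAddMonoidHom r, fun x => rfl⟩
    have hcard : Nat.card φ.ker * Nat.card φ.range = n := by
      rw [← hA, ← AddSubgroup.index_ker, AddSubgroup.card_mul_index]
    have hker_inv : ∀ (e : A →+ A), ∀ x ∈ φ.ker, e x ∈ φ.ker := by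
      intro e x hx
      rw [AddMonoidHom.mem_ker, hφ] at hx ⊢
      rw [← map_nsmul, hx, map_zero]
    have hrange_inv : ∀ (e : A →+ A), ∀ x ∈ φ.range, e x ∈ φ.range := by
      rintro e _ ⟨y, rfl⟩
      exact ⟨e y, by rw [hφ, hφ, map_nsmul]⟩
    have hker_ne : 1 < Nat.card φ.ker := by
      haveI : Fact r.Prime := ⟨hr⟩
      obtain ⟨x, hx⟩ := exists_prime_addOrderOf_dvd_card' r (hA ▸ hrn)
      have hxker : x ∈ φ.ker := by
        rw [AddMonoidHom.mem_ker, hφ, ← hx]; exact addOrderOf_nsmul_eq_zero x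
      have hx0 : x ≠ 0 := by
        rintro rfl
        rw [addOrderOf_zero] at hx
        exact hr.one_lt.ne hx
      exact Finite.one_lt_card_iff_nontrivial.mpr
        ⟨⟨x, hxker⟩, 0, fun h => hx0 (congrArg Subtype.val h)⟩
    have hn0 : 0 < n := hodd.pos
    have hrange_pos : 0 < Nat.card φ.range := Nat.card_pos
    have hrange_lt : Nat.card φ.range < n := by nlinarith
    have hsq1 : IsSquare (Nat.card φ.ker) :=
      isSquare_card_of_prime_torsion r hr hr2
        (fun x => Subtype.ext (by
          have := x.2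
          rw [AddMonoidHom.mem_ker, hφ] at this
          exact this))
        (addRestr φ.ker i (hker_inv i)) (addRestr φ.ker j (hker_inv j))
        (fun x => Subtype.ext (hi x)) (fun x => Subtype.ext (hj x)) (fun x => Subtype.ext (hij x))
    have hodd2 : Odd (Nat.card φ.range) := by
      rw [← hcard] at hodd
      exact (Nat.odd_mul.mp hodd).2
    have hsq2 : IsSquare (Nat.card φ.range) :=
      ih _ hrange_lt φ.range (addRestr φ.range i (hrange_inv i))
        (addRestr φ.range j (hrange_inv j)) rfl hodd2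
        (fun x => Subtype.ext (hi x)) (fun x => Subtype.ext (hj x)) (fun x => Subtype.ext (hij x))
    rw [← hcard]
    exact hsq1.mul hsq2

/-- A finite abelian group of odd order carrying endomorphisms `i`, `j` with `i² = j² = inv`
and `ij = inv ∘ ji` (a quaternion action in which the central involution inverts) has square
order. -/
theorem isSquare_card_of_quat_action {A : Type u} [Group A] [Finite A]
    (hcomm : ∀ x y : A, x * y = y * x) (hodd : Odd (Nat.card A)) (i j : A →* A)
    (hi : ∀ x, i (i x) = x⁻¹) (hj : ∀ x, j (j x) = x⁻¹) (hij : ∀ x, i (j x) = (j (i x))⁻¹) :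
    IsSquare (Nat.card A) := by
  letI : CommGroup A := { (inferInstance : Group A) with mul_comm := hcomm }
  exact isSquare_card_of_quat_add_aux (Nat.card A) (Additive A) (MonoidHom.toAdditive i)
    (MonoidHom.toAdditive j) rfl hodd (fun x => hi x) (fun x => hj x) (fun x => hij x)

end Cfsg.Agent.Helper71
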