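import Mathlib
import Cfsg.Agent.Helper71.QuatSquare
import Cfsg.Agent.Helper29.FrobConj
import Cfsg.Agent.Helper90.Extraspecial

set_option autoImplicit false

namespace Cfsg.Agent.Helper71

/-- Quaternion-type elements in a generalized quaternion group of order `4 * 2 ^ n`, `n ≥ 1`. -/
theorem exists_quat_elements (n : ℕ) (hn : 1 ≤ n) :
    ∃ a b z : QuaternionGroup (2 ^ n), a * a = z ∧ b * b = z ∧ z ≠ 1 ∧ z * z = 1 ∧
      a * b = z * (b * a) := by
  obtain ⟨m, rfl⟩ : ∃ m, n = m + 1 := ⟨n - 1, by omega⟩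
  have e1 : (((2 ^ m : ℕ) : ZMod (2 * 2 ^ (m + 1))) + ((2 ^ m : ℕ) : ZMod (2 * 2 ^ (m + 1)))) =
      ((2 ^ (m + 1) : ℕ) : ZMod (2 * 2 ^ (m + 1))) := by
    rw [← Nat.cast_add]; congr 1; rw [pow_succ]; ring
  have e2 : (((2 ^ (m + 1) : ℕ) : ZMod (2 * 2 ^ (m + 1))) +
      ((2 ^ (m + 1) : ℕ) : ZMod (2 * 2 ^ (m + 1)))) = 0 := by
    rw [← Nat.cast_add, ← two_mul]
    exact ZMod.natCast_self _
  refine ⟨QuaternionGroup.a ((2 ^ m : ℕ) : ZMod (2 * 2 ^ (m + 1))), QuaternionGroup.xa 0,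
    QuaternionGroup.a ((2 ^ (m + 1) : ℕ) : ZMod (2 * 2 ^ (m + 1))), ?_, ?_, ?_, ?_, ?_⟩
  · rw [QuaternionGroup.a_mul_a, e1]
  · rw [QuaternionGroup.xa_mul_xa, add_zero, sub_zero]
  · rw [QuaternionGroup.one_def]
    intro h
    have h' := QuaternionGroup.a.inj h
    rw [ZMod.natCast_eq_zero_iff] at h'
    have hpos : 0 < 2 ^ (m + 1) := pow_pos (by norm_num) _
    exact Nat.not_dvd_of_pos_of_lt hpos (by omega) h'
  · rw [QuaternionGroup.a_mul_a, e2, QuaternionGroup.a_zero]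
  · rw [QuaternionGroup.a_mul_xa, QuaternionGroup.xa_mul_a, QuaternionGroup.a_mul_xa]
    congr 1
    rw [zero_sub, zero_add, ← e1]
    ring

/-- If a Frobenius complement `H` contains quaternion-type elements `a`, `b`
(`a² = b² = z ≠ 1`, `z² = 1`, `ab = zba`), then the Frobenius kernel has odd square order. -/
theorem frobPair_kernel_odd_square {L : Type*} [Group L] [Finite L] {N H : Subgroup L}
    (hFP : Cfsg.Agent.Helper29.FrobPair N H) (a b z : L) (ha : a ∈ H) (hb : b ∈ H)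
    (haz : a * a = z) (hbz : b * b = z) (hz1 : z ≠ 1) (hz2 : z * z = 1)
    (hab : a * b = z * (b * a)) : Odd (Nat.card N) ∧ IsSquare (Nat.card N) := by
  have hNn : N.Normal := hFP.normal
  have hzH : z ∈ H := haz ▸ H.mul_mem ha ha
  have hzN : z ∉ N := fun h => hz1 (hFP.disjoint h hzH)
  have hinv : ∀ k ∈ N, z * k * z⁻¹ = k⁻¹ := by
    apply Cfsg.Agent.Helper90.inverts_of_fixedPointFree N z hz2
    · intro k hk
      exact hNn.conj_mem k hk z
    · intro k hk hc
      refine hFP.eq_one_of_commute hzN hk ?_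
      calc z * k = (z * k * z⁻¹) * z := by group
        _ = k * z := by rw [hc]
  have hcomm : ∀ x y : N, x * y = y * x := by
    intro x y
    apply Subtype.ext
    have h1 := hinv (x * y) (N.mul_mem x.2 y.2)
    have h2 := hinv x x.2
    have h3 := hinv y y.2
    have h4 : z * ((x : L) * y) * z⁻¹ = (z * x * z⁻¹) * (z * y * z⁻¹) := by group
    rw [h4, h2, h3, mul_inv_rev] at h1
    have h5 := congrArg (fun t => t⁻¹) h1
    simp only [mul_inv_rev, inv_inv] at h5
    exact h5.symm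
  have hodd : Odd (Nat.card N) := by
    have h2 : orderOf z = 2 := by
      apply orderOf_eq_prime
      · rw [pow_two]; exact hz2
      · exact hz1
    have h3 : 2 ∣ Nat.card H := by
      rw [← h2]
      exact Subgroup.orderOf_dvd_natCard H hzH
    rw [← Nat.not_even_iff_odd, even_iff_two_dvd]
    intro h4
    have h5 := Nat.dvd_gcd h4 h3
    rw [hFP.coprime] at h5
    exact absurd h5 (by norm_num)
  refine ⟨hodd, ?_⟩
  have hi : ∀ (c : L), c * c = z → ∀ x : N,
      (MulAut.conjNormal c : MulAut N).toMonoidHom ((MulAut.conjNormal c : MulAut N).toMonoidHom x)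
        = x⁻¹ := by
    intro c hc x
    apply Subtype.ext
    show c * (c * (x : L) * c⁻¹) * c⁻¹ = (x : L)⁻¹
    rw [← hinv x x.2, ← hc]; group
  refine isSquare_card_of_quat_action hcomm hodd (MulAut.conjNormal a : MulAut N).toMonoidHom
    (MulAut.conjNormal b : MulAut N).toMonoidHom (hi a haz) (hi b hbz) ?_
  intro x
  apply Subtype.ext
  show a * (b * (x : L) * b⁻¹) * a⁻¹ = (b * (a * (x : L) * a⁻¹) * b⁻¹)⁻¹
  have h1 : b * (a * (x : L) * a⁻¹) * b⁻¹ ∈ N :=
    hNn.conj_mem _ (hNn.conj_mem _ x.2 a) b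
  rw [← hinv _ h1]
  have h2 : a * (b * (x : L) * b⁻¹) * a⁻¹ = (a * b) * x * (a * b)⁻¹ := by group
  rw [h2, hab]; group

end Cfsg.Agent.Helper71
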