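import Mathlib
import Cfsg.Agent.Helper71.FrobQuat
import Cfsg.Agent.Helper69.Q8

set_option autoImplicit false

namespace Cfsg.Agent.Helper71

/-- An endomorphism squaring to inversion is an automorphism. -/
def autOfSqInv {N : Type*} [Group N] (i : N →* N) (hi : ∀ x, i (i x) = x⁻¹) : MulAut N :=
  { toFun := i
    invFun := fun x => (i x)⁻¹
    left_inv := fun x => by
      show (i (i x))⁻¹ = x
      rw [hi, inv_inv]
    right_inv := fun x => by
      show i ((i x)⁻¹) = x
      rw [map_inv, hi, inv_inv]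
    map_mul' := i.map_mul }

theorem autOfSqInv_apply {N : Type*} [Group N] (i : N →* N) (hi : ∀ x, i (i x) = x⁻¹) (x : N) :
    autOfSqInv i hi x = i x := rfl

theorem autOfSqInv_inv_apply {N : Type*} [Group N] (i : N →* N) (hi : ∀ x, i (i x) = x⁻¹)
    (x : N) : (autOfSqInv i hi)⁻¹ x = (i x)⁻¹ := rfl

theorem q8_sq_eq (g : QuaternionGroup 2) (hg : g ≠ 1) :
    g = QuaternionGroup.a 2 ∨ g * g = QuaternionGroup.a 2 := by
  revert g
  decide

/-- A quaternion action of `Q₈` on a finite group of odd order in which the central involution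
inverts: the homomorphism to the automorphism group and its freeness. -/
theorem exists_q8_free_action {N : Type*} [Group N] [Finite N] (hodd : Odd (Nat.card N))
    (i j : N →* N) (hi : ∀ x, i (i x) = x⁻¹) (hj : ∀ x, j (j x) = x⁻¹)
    (hij : ∀ x, i (j x) = (j (i x))⁻¹) :
    ∃ φ : QuaternionGroup 2 →* MulAut N, ∀ g : QuaternionGroup 2, g ≠ 1 → ∀ x : N,
      φ g x = x → x = 1 := by
  obtain ⟨α, hα⟩ : ∃ α : MulAut N, α = autOfSqInv i hi := ⟨_, rfl⟩
  obtain ⟨β, hβ⟩ : ∃ β : MulAut N, β = autOfSqInv j hj := ⟨_, rfl⟩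
  have hα2 : ∀ x, (α * α) x = x⁻¹ := by
    intro x
    rw [hα]
    show i (i x) = x⁻¹
    exact hi x
  have hα4 : α ^ 4 = 1 := by
    have e : α ^ 4 = (α * α) * (α * α) := by
      rw [show (4 : ℕ) = 2 + 2 from rfl, pow_add, pow_two]
    rw [e]
    ext x
    show (α * α) ((α * α) x) = x
    rw [hα2, hα2, inv_inv]
  have hβα2 : β ^ 2 = α ^ 2 := by
    rw [pow_two, pow_two]
    ext x
    rw [hα2, hβ]
    show j (j x) = x⁻¹
    exact hj x
  have hβα : β * α * β⁻¹ = α⁻¹ := by
    rw [mul_inv_eq_iff_eq_mul]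
    ext x
    rw [hα, hβ]
    show j (i x) = (i (j x))⁻¹
    rw [hij, inv_inv]
  obtain ⟨φ, hφ⟩ : ∃ φ : QuaternionGroup 2 →* MulAut N,
      φ (QuaternionGroup.a 1) = α :=
    ⟨{ toFun := Cfsg.Agent.Helper69.q8map α β hα4
       map_one' := by
         show Cfsg.Agent.Helper69.q8map α β hα4 (QuaternionGroup.a 0) = 1
         exact Cfsg.Agent.Helper69.q8pow_zero α hα4
       map_mul' := Cfsg.Agent.Helper69.q8map_mul α β hα4 hβα2 hβα },
     Cfsg.Agent.Helper69.q8pow_one α hα4⟩
  have hz : ∀ x, φ (QuaternionGroup.a 2) x = x⁻¹ := by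
    intro x
    have e : (QuaternionGroup.a 2 : QuaternionGroup 2) =
        QuaternionGroup.a 1 * QuaternionGroup.a 1 := by decide
    rw [e, map_mul, hφ]
    exact hα2 x
  refine ⟨φ, ?_⟩
  intro g hg x hx
  have hx2 : x⁻¹ = x := by
    rcases q8_sq_eq g hg with h | h
    · rw [← hz x, ← h, hx]
    · rw [← hz x, ← h, map_mul]
      show φ g (φ g x) = x
      rw [hx, hx]
  have h1 : x ^ 2 = 1 := by
    rw [pow_two]
    nth_rewrite 1 [← hx2]
    exact inv_mul_cancel x
  have h2 : orderOf x ∣ 2 := orderOf_dvd_of_pow_eq_one h1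
  have h3 : orderOf x ∣ Nat.card N := orderOf_dvd_natCard x
  have h4 : orderOf x ∣ Nat.gcd 2 (Nat.card N) := Nat.dvd_gcd h2 h3
  rw [Nat.coprime_two_left.mpr hodd] at h4
  exact orderOf_eq_one_iff.mp (Nat.dvd_one.mp h4)

/-- A quaternion action on a nontrivial finite group `N` of odd order in which the central
involution inverts gives a Frobenius group with complement `Q₈` and kernel of order `|N|`. -/
theorem exists_frobenius_q8 (N : Type) [Group N] [Finite N] (hodd : Odd (Nat.card N))
    (hnt : 1 < Nat.card N) (i j : N →* N) (hi : ∀ x, i (i x) = x⁻¹) (hj : ∀ x, j (j x) = x⁻¹)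
    (hij : ∀ x, i (j x) = (j (i x))⁻¹) :
    ∃ (L : Type) (_ : Group L) (_ : Finite L) (H : Subgroup L), Cfsg.IsFrobeniusComplement H ∧
      Nonempty (H ≃* QuaternionGroup 2) ∧ Nat.card (Cfsg.frobeniusKernel H) = Nat.card N := by
  obtain ⟨φ, hfree⟩ := exists_q8_free_action hodd i j hi hj hij
  have hN : Nontrivial N := Finite.one_lt_card_iff_nontrivial.mp hnt
  have hfin : Finite (N ⋊[φ] QuaternionGroup 2) := finite_semidirectProduct φ
  have hF := isFrobeniusComplement_inr_range φ hfree
  refine ⟨N ⋊[φ] QuaternionGroup 2, inferInstance, hfin, _, hF,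
    ⟨(MonoidHom.ofInjective (SemidirectProduct.inr_injective (φ := φ))).symm⟩, ?_⟩
  obtain ⟨N', hN'set, hFP⟩ := Cfsg.Agent.Helper29.exists_frobPair _ hF
  have hcard : Nat.card (Cfsg.frobeniusKernel
      (SemidirectProduct.inr : QuaternionGroup 2 →* N ⋊[φ] QuaternionGroup 2).range) =
      Nat.card N' := by
    rw [← hN'set]; rfl
  rw [hcard]
  have h1 := hFP.card_mul_card
  have h2 : Nat.card (SemidirectProduct.inr : QuaternionGroup 2 →* N ⋊[φ] QuaternionGroup 2).range
      = Nat.card (QuaternionGroup 2) :=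
    (Nat.card_congr (MonoidHom.ofInjective (SemidirectProduct.inr_injective (φ := φ))).toEquiv).symm
  rw [h2, SemidirectProduct.card] at h1
  have hpos : 0 < Nat.card (QuaternionGroup 2) := Nat.card_pos
  exact Nat.eq_of_mul_eq_mul_right hpos h1

/-- For every odd `n` there is a finite abelian group of order `n * n` with endomorphisms
`i`, `j` satisfying `i² = j² = -1`, `ij = -ji`. -/
theorem exists_quat_module : ∀ n : ℕ, Odd n → ∃ (A : Type) (_ : AddCommGroup A) (_ : Finite A)
    (i j : A →+ A), Nat.card A = n * n ∧ (∀ x, i (i x) = -x) ∧ (∀ x, j (j x) = -x) ∧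
      (∀ x, i (j x) = -j (i x)) := by
  intro n
  induction n using Nat.strong_induction_on with
  | _ n ih =>
    intro hodd
    by_cases h1 : n = 1
    · subst h1
      refine ⟨PUnit, inferInstance, inferInstance, 0, 0, by simp, ?_, ?_, ?_⟩ <;>
        intro x <;> exact Subsingleton.elim _ _
    obtain ⟨r, hr, hrn⟩ := Nat.exists_prime_and_dvd h1
    obtain ⟨n', rfl⟩ := hrn
    have hodd' := Nat.odd_mul.mp hodd
    have hn'pos : 0 < n' := hodd'.2.pos
    have hlt : n' < r * n' := by
      have := hr.one_lt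
      nlinarith
    obtain ⟨A', iA, iF, i', j', hcard, hi', hj', hij'⟩ := ih n' hlt hodd'.2
    have : Fact r.Prime := ⟨hr⟩
    have : NeZero r := ⟨hr.ne_zero⟩
    obtain ⟨a, b, hab⟩ := ZMod.sq_add_sq r (-1)
    obtain ⟨ir, hir⟩ : ∃ ir : ZMod r × ZMod r →+ ZMod r × ZMod r,
        ∀ v, ir v = (a * v.1 + b * v.2, b * v.1 - a * v.2) :=
      ⟨{ toFun := fun v => (a * v.1 + b * v.2, b * v.1 - a * v.2)
         map_zero' := by simp
         map_add' := fun v w => by
           apply Prod.ext
           · show a * (v.1 + w.1) + b * (v.2 + w.2) = (a * v.1 + b * v.2) + (a * w.1 + b * w.2)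
             ring
           · show b * (v.1 + w.1) - a * (v.2 + w.2) = (b * v.1 - a * v.2) + (b * w.1 - a * w.2)
             ring }, fun v => rfl⟩
    obtain ⟨jr, hjr⟩ : ∃ jr : ZMod r × ZMod r →+ ZMod r × ZMod r,
        ∀ v, jr v = (-v.2, v.1) :=
      ⟨{ toFun := fun v => (-v.2, v.1)
         map_zero' := by simp
         map_add' := fun v w => by
           apply Prod.ext
           · show -(v.2 + w.2) = -v.2 + -w.2
             ring
           · rfl }, fun v => rfl⟩
    have hir2 : ∀ v, ir (ir v) = -v := by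
      intro v
      rw [hir, hir]
      apply Prod.ext
      · show a * (a * v.1 + b * v.2) + b * (b * v.1 - a * v.2) = -v.1
        linear_combination v.1 * hab
      · show b * (a * v.1 + b * v.2) - a * (b * v.1 - a * v.2) = -v.2
        linear_combination v.2 * hab
    have hjr2 : ∀ v, jr (jr v) = -v := by
      intro v
      rw [hjr, hjr]
      rfl
    have hijr : ∀ v, ir (jr v) = -jr (ir v) := by
      intro v
      rw [hjr, hir, hir, hjr]
      apply Prod.ext
      · show a * -v.2 + b * v.1 = - -(b * v.1 - a * v.2)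
        ring
      · show b * -v.2 - a * v.1 = -(a * v.1 + b * v.2)
        ring
    refine ⟨(ZMod r × ZMod r) × A', inferInstance, inferInstance, ir.prodMap i', jr.prodMap j',
      ?_, ?_, ?_, ?_⟩
    · rw [Nat.card_prod, Nat.card_prod, Nat.card_zmod, hcard]
      ring
    · intro x
      exact Prod.ext (hir2 x.1) (hi' x.2)
    · intro x
      exact Prod.ext (hjr2 x.1) (hj' x.2)
    · intro x
      exact Prod.ext (hijr x.1) (hij' x.2)

end Cfsg.Agent.Helper71
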