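import Mathlib
import Cfsg.Agent.Helper98.C2Defs
import Cfsg.Agent.Helper14.C2T

set_option autoImplicit false

namespace Cfsg.Agent.Helper71.M6I3a

open Matrix Cfsg.Agent.Helper98.C2
open scoped MatrixGroups

variable {K : Type*} [Field K]

/-- two distinct columns of an invertible matrix are not proportional -/
theorem col_not_prop {n : ℕ} (g : GL (Fin n) K) (r l : Fin n) (hrl : r ≠ l) (lam : K)
    (h : ∀ x, g.1 x r = lam * g.1 x l) : False := by
  have h0 : g.1 *ᵥ (Pi.single r 1 - lam • Pi.single l 1) = 0 := by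
    ext x
    rw [Matrix.mulVec_sub, Matrix.mulVec_smul, Matrix.mulVec_single_one, Matrix.mulVec_single_one]
    simp [h x]
  have h1 : (Pi.single r 1 - lam • Pi.single l 1 : Fin n → K) = 0 := by
    have h2 := congrArg (fun v => (g⁻¹ : GL (Fin n) K).1 *ᵥ v) h0
    simp only [Matrix.mulVec_mulVec, Matrix.mulVec_zero] at h2
    rw [← Units.val_mul, inv_mul_cancel, Units.val_one, Matrix.one_mulVec] at h2
    exact h2
  have h3 := congrFun h1 r
  simp [hrl] at h3

/-- a third point -/
theorem exists_ne2 {n : ℕ} (hn : 3 ≤ n) (p q : Fin n) : ∃ x : Fin n, x ≠ p ∧ x ≠ q := by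
  by_contra hcon
  push Not at hcon
  have hsub : (Finset.univ : Finset (Fin n)) ⊆ {p, q} := by
    intro x _
    by_cases hx : x = p
    · simp [hx]
    · simp [hcon x hx]
  have h1 := Finset.card_le_card hsub
  rw [Finset.card_univ, Fintype.card_fin] at h1
  have h2 : ({p, q} : Finset (Fin n)).card ≤ 2 := Finset.card_le_two
  omega

/-- PIECE I3a -/
theorem nf_one_zero (n : ℕ) (hn : 6 ≤ n)
    (M : Subgroup (GL (Fin n) K)) (hH : MonSLLE M) (hNF : NoFix M)
    (g : GL (Fin n) K) (hg : g ∈ M)
    (hD1 : ∀ t a b : Fin n, a ≠ b → g.1 a t = 0 → g.1 b t = 0 → False)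
    (hPL : ∀ l r : Fin n, l ≠ r → ∃ (lam : K) (a : Fin n), ∀ x, x ≠ a →
      g.1 x l ≠ 0 → g.1 x r = lam * g.1 x l) (l : Fin n) :
    ∃ z, g.1 z l = 0 := by
  by_contra hcon
  push Not at hcon
  obtain ⟨r, hrl, -⟩ := exists_ne2 (by omega : 3 ≤ n) l l
  obtain ⟨lam, a, hla⟩ := hPL l r (Ne.symm hrl)
  have hf : ∀ x, x ≠ a → g.1 x r = lam * g.1 x l := fun x hx => hla x hx (hcon x)
  have hfa : g.1 a r ≠ lam * g.1 a l := by
    intro h
    have hall : ∀ x, g.1 x r = lam * g.1 x l := by
      intro x
      by_cases hx : x = a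
      · rw [hx]; exact h
      · exact hf x hx
    exact col_not_prop g r l hrl lam hall
  have key : ∀ b : Fin n, ∃ (r' : Fin n) (c : K), c ≠ 0 ∧
      (∀ x, x ≠ b → lam * g.1 x l = c * g.1 x r') ∧
      (g.1 b l / g.1 a l) * g.1 a r = c * g.1 b r' := by
    intro b
    by_cases hba : b = a
    · rw [hba]
      refine ⟨r, 1, one_ne_zero, ?_, ?_⟩
      · intro x hx
        rw [one_mul, hf x hx]
      · rw [div_self (hcon a), one_mul]
    · obtain ⟨e, hea, heb⟩ := exists_ne2 (by omega : 3 ≤ n) a b
      obtain ⟨σ, hσ⟩ : ∃ σ : Equiv.Perm (Fin n), σ = Equiv.swap a b * Equiv.swap b e := ⟨_, rfl⟩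
      have hsign : Equiv.Perm.sign σ = 1 := by
        rw [hσ, Equiv.Perm.sign_mul, Equiv.Perm.sign_swap (Ne.symm hba),
          Equiv.Perm.sign_swap (Ne.symm heb)]
        rfl
      have hσa : σ a = b := by
        rw [hσ, Equiv.Perm.mul_apply, Equiv.swap_apply_of_ne_of_ne (Ne.symm hba) (Ne.symm hea),
          Equiv.swap_apply_left]
      obtain ⟨r', c, hc, hrel⟩ :=
        Cfsg.Agent.Helper14.C2T.nf_twist_cols n M hH hNF g hg l σ hsign (fun p _ => hcon p) r
      refine ⟨r', c, hc, ?_, ?_⟩
      · intro x hx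
        obtain ⟨p, rfl⟩ : ∃ p, σ p = x := ⟨σ.symm x, σ.apply_symm_apply x⟩
        have hpa : p ≠ a := by
          intro h
          apply hx
          rw [h, hσa]
        have h1 := hrel p
        rw [hf p hpa] at h1
        rw [← h1]
        split_ifs with hp
        · rw [hp, one_mul]
        · have hpl := hcon p
          field_simp
      · have h1 := hrel a
        rw [hσa] at h1
        rw [if_neg hba] at h1
        exact h1
  choose R c hc hR1 hR2 using key
  have hRl : ∀ b, R b ≠ l := by
    intro b h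
    obtain ⟨x, hxb, -⟩ := exists_ne2 (by omega : 3 ≤ n) b b
    have h1 := hR1 b x hxb
    rw [h] at h1
    have hlamc : lam = c b := mul_right_cancel₀ (hcon x) h1
    have h2 := hR2 b
    rw [h, ← hlamc] at h2
    apply hfa
    have hbl := hcon b
    have hal := hcon a
    field_simp at h2
    linear_combination h2
  have hRinj : Function.Injective R := by
    intro b b' hbb
    by_contra hne
    by_cases hlam : lam = 0
    · have h1 := hR1 b b' (Ne.symm hne)
      rw [hlam, zero_mul] at h1
      have h2 : g.1 b' (R b) = 0 := by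
        rcases mul_eq_zero.mp h1.symm with h | h
        · exact absurd h (hc b)
        · exact h
      have h3 := hR2 b'
      rw [← hbb, h2, mul_zero] at h3
      apply hfa
      rw [hlam, zero_mul]
      rcases mul_eq_zero.mp h3 with h | h
      · exact absurd h (div_ne_zero (hcon b') (hcon a))
      · exact h
    · obtain ⟨x, hxb, hxb'⟩ := exists_ne2 (by omega : 3 ≤ n) b b'
      have h1 := hR1 b x hxb
      have h2 := hR1 b' x hxb'
      rw [← hbb] at h2
      have hgx : g.1 x (R b) ≠ 0 := by
        intro h0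
        rw [h0, mul_zero] at h1
        exact (mul_ne_zero hlam (hcon x)) h1
      have hcc : c b = c b' := by
        apply mul_right_cancel₀ hgx
        rw [← h1, ← h2]
      have h3 := hR2 b
      have h4 := hR1 b' b hne
      rw [← hbb, ← hcc] at h4
      rw [← h4] at h3
      apply hfa
      have hbl := hcon b
      have hal := hcon a
      field_simp at h3
      linear_combination h3
  have hcard : Fintype.card (Fin n) ≤ Fintype.card {x : Fin n // x ≠ l} :=
    Fintype.card_le_of_injective (fun b => (⟨R b, hRl b⟩ : {x : Fin n // x ≠ l}))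
      (fun b b' h => hRinj (Subtype.ext_iff.mp h))
  simp at hcard
  omega

end Cfsg.Agent.Helper71.M6I3a
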