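import Mathlib
import Cfsg.Agent.Helper98.C2Defs

set_option autoImplicit false

namespace Cfsg.Agent.Helper71.M6I4

open Matrix Cfsg.Agent.Helper98.C2
open scoped MatrixGroups

variable {K : Type*} [Field K]

/-- PIECE I4 -/
theorem nf_final [Fintype K] (hq : 5 ≤ Fintype.card K) (n : ℕ) (hn : 6 ≤ n)
    (M : Subgroup (GL (Fin n) K)) (hH : MonSLLE M)
    (g : GL (Fin n) K) (hg : g ∈ M)
    (u : Fin n → K) (ρ : Equiv.Perm (Fin n)) (c : Fin n → K)
    (hu : ∀ i, u i ≠ 0) (hc : ∀ x, c x ≠ 0)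
    (hform : ∀ x i, g.1 i (ρ x) = if i = x then 0 else c x * u i) :
    ∃ g' ∈ M, ¬ IsMono g'.1 ∧ ∃ t a b : Fin n, a ≠ b ∧ g'.1 a t = 0 ∧ g'.1 b t = 0 := by
  classical
  set i0 : Fin n := ⟨0, by omega⟩ with hi0
  set i1 : Fin n := ⟨1, by omega⟩ with hi1
  set i2 : Fin n := ⟨2, by omega⟩ with hi2
  set i3 : Fin n := ⟨3, by omega⟩ with hi3
  set i4 : Fin n := ⟨4, by omega⟩ with hi4
  have h01 : i0 ≠ i1 := by simp [hi0, hi1, Fin.ext_iff]
  have h02 : i0 ≠ i2 := by simp [hi0, hi2, Fin.ext_iff]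
  have h03 : i0 ≠ i3 := by simp [hi0, hi3, Fin.ext_iff]
  have h04 : i0 ≠ i4 := by simp [hi0, hi4, Fin.ext_iff]
  have h12 : i1 ≠ i2 := by simp [hi1, hi2, Fin.ext_iff]
  have h13 : i1 ≠ i3 := by simp [hi1, hi3, Fin.ext_iff]
  have h14 : i1 ≠ i4 := by simp [hi1, hi4, Fin.ext_iff]
  have h23 : i2 ≠ i3 := by simp [hi2, hi3, Fin.ext_iff]
  have h24 : i2 ≠ i4 := by simp [hi2, hi4, Fin.ext_iff]
  have h34 : i3 ≠ i4 := by simp [hi3, hi4, Fin.ext_iff]
  -- choose ζ
  obtain ⟨ζ, hζ0, hζ1, hζ2⟩ : ∃ ζ : K, ζ ≠ 0 ∧ ζ ≠ 4 - (n : K) ∧ ζ ≠ 3 - (n : K) := by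
    have hcard : ({0, 4 - (n : K), 3 - (n : K)} : Finset K).card < (Finset.univ : Finset K).card := by
      rw [Finset.card_univ]
      refine lt_of_le_of_lt (Finset.card_insert_le _ _) ?_
      have : ({4 - (n : K), 3 - (n : K)} : Finset K).card ≤ 2 := by
        refine (Finset.card_insert_le _ _).trans ?_
        simp
      omega
    obtain ⟨ζ, -, hζ⟩ := Finset.exists_mem_notMem_of_card_lt_card hcard
    simp only [Finset.mem_insert, Finset.mem_singleton, not_or] at hζ
    exact ⟨ζ, hζ.1, hζ.2.1, hζ.2.2⟩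
  set x : K := 4 - (n : K) - ζ with hx
  have hx0 : x ≠ 0 := by
    intro h; apply hζ1; rw [hx] at h; linear_combination -h
  have hx1 : x ≠ 1 := by
    intro h; apply hζ2; rw [hx] at h; linear_combination -h
  set β : Fin n → K := fun y => 1 + (if y = i0 then -1 else 0) + (if y = i1 then x - 1 else 0)
    + (if y = i2 then x - 1 else 0) + (if y = i3 then ζ - 1 else 0) with hβ
  have hβ0 : β i0 = 0 := by
    simp only [hβ, if_true, if_neg h01, if_neg h02, if_neg h03]; ring
  have hβ1 : β i1 = x := by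
    simp only [hβ, if_true, if_neg h01.symm, if_neg h12, if_neg h13]; ring
  have hβ2 : β i2 = x := by
    simp only [hβ, if_true, if_neg h02.symm, if_neg h12.symm, if_neg h23]; ring
  have hβ3 : β i3 = ζ := by
    simp only [hβ, if_true, if_neg h03.symm, if_neg h13.symm, if_neg h23.symm]; ring
  have hβ4 : β i4 = 1 := by
    simp only [hβ, if_neg h04.symm, if_neg h14.symm, if_neg h24.symm, if_neg h34.symm]; ring
  have hβne : ∀ y, y ≠ i0 → β y ≠ 0 := by
    intro y hy
    by_cases hy1 : y = i1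
    · rw [hy1, hβ1]; exact hx0
    by_cases hy2 : y = i2
    · rw [hy2, hβ2]; exact hx0
    by_cases hy3 : y = i3
    · rw [hy3, hβ3]; exact hζ0
    have : β y = 1 := by
      simp only [hβ, if_neg hy, if_neg hy1, if_neg hy2, if_neg hy3]; ring
    rw [this]; exact one_ne_zero
  have hsum : ∑ y, β y = x := by
    simp only [hβ, Finset.sum_add_distrib, Finset.sum_ite_eq', Finset.mem_univ, if_true,
      Finset.sum_const, Finset.card_univ, Fintype.card_fin, nsmul_eq_mul, mul_one]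
    rw [hx]; ring
  set v : Fin n → K := fun j => β (ρ.symm j) / c (ρ.symm j) with hv
  have hv0 : v (ρ i0) = 0 := by
    simp only [hv, Equiv.symm_apply_apply, hβ0, zero_div]
  have hvρ : ∀ y, v (ρ y) = β y / c y := by
    intro y; simp only [hv, Equiv.symm_apply_apply]
  set t : Fin n := ρ (ρ i0) with ht
  have hcol : ∀ j, g.1 j t = if j = ρ i0 then 0 else c (ρ i0) * u j := fun j => hform (ρ i0) j
  set e : Fin n → K := fun j => v j / (c (ρ i0) * u j) with he
  set d : Fin n → K := fun j =>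
    if j = ρ i0 then (∏ j' ∈ Finset.univ.erase (ρ i0), e j')⁻¹ else e j with hd
  have hene : ∀ j, j ≠ ρ i0 → e j ≠ 0 := by
    intro j hj
    have hj' : ρ.symm j ≠ i0 := by
      intro h; apply hj; rw [← h, Equiv.apply_symm_apply]
    exact div_ne_zero (div_ne_zero (hβne _ hj') (hc _)) (mul_ne_zero (hc _) (hu _))
  have hprod : ∏ j' ∈ Finset.univ.erase (ρ i0), e j' ≠ 0 :=
    Finset.prod_ne_zero_iff.mpr (fun j hj => hene j (Finset.ne_of_mem_erase hj))
  have hdet : (Matrix.diagonal d).det = 1 := by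
    rw [Matrix.det_diagonal, ← Finset.mul_prod_erase Finset.univ d (Finset.mem_univ (ρ i0))]
    have h1 : ∏ j' ∈ Finset.univ.erase (ρ i0), d j' = ∏ j' ∈ Finset.univ.erase (ρ i0), e j' :=
      Finset.prod_congr rfl (fun j hj => by
        simp only [hd, if_neg (Finset.ne_of_mem_erase hj)])
    rw [h1]
    simp only [hd, if_pos rfl]
    exact inv_mul_cancel₀ hprod
  set h : GL (Fin n) K := Matrix.GeneralLinearGroup.mkOfDetNeZero (Matrix.diagonal d)
    (by rw [hdet]; exact one_ne_zero) with hh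
  have hhcoe : h.1 = Matrix.diagonal d := rfl
  have hhM : h ∈ M := hH h ⟨1, fun a b hab => by
    rw [hhcoe]; exact Matrix.diagonal_apply_ne _ hab⟩ (by rw [hhcoe]; exact hdet)
  have hdv : ∀ j, d j * g.1 j t = v j := by
    intro j
    rw [hcol]
    by_cases hj : j = ρ i0
    · rw [if_pos hj, mul_zero, hj, hv0]
    · rw [if_neg hj]
      simp only [hd, if_neg hj, he]
      exact div_mul_cancel₀ _ (mul_ne_zero (hc _) (hu _))
  have hentry : ∀ i, (g * h * g).1 i t = u i * (x - β i) := by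
    intro i
    rw [Units.val_mul, Units.val_mul, hhcoe, Matrix.mul_apply]
    have h1 : ∀ j, (g.1 * Matrix.diagonal d) i j * g.1 j t = g.1 i j * v j := by
      intro j
      rw [Matrix.mul_diagonal, mul_assoc, hdv]
    rw [Finset.sum_congr rfl (fun j _ => h1 j), ← Equiv.sum_comp ρ]
    have h2 : ∀ y, g.1 i (ρ y) * v (ρ y) = u i * β y - (if i = y then u i * β y else 0) := by
      intro y
      rw [hform, hvρ]
      by_cases hiy : i = y
      · rw [if_pos hiy, if_pos hiy]; ring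
      · rw [if_neg hiy, if_neg hiy]
        field_simp [hc y]
        ring
    rw [Finset.sum_congr rfl (fun y _ => h2 y), Finset.sum_sub_distrib, ← Finset.mul_sum, hsum,
      Finset.sum_ite_eq Finset.univ i (fun y => u i * β y), if_pos (Finset.mem_univ _)]
    ring
  refine ⟨g * h * g, M.mul_mem (M.mul_mem hg hhM) hg, ?_, t, i1, i2, h12, ?_, ?_⟩
  · rintro ⟨σ, hσ⟩
    have e0 : (g * h * g).1 i0 t ≠ 0 := by
      rw [hentry, hβ0, sub_zero]; exact mul_ne_zero (hu _) hx0
    have e4 : (g * h * g).1 i4 t ≠ 0 := by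
      rw [hentry, hβ4]; exact mul_ne_zero (hu _) (sub_ne_zero.mpr hx1)
    have f0 : i0 = σ t := by
      by_contra hne; exact e0 (hσ _ _ hne)
    have f4 : i4 = σ t := by
      by_contra hne; exact e4 (hσ _ _ hne)
    exact h04 (f0.trans f4.symm)
  · rw [hentry, hβ1, sub_self, mul_zero]
  · rw [hentry, hβ2, sub_self, mul_zero]

end Cfsg.Agent.Helper71.M6I4
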