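import Mathlib
import Cfsg.Agent.Helper71.C2Low
import Cfsg.Agent.Helper71.M6I2a
import Cfsg.Agent.Helper71.M6I2b
import Cfsg.Agent.Helper71.M6I3a
import Cfsg.Agent.Helper71.M6I3bCore
import Cfsg.Agent.Helper71.M6I4

/-!
# Helper71: the class C2 maximality core with the monomial case lowered to `n ≥ 6`.

Same proofs as `Helper98.C2Asm` / `Helper71.C2Low`; the normal-form cores of helpers 20, 39, 65, 73
are copied in `Helper71/M6I*.lean` with the hypothesis `7 ≤ n` weakened to `6 ≤ n` (their proofs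
go through unchanged).
-/

set_option autoImplicit false
set_option linter.unusedSectionVars false
set_option linter.unusedVariables false
set_option linter.unusedSimpArgs false
set_option linter.style.haveILetI false

namespace Cfsg.Agent.Helper71.M6Asm

open Cfsg.Agent.Helper98.C2Asm

open Matrix Cfsg.Agent.Helper98.C2
open Cfsg.Agent.Helper14.C2T
open Cfsg.Agent.Helper14.C2XA
open Cfsg.Agent.Helper20.C2I1
open Cfsg.Agent.Helper20.C2I3a
open Cfsg.Agent.Helper27.C2R1
open Cfsg.Agent.Helper28.C2P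
open Cfsg.Agent.Helper28.C2X5b
open Cfsg.Agent.Helper28.C2Z
open Cfsg.Agent.Helper31.C2B3
open Cfsg.Agent.Helper33.C2LS
open Cfsg.Agent.Helper39.C2I2a
open Cfsg.Agent.Helper39.C2I2b
open Cfsg.Agent.Helper4.C2BS
open Cfsg.Agent.Helper4.C2FZ
open Cfsg.Agent.Helper42.C2XI
open Cfsg.Agent.Helper48.C2X5a
open Cfsg.Agent.Helper55.C2R2
open Cfsg.Agent.Helper58.C2L
open Cfsg.Agent.Helper65.C2I3b
open Cfsg.Agent.Helper65.C2XM3
open Cfsg.Agent.Helper67.C2B2
open Cfsg.Agent.Helper73.C2A1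
open Cfsg.Agent.Helper73.C2I4
open Cfsg.Agent.Helper75.C2X1
open Cfsg.Agent.Helper91.C2A2
open Cfsg.Agent.Helper91.C2G
open Cfsg.Agent.Helper91.C2I2c
open Cfsg.Agent.Helper97.C2XF
open Cfsg.Agent.Helper97.C2XM2
open scoped MatrixGroups

variable {K : Type*} [Field K]

theorem nf_struct_six (n : ℕ) (hn : 6 ≤ n)
    (M : Subgroup (GL (Fin n) K)) (hH : MonSLLE M) (hNF : NoFix M)
    (g : GL (Fin n) K) (hg : g ∈ M)
    (hD1 : ∀ t a b : Fin n, a ≠ b → g.1 a t = 0 → g.1 b t = 0 → False)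
    (hPL : ∀ l r : Fin n, l ≠ r → ∃ (lam : K) (a : Fin n), ∀ x, x ≠ a →
      g.1 x l ≠ 0 → g.1 x r = lam * g.1 x l)
    (hZ : ∀ l : Fin n, ∃ z, g.1 z l = 0) :
    ∃ (u : Fin n → K) (ρ : Equiv.Perm (Fin n)) (c : Fin n → K),
      (∀ i, u i ≠ 0) ∧ (∀ x, c x ≠ 0) ∧
      ∀ x i, g.1 i (ρ x) = if i = x then 0 else c x * u i := by
  exact Cfsg.Agent.Helper71.M6I3b.nf_struct_core n hn g hD1 hPL hZ
    (fun l σ hσ hu r => Cfsg.Agent.Helper14.C2T.nf_twist_cols n M hH hNF g hg l σ hσ hu r)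

theorem nf_pattern_six (n : ℕ) (hn : 6 ≤ n)
    (M : Subgroup (GL (Fin n) K)) (hH : MonSLLE M) (hNF : NoFix M)
    (g : GL (Fin n) K) (hg : g ∈ M)
    (hD1 : ∀ t a b : Fin n, a ≠ b → g.1 a t = 0 → g.1 b t = 0 → False)
    (l r : Fin n) (hlr : l ≠ r) :
    ∃ (lam : K) (a : Fin n), ∀ x, x ≠ a → g.1 x l ≠ 0 → g.1 x r = lam * g.1 x l := by
  classical
  obtain ⟨S, hSdef⟩ : ∃ S : Finset (Fin n), S = Finset.univ.filter (fun x => g.1 x l ≠ 0) :=
    ⟨_, rfl⟩
  have hmem : ∀ x, x ∈ S ↔ g.1 x l ≠ 0 := by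
    intro x
    rw [hSdef]
    simp
  have hS : 4 ≤ S.card := by
    have hc : (Finset.univ.filter (fun x => g.1 x l = 0)).card ≤ 1 := by
      rw [Finset.card_le_one]
      intro a ha b hb
      by_contra hab
      simp only [Finset.mem_filter, Finset.mem_univ, true_and] at ha hb
      exact hD1 l a b hab ha hb
    have hsum := Finset.card_filter_add_card_filter_not (s := (Finset.univ : Finset (Fin n)))
      (fun x => g.1 x l = 0)
    rw [Finset.card_univ, Fintype.card_fin] at hsum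
    have : S.card = (Finset.univ.filter (fun x => ¬ g.1 x l = 0)).card := by rw [hSdef]
    omega
  obtain ⟨lam, a, h⟩ := pat_comb S hS (fun x => g.1 x r / g.1 x l)
    (by
      intro a ha b hb c hc d hd hab hac had hbc hbd hcd h1 h2
      rw [hmem] at ha hb hc hd
      rw [div_eq_div_iff ha hb] at h1
      rw [div_eq_div_iff hc hd] at h2
      rw [div_eq_div_iff ha hc]
      exact Cfsg.Agent.Helper71.M6I2a.nf_pat_a n hn M hH hNF g hg hD1 l r hlr a b c d hab hac had hbc hbd hcd ha hb hc hd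
        h1 h2)
    (by
      intro a ha b hb c hc d hd hab hac had hbc hbd hcd h1 h2 h3 h4 h5
      rw [hmem] at ha hb hc hd
      rw [Ne, div_eq_div_iff ha hc] at h1
      rw [Ne, div_eq_div_iff ha hd] at h2
      rw [Ne, div_eq_div_iff hc hd] at h3
      rw [Ne, div_eq_div_iff hb hc] at h4
      rw [Ne, div_eq_div_iff hb hd] at h5
      exact Cfsg.Agent.Helper71.M6I2b.nf_pat_b n hn M hH hNF g hg hD1 l r hlr a b c d hab hac had hbc hbd hcd ha hb hc hd
        h1 h2 h3 h4 h5)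
  refine ⟨lam, a, fun x hxa hx => ?_⟩
  have h' := h x ((hmem x).2 hx) hxa
  rw [div_eq_iff hx] at h'
  exact h'

theorem nf_class_six (n : ℕ) (hn : 6 ≤ n)
    (M : Subgroup (GL (Fin n) K)) (hH : MonSLLE M) (hNF : NoFix M)
    (g : GL (Fin n) K) (hg : g ∈ M)
    (hD1 : ∀ t a b : Fin n, a ≠ b → g.1 a t = 0 → g.1 b t = 0 → False)
    (hPL : ∀ l r : Fin n, l ≠ r → ∃ (lam : K) (a : Fin n), ∀ x, x ≠ a →
      g.1 x l ≠ 0 → g.1 x r = lam * g.1 x l) :
    ∃ (u : Fin n → K) (ρ : Equiv.Perm (Fin n)) (c : Fin n → K),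
      (∀ i, u i ≠ 0) ∧ (∀ x, c x ≠ 0) ∧
      ∀ x i, g.1 i (ρ x) = if i = x then 0 else c x * u i :=
  nf_struct_six n hn M hH hNF g hg hD1 hPL
    (Cfsg.Agent.Helper71.M6I3a.nf_one_zero n hn M hH hNF g hg hD1 hPL)

/-- Part I: an overgroup of the det-1 monomial group with a non-monomial element contains a
non-monomial element fixing a coordinate line. -/
theorem partI_six [Fintype K] (hq : 5 ≤ Fintype.card K) (n : ℕ) (hn : 6 ≤ n)
    (M : Subgroup (GL (Fin n) K)) (hH : MonSLLE M)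
    (g0 : GL (Fin n) K) (hg0 : g0 ∈ M) (hgm : ¬ IsMono g0.1) :
    ∃ h ∈ M, ¬ IsMono h.1 ∧ FixesLine h.1 := by
  by_contra hcon
  have hNF : NoFix M := by
    intro h hh hf
    by_contra hm
    exact hcon ⟨h, hh, hm, hf⟩
  have hD1 : ∀ g : GL (Fin n) K, g ∈ M → ¬ IsMono g.1 →
      ∀ t a b : Fin n, a ≠ b → g.1 a t = 0 → g.1 b t = 0 → False :=
    fun g hg hgm t a b hab ha hb =>
      nf_two_zeros hq n (by omega) M hH hNF g hg hgm t a b hab ha hb
  have hPL := fun l r hlr => nf_pattern_six n hn M hH hNF g0 hg0 (hD1 g0 hg0 hgm) l r hlr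
  obtain ⟨u, ρ, c, hu, hc, hform⟩ := nf_class_six n hn M hH hNF g0 hg0 (hD1 g0 hg0 hgm) hPL
  obtain ⟨g', hg', hgm', t, a, b, hab, ha, hb⟩ := Cfsg.Agent.Helper71.M6I4.nf_final hq n hn M hH g0 hg0 u ρ c hu hc hform
  exact hD1 g' hg' hgm' t a b hab ha hb

/-- the monomial case, for `n = m + 1 ≥ 6` (same proof as `Helper98.C2Asm.mono_main`) -/
theorem mono_main_six [Fintype K] (hq : 5 ≤ Fintype.card K) (m : ℕ) (hm : 5 ≤ m)
    (M : Subgroup (GL (Fin (m + 1)) K)) (hH : MonSLLE M)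
    (hdet : ∀ g ∈ M, g.1.det = 1) (g0 : GL (Fin (m + 1)) K) (hg0 : g0 ∈ M)
    (hgm : ¬ IsMono g0.1) :
    ∀ g : GL (Fin (m + 1)) K, g.1.det = 1 → g ∈ M := by
  obtain ⟨h, hh, hhm, hhf⟩ := partI_six hq (m + 1) (by omega) M hH g0 hg0 hgm
  obtain ⟨h', hh', hhm', hk0⟩ := fix_zero_sl m (by omega) M hH h hh hhm hhf
  obtain ⟨r, hr, hreq⟩ := blockSub_of_fix m M h' hh' hk0
  have hT : HasTv M := by
    by_cases hrm : IsMono r.1
    · exact lift_mono_sl hq m (by omega) M hH h' hh' (hdet h' hh') hk0 (by rwa [← hreq]) hhm'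
    · obtain ⟨r', hr', a, b, hab, c, hc, heq⟩ :=
        thmB hq m (by omega) (by omega) (blockSub m M) (monLE_blockSub_sl m M hH) r hr hrm
      obtain ⟨k, hk, hk0', hkb⟩ := (mem_blockSub m M r').1 hr'
      exact lift_tv_sl hq m (by omega) M hH k hk (hdet k hk) hk0' a b hab c hc (hkb.trans heq)
  exact tv_sl (m + 1) (by omega) M hH hT

theorem c2_core_six {F : Type*} [Field F] [Fintype F] (n : ℕ) {t : ℕ} (m : ℕ)
    (hn1 : m = 1 → 6 ≤ n) (ht3' : m = 2 → 3 ≤ t)
    (hm : 0 < m) (ht : 2 ≤ t)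
    (h1 : ¬ (m = 1 ∧ Fintype.card F ≤ 4)) (h2 : ¬ (m = 2 ∧ Fintype.card F = 2))
    (S : Subgroup (GL (Fin n) F)) (P : GL (Fin n) F) (blk : Fin n → Fin t)
    (hfib : ∀ b : Fin t, (Finset.univ.filter (fun i => blk i = b)).card = m)
    (hiff : ∀ g : GL (Fin n) F, g ∈ S ↔ IsBlkMono blk (P⁻¹ * g * P : GL (Fin n) F).1) :
    Cfsg.Geo.IsMaximalIn (Cfsg.Geo.specialLinear (Fin n) F)
      (S ⊓ Cfsg.Geo.specialLinear (Fin n) F) := by
  have hnt : n = t * m := by
    have h := Finset.card_eq_sum_card_fiberwise (f := blk) (s := Finset.univ)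
      (t := Finset.univ) (fun x _ => Finset.mem_univ _)
    simp only [hfib, Finset.sum_const, Finset.card_univ, Fintype.card_fin, smul_eq_mul] at h
    exact h
  have hfne : ∀ b : Fin t, ∃ i, blk i = b := by
    intro b
    have h := hfib b
    have hpos : 0 < (Finset.univ.filter (fun i => blk i = b)).card := by omega
    obtain ⟨i, hi⟩ := Finset.card_pos.1 hpos
    exact ⟨i, by simpa using hi⟩
  constructor
  · -- properness
    rw [SetLike.lt_iff_le_and_exists]
    refine ⟨inf_le_right, ?_⟩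
    obtain ⟨i, hi⟩ := hfne ⟨0, by omega⟩
    obtain ⟨j, hj⟩ := hfne ⟨1, by omega⟩
    have hbij : blk i ≠ blk j := by
      rw [hi, hj]
      intro h
      have := congrArg Fin.val h
      simp at this
    have hij : i ≠ j := fun h => hbij (by rw [h])
    obtain ⟨T, hT⟩ : ∃ T : GL (Fin n) F, T.1 = Matrix.transvection i j 1 :=
      ⟨glOfDet _ (Matrix.det_transvection_of_ne _ _ hij 1), rfl⟩
    refine ⟨P * T * P⁻¹, ?_, ?_⟩
    · rw [Cfsg.Agent.Helper98.C2Asm.mem_sl_iff, Cfsg.Agent.Helper98.C2Asm.det_conj, hT, Matrix.det_transvection_of_ne _ _ hij]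
    · intro hmem
      have hS := (hiff _).1 (Subgroup.mem_inf.1 hmem).1
      have hconj : P⁻¹ * (P * T * P⁻¹) * P = T := by group
      rw [hconj, hT] at hS
      obtain ⟨σ, hσ⟩ := hS
      have hdiag : ∀ p, blk p = σ (blk p) := by
        intro p
        by_contra hne
        have := hσ p p hne
        have hnp : ¬ (i = p ∧ j = p) := by
          rintro ⟨rfl, rfl⟩
          exact hij rfl
        simp [Matrix.transvection, Matrix.single_apply, hnp] at this
      have hoff : blk i = σ (blk j) := by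
        by_contra hne
        have := hσ i j hne
        simp [Matrix.transvection, Matrix.single_apply, hij] at this
      exact hbij (hoff.trans (hdiag j).symm)
  · -- maximality
    intro M' hle hleSL
    by_cases hMH : M' = S ⊓ Cfsg.Geo.specialLinear (Fin n) F
    · exact Or.inl hMH
    · right
      obtain ⟨g0, hg0, hg0H⟩ := SetLike.exists_of_lt (lt_of_le_of_ne hle (Ne.symm hMH))
      have hg0S : g0 ∉ S := fun h => hg0H (Subgroup.mem_inf.2 ⟨h, hleSL hg0⟩)
      obtain ⟨M'', hM''⟩ : ∃ M'' : Subgroup (GL (Fin n) F),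
          ∀ x, x ∈ M'' ↔ P * x * P⁻¹ ∈ M' :=
        ⟨M'.comap (MulAut.conj P).toMonoidHom, fun x => by
          rw [Subgroup.mem_comap]
          rfl⟩
      have hBlk : BlkLE blk M'' := by
        intro x hx hdet
        rw [hM'']
        apply hle
        refine Subgroup.mem_inf.2 ⟨(hiff _).2 ?_, (Cfsg.Agent.Helper98.C2Asm.mem_sl_iff _).2 ?_⟩
        · have hconj : P⁻¹ * (P * x * P⁻¹) * P = x := by group
          rw [hconj]
          exact hx
        · rw [Cfsg.Agent.Helper98.C2Asm.det_conj]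
          exact hdet
      have hdetM : ∀ x ∈ M'', x.1.det = 1 := by
        intro x hx
        rw [hM''] at hx
        have := (Cfsg.Agent.Helper98.C2Asm.mem_sl_iff _).1 (hleSL hx)
        rwa [Cfsg.Agent.Helper98.C2Asm.det_conj] at this
      have hg0' : P⁻¹ * g0 * P ∈ M'' := by
        rw [hM'']
        have hconj : P * (P⁻¹ * g0 * P) * P⁻¹ = g0 := by group
        rw [hconj]
        exact hg0
      have hg0n : ¬ IsBlkMono blk (P⁻¹ * g0 * P : GL (Fin n) F).1 := fun h => hg0S ((hiff _).2 h)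
      have hall : ∀ x : GL (Fin n) F, x.1.det = 1 → x ∈ M'' := by
        rcases Nat.lt_or_ge m 2 with hm1 | hm2
        · have hm1' : m = 1 := by omega
          subst hm1'
          have hq : 5 ≤ Fintype.card F := by
            by_contra hlt
            exact h1 ⟨rfl, by omega⟩
          have hMon : MonSLLE M'' := fun x hx hdet =>
            hBlk x ((isBlkMono_iff_isMono blk hfib _).2 hx) hdet
          have hg0m : ¬ IsMono (P⁻¹ * g0 * P : GL (Fin n) F).1 := fun h =>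
            hg0n ((isBlkMono_iff_isMono blk hfib _).2 h)
          have hn7 : 6 ≤ n := hn1 rfl
          obtain ⟨m', rfl⟩ : ∃ m', n = m' + 1 := ⟨n - 1, by omega⟩
          exact mono_main_six hq m' (by omega) M'' hMon hdetM _ hg0' hg0m
        · obtain ⟨a, φ, hφa, hφ, ha, k, hk, hkeq⟩ :=
            blk_mixed blk m hm2 hfib M'' hBlk _ hg0' hg0n
          have ht3 : m = 2 → 3 ≤ t := ht3'
          have hT := blk_cross blk m hm2 hfib h2 ht3 M'' hBlk a φ hφa hφ ha k hk hkeq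
          exact blk_sl blk m hm2 hfib M'' hBlk hT
      apply le_antisymm hleSL
      intro g hg
      have hg' := hall (P⁻¹ * g * P) (by rw [Cfsg.Agent.Helper98.C2Asm.det_conj']; exact (Cfsg.Agent.Helper98.C2Asm.mem_sl_iff g).1 hg)
      rw [hM''] at hg'
      have hconj : P * (P⁻¹ * g * P) * P⁻¹ = g := by group
      rwa [hconj] at hg'

end Cfsg.Agent.Helper71.M6Asm
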