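import Mathlib

set_option autoImplicit false

/-!
Principal ideal theorem, part 1: the transfer as an additive map on the integral group ring.
-/

namespace Cfsg.Agent.Helper71.PIT

open MonoidAlgebra

section AddExt

variable {X : Type*} {A : Type*} [CommGroup A]

/-- The additive extension to `ℤ[X]` of a function `X → A` (`A` written additively). -/
noncomputable def addExt (ψ : X → A) : MonoidAlgebra ℤ X →+ Additive A :=
  (Finsupp.liftAddHom (fun x => zmultiplesHom (Additive A) (Additive.ofMul (ψ x)))).comp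
    (coeffAddEquiv : MonoidAlgebra ℤ X ≃+ (X →₀ ℤ)).toAddMonoidHom

theorem addExt_single (ψ : X → A) (x : X) (n : ℤ) :
    addExt ψ (single x n) = n • Additive.ofMul (ψ x) := by
  unfold addExt
  rw [AddMonoidHom.comp_apply]
  show (Finsupp.liftAddHom _) (Finsupp.single x n) = _
  rw [Finsupp.liftAddHom_apply_single]
  rfl

theorem addExt_single_one (ψ : X → A) (x : X) :
    addExt ψ (single x 1) = Additive.ofMul (ψ x) := by
  rw [addExt_single, one_smul]

end AddExt

section Transfer

variable {G : Type*} [Group G] {H : Subgroup G} {A : Type*} [CommGroup A]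

/-- The representative of a coset in a left transversal. -/
noncomputable def rep (T : H.LeftTransversal) (q : G ⧸ H) : G := (T.2.leftQuotientEquiv q : G)

theorem mk_rep (T : H.LeftTransversal) (q : G ⧸ H) :
    (QuotientGroup.mk (rep T q) : G ⧸ H) = q :=
  T.2.quotientGroupMk_leftQuotientEquiv q

theorem rep_inv_mul_mem (T : H.LeftTransversal) (g : G) :
    (rep T (QuotientGroup.mk g))⁻¹ * g ∈ H :=
  QuotientGroup.eq.mp (mk_rep T (QuotientGroup.mk g))

/-- `g ↦ φ (ρ(gH)⁻¹ g)`. -/
noncomputable def psi (φ : H →* A) (T : H.LeftTransversal) (g : G) : A :=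
  φ ⟨(rep T (QuotientGroup.mk g))⁻¹ * g, rep_inv_mul_mem T g⟩

theorem theta_mem (T : H.LeftTransversal) (a : G) (q : G ⧸ H) :
    (rep T (a • q))⁻¹ * (a * rep T q) ∈ H := by
  apply QuotientGroup.eq.mp
  rw [mk_rep]
  have : (QuotientGroup.mk (a * rep T q) : G ⧸ H) = a • (QuotientGroup.mk (rep T q) : G ⧸ H) := rfl
  rw [this, mk_rep]

/-- `q ↦ φ (ρ(aq)⁻¹ a ρ(q))`. -/
noncomputable def theta (φ : H →* A) (T : H.LeftTransversal) (a : G) (q : G ⧸ H) : A :=
  φ ⟨(rep T (a • q))⁻¹ * (a * rep T q), theta_mem T a q⟩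

theorem psi_mul (φ : H →* A) (T : H.LeftTransversal) (a g : G) :
    psi φ T (a * g) = psi φ T g * theta φ T a (QuotientGroup.mk g) := by
  unfold psi theta
  rw [mul_comm, ← map_mul]
  congr 1
  apply Subtype.ext
  show (rep T (QuotientGroup.mk (a * g)))⁻¹ * (a * g) =
    (rep T (a • (QuotientGroup.mk g : G ⧸ H)))⁻¹ * (a * rep T (QuotientGroup.mk g)) *
      ((rep T (QuotientGroup.mk g))⁻¹ * g)
  have : (QuotientGroup.mk (a * g) : G ⧸ H) = a • (QuotientGroup.mk g : G ⧸ H) := rfl
  rw [this]
  group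

theorem addExt_of_mul (φ : H →* A) (T : H.LeftTransversal) (a : G) (z : MonoidAlgebra ℤ G) :
    addExt (psi φ T) (of ℤ G a * z) =
      addExt (psi φ T) z + addExt (theta φ T a) (mapDomain (QuotientGroup.mk : G → G ⧸ H) z) := by
  induction z using MonoidAlgebra.induction_on with
  | of g =>
    rw [← map_mul, of_apply, of_apply, addExt_single_one, addExt_single_one, mapDomain_single,
      addExt_single_one, psi_mul]
    rfl
  | add x y hx hy =>
    rw [mul_add, map_add, hx, hy, mapDomain_add, map_add, map_add]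
    abel
  | smul r x hx =>
    rw [mul_smul_comm, map_zsmul, hx, mapDomain_smul, map_zsmul, map_zsmul, smul_add]

/-- Multiplying by a group element on the left does not change `Ψ` on the kernel of the
projection to the coset space. -/
theorem addExt_of_mul_of_mapDomain_eq_zero (φ : H →* A) (T : H.LeftTransversal) (a : G)
    (y : MonoidAlgebra ℤ G) (hy : mapDomain (QuotientGroup.mk : G → G ⧸ H) y = 0) :
    addExt (psi φ T) (of ℤ G a * y) = addExt (psi φ T) y := by
  rw [addExt_of_mul, hy, map_zero, add_zero]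

theorem psi_rep (φ : H →* A) (T : H.LeftTransversal) (q : G ⧸ H) : psi φ T (rep T q) = 1 := by
  unfold psi
  have : (⟨(rep T (QuotientGroup.mk (rep T q)))⁻¹ * rep T q, rep_inv_mul_mem T (rep T q)⟩ : H) = 1 := by
    apply Subtype.ext
    show (rep T (QuotientGroup.mk (rep T q)))⁻¹ * rep T q = 1
    rw [mk_rep, inv_mul_cancel]
  rw [this, map_one]

/-- The transfer in terms of the group ring: `V(g) = Ψ((g - 1) N)`, `N` the sum of the
representatives. -/
theorem transfer_eq_addExt [H.FiniteIndex] [Fintype (G ⧸ H)] (φ : H →* A) (T : H.LeftTransversal)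
    (g : G) :
    Additive.ofMul (MonoidHom.transfer φ g) =
      addExt (psi φ T) ((of ℤ G g - 1) * ∑ q : G ⧸ H, of ℤ G (rep T q)) := by
  have hinst : (‹Fintype (G ⧸ H)› : Fintype (G ⧸ H)) = H.fintypeQuotientOfFiniteIndex :=
    Subsingleton.elim _ _
  subst hinst
  letI : Fintype (G ⧸ H) := H.fintypeQuotientOfFiniteIndex
  rw [MonoidHom.transfer_def φ T, sub_mul, one_mul, Finset.mul_sum, map_sub, map_sum, map_sum]
  have h1 : ∀ q : G ⧸ H, addExt (psi φ T) (of ℤ G (rep T q)) = 0 := by
    intro q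
    rw [of_apply, addExt_single_one, psi_rep]; rfl
  have h2 : ∀ q : G ⧸ H, addExt (psi φ T) (of ℤ G g * of ℤ G (rep T q)) =
      Additive.ofMul (psi φ T (g * rep T q)) := by
    intro q
    rw [← map_mul, of_apply, addExt_single_one]
  simp_rw [h1, h2]
  rw [Finset.sum_const_zero, sub_zero]
  unfold Subgroup.leftTransversals.diff
  rw [ofMul_prod]
  rw [← Equiv.sum_comp (MulAction.toPerm g⁻¹ : Equiv.Perm (G ⧸ H))
    (fun q => Additive.ofMul (psi φ T (g * rep T q)))]
  apply Finset.sum_congr rfl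
  intro q _
  congr 1
  unfold psi
  congr 1
  apply Subtype.ext
  show ((T.2.leftQuotientEquiv q : G))⁻¹ * ((g • T).2.leftQuotientEquiv q : G) =
    (rep T (QuotientGroup.mk (g * rep T (g⁻¹ • q))))⁻¹ * (g * rep T (g⁻¹ • q))
  rw [Subgroup.smul_apply_eq_smul_apply_inv_smul]
  have h3 : (QuotientGroup.mk (g * rep T (g⁻¹ • q)) : G ⧸ H) = q := by
    have : (QuotientGroup.mk (g * rep T (g⁻¹ • q)) : G ⧸ H) =
        g • (QuotientGroup.mk (rep T (g⁻¹ • q)) : G ⧸ H) := rfl
    rw [this, mk_rep, smul_inv_smul]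
  rw [h3]
  rfl

end Transfer

end Cfsg.Agent.Helper71.PIT
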