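import Mathlib

set_option autoImplicit false

/-!
Principal ideal theorem, part 2: the determinant argument in the integral group ring.
-/

namespace Cfsg.Agent.Helper71.PIT

open MonoidAlgebra

/-- The augmentation of the integral group ring. -/
noncomputable def aug (G : Type*) [Group G] : MonoidAlgebra ℤ G →+* ℤ :=
  (MonoidAlgebra.lift ℤ ℤ G (1 : G →* ℤ)).toRingHom

theorem aug_of (G : Type*) [Group G] (g : G) : aug G (of ℤ G g) = 1 := by
  unfold aug
  show (MonoidAlgebra.lift ℤ ℤ G (1 : G →* ℤ)) (of ℤ G g) = 1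
  rw [lift_of]; rfl

theorem aug_d (G : Type*) [Group G] (g : G) : aug G (of ℤ G g - 1) = 0 := by
  rw [map_sub, aug_of, map_one, sub_self]

theorem aug_eq_sum_coeff (Q : Type*) [Group Q] [Fintype Q] [DecidableEq Q]
    (z : MonoidAlgebra ℤ Q) : aug Q z = ∑ q, z.coeff q := by
  induction z using MonoidAlgebra.induction_on with
  | of g =>
    rw [aug_of, of_apply]
    simp [Finsupp.single_apply]
  | add x y hx hy =>
    rw [map_add, hx, hy, coeff_add]
    simp [Finset.sum_add_distrib]
  | smul r x hx =>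
    rw [map_zsmul, hx, coeff_smul]
    simp [Finset.mul_sum]

theorem aug_mapDomain {G Q : Type*} [Group G] [Group Q] (p : G →* Q) (z : MonoidAlgebra ℤ G) :
    aug Q (mapDomainRingHom ℤ p z) = aug G z := by
  induction z using MonoidAlgebra.induction_on with
  | of g =>
    rw [mapDomainRingHom_apply, of_apply, mapDomain_single, ← of_apply, aug_of, ← of_apply, aug_of]
  | add x y hx hy => rw [map_add, map_add, hx, hy, map_add]
  | smul r x hx => rw [map_zsmul, map_zsmul, hx, map_zsmul]

theorem mapDomainRingHom_of {G Q : Type*} [Group G] [Group Q] (p : G →* Q) (g : G) :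
    mapDomainRingHom ℤ p (of ℤ G g) = of ℤ Q (p g) := by
  rw [mapDomainRingHom_apply, of_apply, mapDomain_single, ← of_apply]

theorem mapDomainRingHom_surjective {G Q : Type*} [Group G] [Group Q] (p : G →* Q)
    (hp : Function.Surjective p) : Function.Surjective (mapDomainRingHom ℤ p) := by
  intro z
  induction z using MonoidAlgebra.induction_on with
  | of q =>
    obtain ⟨g, rfl⟩ := hp q
    exact ⟨of ℤ G g, mapDomainRingHom_of p g⟩
  | add x y hx hy =>
    obtain ⟨a, rfl⟩ := hx
    obtain ⟨b, rfl⟩ := hy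
    exact ⟨a + b, map_add _ _ _⟩
  | smul r x hx =>
    obtain ⟨a, rfl⟩ := hx
    exact ⟨r • a, map_zsmul _ _ _⟩

section WSub

variable {G : Type*} [Group G] [Fintype G]

/-- Elements of the form `∑ (x_i - 1) u_i + ∑ (g - 1) m_g` with `m_g` of augmentation zero. -/
noncomputable def wSub {ι : Type*} [Fintype ι] (x : ι → G) : AddSubgroup (MonoidAlgebra ℤ G) where
  carrier := {z | ∃ (u : ι → MonoidAlgebra ℤ G) (m : G → MonoidAlgebra ℤ G),
      (∀ g, aug G (m g) = 0) ∧
      z = ∑ i, (of ℤ G (x i) - 1) * u i + ∑ g, (of ℤ G g - 1) * m g}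
  add_mem' := by
    rintro _ _ ⟨u, m, hm, rfl⟩ ⟨u', m', hm', rfl⟩
    refine ⟨u + u', m + m', fun g => by simp [hm g, hm' g], ?_⟩
    simp only [Pi.add_apply, mul_add, Finset.sum_add_distrib]
    abel
  zero_mem' := ⟨0, 0, fun g => by simp, by simp⟩
  neg_mem' := by
    rintro _ ⟨u, m, hm, rfl⟩
    refine ⟨-u, -m, fun g => by simp [hm g], ?_⟩
    simp only [Pi.neg_apply, mul_neg, Finset.sum_neg_distrib]
    abel

theorem mem_wSub {ι : Type*} [Fintype ι] (x : ι → G) (z : MonoidAlgebra ℤ G) :
    z ∈ wSub x ↔ ∃ (u : ι → MonoidAlgebra ℤ G) (m : G → MonoidAlgebra ℤ G),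
      (∀ g, aug G (m g) = 0) ∧
      z = ∑ i, (of ℤ G (x i) - 1) * u i + ∑ g, (of ℤ G g - 1) * m g := Iff.rfl

theorem d_mul_d_mem {ι : Type*} [Fintype ι] (x : ι → G) (g g' : G) :
    (of ℤ G g - 1) * (of ℤ G g' - 1) ∈ wSub x := by
  classical
  rw [mem_wSub]
  refine ⟨0, Pi.single g (of ℤ G g' - 1), ?_, ?_⟩
  · intro g''
    by_cases h : g'' = g
    · subst h; rw [Pi.single_eq_same, aug_d]
    · rw [Pi.single_eq_of_ne h, map_zero]
  · simp only [Pi.zero_apply, mul_zero, Finset.sum_const_zero, zero_add]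
    rw [Finset.sum_eq_single g]
    · rw [Pi.single_eq_same]
    · intro b _ hb
      rw [Pi.single_eq_of_ne hb, mul_zero]
    · intro h; exact absurd (Finset.mem_univ g) h

theorem d_x_mem {ι : Type*} [Fintype ι] [DecidableEq ι] (x : ι → G) (i : ι) :
    of ℤ G (x i) - 1 ∈ wSub x := by
  rw [mem_wSub]
  refine ⟨Pi.single i 1, 0, fun g => by simp, ?_⟩
  simp only [Pi.zero_apply, mul_zero, Finset.sum_const_zero, add_zero]
  rw [Finset.sum_eq_single i]
  · rw [Pi.single_eq_same, mul_one]
  · intro b _ hb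
    rw [Pi.single_eq_of_ne hb, mul_zero]
  · intro h; exact absurd (Finset.mem_univ i) h

/-- `g ↦ g - 1` modulo `wSub x` is a homomorphism. -/
noncomputable def lam {ι : Type*} [Fintype ι] (x : ι → G) :
    G →* Multiplicative (MonoidAlgebra ℤ G ⧸ wSub x) where
  toFun g := Multiplicative.ofAdd (QuotientAddGroup.mk (of ℤ G g - 1))
  map_one' := by
    rw [map_one, sub_self]; rfl
  map_mul' g g' := by
    rw [← ofAdd_add, ← QuotientAddGroup.mk_add]
    congr 1
    have h : of ℤ G (g * g') - 1 =
        (of ℤ G g - 1) * (of ℤ G g' - 1) + ((of ℤ G g - 1) + (of ℤ G g' - 1)) := by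
      rw [map_mul]; noncomm_ring
    rw [h, QuotientAddGroup.mk_add, (QuotientAddGroup.eq_zero_iff _).mpr (d_mul_d_mem x g g'),
      zero_add]

theorem d_mem_of_mem_commutator {ι : Type*} [Fintype ι] (x : ι → G) (h : G)
    (hh : h ∈ commutator G) : of ℤ G h - 1 ∈ wSub x := by
  have h1 := Abelianization.commutator_subset_ker (lam x) hh
  rw [MonoidHom.mem_ker] at h1
  have h2 : (QuotientAddGroup.mk (of ℤ G h - 1) : MonoidAlgebra ℤ G ⧸ wSub x) = 0 := h1
  exact (QuotientAddGroup.eq_zero_iff _).mp h2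

theorem d_mem_of_generate {ι : Type*} [Fintype ι] [DecidableEq ι] (x : ι → G)
    (hgen : ∀ S : Subgroup G, commutator G ≤ S → (∀ i, x i ∈ S) → S = ⊤) (g : G) :
    of ℤ G g - 1 ∈ wSub x := by
  have hker : (lam x).ker = ⊤ := by
    apply hgen
    · exact Abelianization.commutator_subset_ker (lam x)
    · intro i
      rw [MonoidHom.mem_ker]
      show Multiplicative.ofAdd (QuotientAddGroup.mk (of ℤ G (x i) - 1)) = 1
      rw [(QuotientAddGroup.eq_zero_iff _).mpr (d_x_mem x i)]; rfl
  have h1 : g ∈ (lam x).ker := by rw [hker]; trivial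
  rw [MonoidHom.mem_ker] at h1
  have h2 : (QuotientAddGroup.mk (of ℤ G g - 1) : MonoidAlgebra ℤ G ⧸ wSub x) = 0 := h1
  exact (QuotientAddGroup.eq_zero_iff _).mp h2

end WSub

section Basis

variable {G : Type*} [Group G] {Q : Type*} [CommGroup Q] [Finite Q]

/-- Lifts of a basis of the finite abelian quotient. -/
theorem exists_basis (p : G →* Q) (hp : Function.Surjective p) (hker : p.ker = commutator G) :
    ∃ (ι : Type) (_ : Fintype ι) (n : ι → ℕ) (x : ι → G),
      (∀ i, x i ^ n i ∈ commutator G) ∧ (∏ i, n i = Nat.card Q) ∧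
      (∀ S : Subgroup G, commutator G ≤ S → (∀ i, x i ∈ S) → S = ⊤) := by
  classical
  obtain ⟨ι, hι, n, hn, ⟨e⟩⟩ := CommGroup.equiv_prod_multiplicative_zmod_of_finite Q
  have hne : ∀ i, NeZero (n i) := fun i => ⟨by have := hn i; omega⟩
  choose x hx using fun i => hp (e.symm (Pi.mulSingle i (Multiplicative.ofAdd (1 : ZMod (n i)))))
  refine ⟨ι, hι, n, x, ?_, ?_, ?_⟩
  · intro i
    rw [← hker, MonoidHom.mem_ker, map_pow, hx, ← map_pow]
    have h1 : (Pi.mulSingle i (Multiplicative.ofAdd (1 : ZMod (n i))) :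
        (j : ι) → Multiplicative (ZMod (n j))) ^ n i = 1 := by
      have h2 := (MonoidHom.mulSingle (fun j : ι => Multiplicative (ZMod (n j))) i).map_pow
        (Multiplicative.ofAdd (1 : ZMod (n i))) (n i)
      have h3 : (Multiplicative.ofAdd (1 : ZMod (n i))) ^ n i = 1 := by
        rw [← ofAdd_nsmul, nsmul_one, ZMod.natCast_self]; rfl
      rw [h3, map_one] at h2
      exact h2.symm
    rw [h1, map_one]
  · rw [Nat.card_congr e.toEquiv, Nat.card_pi]
    apply Finset.prod_congr rfl
    intro i _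
    rw [Nat.card_congr (Multiplicative.toAdd : Multiplicative (ZMod (n i)) ≃ ZMod (n i)),
      Nat.card_zmod]
  · intro S hS hxS
    have hmap : S.map p = ⊤ := by
      have hJ : (⊤ : Subgroup ((j : ι) → Multiplicative (ZMod (n j)))) ≤
          (S.map p).comap e.symm.toMonoidHom := by
        have hpi := (Subgroup.pi_le_iff (H := fun j : ι =>
          (⊤ : Subgroup (Multiplicative (ZMod (n j)))))
          (J := (S.map p).comap e.symm.toMonoidHom)).mpr (by
            intro i
            rintro _ ⟨z, -, rfl⟩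
            rw [Subgroup.mem_comap]
            have hz : z = (Multiplicative.ofAdd (1 : ZMod (n i))) ^ (Multiplicative.toAdd z).val := by
              rw [← ofAdd_nsmul, nsmul_one, ZMod.natCast_zmod_val]; rfl
            have h2 : (MonoidHom.mulSingle (fun j : ι => Multiplicative (ZMod (n j))) i) z =
                (Pi.mulSingle i (Multiplicative.ofAdd (1 : ZMod (n i))) :
                  (j : ι) → Multiplicative (ZMod (n j))) ^ (Multiplicative.toAdd z).val := by
              conv_lhs => rw [hz]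
              rw [map_pow]; rfl
            rw [h2]
            show e.symm (_ ^ _) ∈ S.map p
            rw [map_pow, ← hx, ← map_pow]
            exact Subgroup.mem_map_of_mem p (pow_mem (hxS i) _))
        rwa [Subgroup.pi_top] at hpi
      rw [eq_top_iff]
      intro q _
      have := hJ (Subgroup.mem_top (e q))
      rw [Subgroup.mem_comap] at this
      simpa using this
    rw [eq_top_iff]
    intro g _
    have hg : p g ∈ S.map p := by rw [hmap]; trivial
    obtain ⟨s, hs, hsg⟩ := hg
    have h1 : s⁻¹ * g ∈ p.ker := by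
      rw [MonoidHom.mem_ker, map_mul, map_inv, hsg, inv_mul_cancel]
    rw [hker] at h1
    have h2 := mul_mem hs (hS h1)
    rwa [mul_inv_cancel_left] at h2

end Basis

section Matrix

variable {G : Type*} [Group G] [Fintype G] [DecidableEq G]

/-- The relation matrix. -/
theorem exists_matrix {ι : Type} [Fintype ι] [DecidableEq ι] (n : ι → ℕ) (x : ι → G)
    (hxn : ∀ i, x i ^ n i ∈ commutator G)
    (hgen : ∀ S : Subgroup G, commutator G ≤ S → (∀ i, x i ∈ S) → S = ⊤) :
    ∃ M : Matrix (ι ⊕ G) (ι ⊕ G) (MonoidAlgebra ℤ G),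
      (∀ l, ∑ k, (of ℤ G (Sum.elim x id k) - 1) * M k l = 0) ∧
      (M.map (aug G)).det = ∏ i, (n i : ℤ) := by
  have h1 : ∀ g : G, ∃ (u : ι → MonoidAlgebra ℤ G) (m : G → MonoidAlgebra ℤ G),
      (∀ g', aug G (m g') = 0) ∧
      of ℤ G g - 1 = ∑ i, (of ℤ G (x i) - 1) * u i + ∑ g', (of ℤ G g' - 1) * m g' :=
    fun g => (mem_wSub x _).mp (d_mem_of_generate x hgen g)
  choose u m hm hum using h1
  have h2 : ∀ i : ι, ∃ (m' : G → MonoidAlgebra ℤ G),
      (∀ g', aug G (m' g') = 0) ∧
      of ℤ G (x i ^ n i) - 1 = ∑ g', (of ℤ G g' - 1) * m' g' := by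
    intro i
    obtain ⟨u', m', hm', h⟩ := (mem_wSub (Empty.elim : Empty → G) _).mp
      (d_mem_of_mem_commutator (Empty.elim : Empty → G) _ (hxn i))
    refine ⟨m', hm', ?_⟩
    rw [h]; simp
  choose m' hm' hm'x using h2
  set ν : ι → MonoidAlgebra ℤ G := fun i => ∑ j ∈ Finset.range (n i), of ℤ G (x i) ^ j with hν
  have hνx : ∀ i, (of ℤ G (x i) - 1) * ν i = of ℤ G (x i ^ n i) - 1 := by
    intro i
    rw [hν, mul_geom_sum, map_pow]
  have hνaug : ∀ i, aug G (ν i) = (n i : ℤ) := by
    intro i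
    rw [hν, map_sum]
    have h3 : ∀ j ∈ Finset.range (n i), aug G (of ℤ G (x i) ^ j) = 1 := by
      intro j _; rw [map_pow, aug_of, one_pow]
    rw [Finset.sum_congr rfl h3]; simp
  refine ⟨Matrix.fromBlocks (Matrix.diagonal ν) (Matrix.of fun j g => - u g j)
    (Matrix.of fun g' i => - m' i g') (1 - Matrix.of fun g' g => m g g'), ?_, ?_⟩
  · intro l
    rw [Fintype.sum_sum_type]
    rcases l with i | g
    · simp only [Sum.elim_inl, Sum.elim_inr, id, Matrix.fromBlocks_apply₁₁,
        Matrix.fromBlocks_apply₂₁, Matrix.of_apply, Matrix.diagonal_apply, mul_ite, mul_zero,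
        mul_neg, Finset.sum_neg_distrib]
      rw [Finset.sum_ite_eq' Finset.univ i, if_pos (Finset.mem_univ i), hνx, hm'x]
      exact add_neg_cancel _
    · simp only [Sum.elim_inl, Sum.elim_inr, id, Matrix.fromBlocks_apply₁₂,
        Matrix.fromBlocks_apply₂₂, Matrix.of_apply, Matrix.sub_apply, Matrix.one_apply, mul_sub,
        mul_ite, mul_one, mul_zero, mul_neg, Finset.sum_neg_distrib, Finset.sum_sub_distrib]
      rw [Finset.sum_ite_eq' Finset.univ g, if_pos (Finset.mem_univ g)]
      rw [hum g]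
      abel
  · rw [Matrix.fromBlocks_map]
    have hA : (Matrix.diagonal ν).map (aug G) = Matrix.diagonal fun i => (n i : ℤ) := by
      rw [Matrix.diagonal_map (map_zero _)]
      congr 1
      funext i
      exact hνaug i
    have hC : (Matrix.of fun (g' : G) (i : ι) => - m' i g').map (aug G) = 0 := by
      ext g' i
      simp [hm' i g']
    have hD : ((1 : Matrix G G (MonoidAlgebra ℤ G)) - Matrix.of fun g' g => m g g').map (aug G)
        = 1 := by
      ext g' g
      simp only [Matrix.map_apply, Matrix.sub_apply, Matrix.of_apply, map_sub, hm g g', sub_zero,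
        Matrix.one_apply]
      split_ifs <;> simp
    rw [hA, hC, hD, Matrix.det_fromBlocks_zero₂₁, Matrix.det_diagonal, Matrix.det_one, mul_one]

end Matrix

section Det

variable {G : Type*} [Group G] [Fintype G] [DecidableEq G] {Q : Type*} [CommGroup Q] [Fintype Q]
  [DecidableEq Q]

omit [Fintype G] [DecidableEq G] in
theorem det_eq_sum {K : Type*} [Fintype K] [DecidableEq K] (p : G →* Q)
    (hp : Function.Surjective p) (xK : K → G) (hxK : Function.Surjective xK)
    (M : Matrix K K (MonoidAlgebra ℤ G))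
    (hrel : ∀ l, ∑ k, (of ℤ G (xK k) - 1) * M k l = 0)
    (hdet : (M.map (aug G)).det = (Fintype.card Q : ℤ)) :
    (M.map (mapDomainRingHom ℤ p)).det = ∑ q : Q, of ℤ Q q := by
  set π := mapDomainRingHom ℤ p with hπ
  set D := (M.map π).det with hD
  have hv : Matrix.vecMul (fun k => π (of ℤ G (xK k) - 1)) (M.map π) = 0 := by
    funext l
    simp only [Matrix.vecMul, dotProduct, Matrix.map_apply, Pi.zero_apply]
    rw [← map_zero π, ← hrel l, map_sum]
    simp only [map_mul]
  have hkD : ∀ k, π (of ℤ G (xK k) - 1) * D = 0 := by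
    intro k
    have h1 := Matrix.vecMul_vecMul (fun k => π (of ℤ G (xK k) - 1)) (M.map π)
      (M.map π).adjugate
    rw [hv, Matrix.zero_vecMul, Matrix.mul_adjugate, Matrix.vecMul_smul, Matrix.vecMul_one] at h1
    have h2 := congrFun h1 k
    simp only [Pi.zero_apply, Pi.smul_apply, smul_eq_mul] at h2
    rw [mul_comm]; exact h2.symm
  have hqD : ∀ q : Q, of ℤ Q q * D = D := by
    intro q
    obtain ⟨g, rfl⟩ := hp q
    obtain ⟨k, rfl⟩ := hxK g
    have := hkD k
    rw [map_sub, map_one, hπ, mapDomainRingHom_of, sub_mul, one_mul, sub_eq_zero] at this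
    exact this
  have hcoeff : ∀ q : Q, D.coeff q = D.coeff 1 := by
    intro q
    have h1 : (of ℤ Q q * D).coeff q = D.coeff q := by rw [hqD q]
    rw [of_apply, coeff_single_mul_apply, one_mul, inv_mul_cancel] at h1
    exact h1.symm
  have haugD : aug Q D = (Fintype.card Q : ℤ) := by
    rw [hD, RingHom.map_det, RingHom.mapMatrix_apply, Matrix.map_map]
    have h1 : (⇑(aug Q) ∘ ⇑π) = ⇑(aug G) := by funext z; exact aug_mapDomain p z
    rw [h1]
    exact hdet
  have hc : D.coeff 1 = 1 := by
    have h1 := aug_eq_sum_coeff Q D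
    rw [haugD] at h1
    simp_rw [hcoeff] at h1
    rw [Finset.sum_const, Finset.card_univ, nsmul_eq_mul] at h1
    have hpos : (Fintype.card Q : ℤ) ≠ 0 := by exact_mod_cast Fintype.card_ne_zero
    have h2 : (Fintype.card Q : ℤ) * 1 = (Fintype.card Q : ℤ) * D.coeff 1 := by
      rw [mul_one]; exact h1
    exact (mul_left_cancel₀ hpos h2).symm
  apply MonoidAlgebra.ext
  ext q
  rw [hcoeff q, hc, coeff_sum]
  simp [Finsupp.single_apply, of_apply]

/-- Witt's lemma: `(g - 1) N` lies in the product of the augmentation ideal and the kernel of the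
projection. -/
theorem witt (p : G →* Q) (hp : Function.Surjective p) (hker : p.ker = commutator G)
    (N : MonoidAlgebra ℤ G) (hN : mapDomainRingHom ℤ p N = ∑ q : Q, of ℤ Q q) (g : G) :
    (of ℤ G g - 1) * N ∈ AddSubgroup.closure
      {z | ∃ (a : G) (y : MonoidAlgebra ℤ G), mapDomainRingHom ℤ p y = 0 ∧
        z = (of ℤ G a - 1) * y} := by
  obtain ⟨ι, hι, n, x, hxn, hcard, hgen⟩ := exists_basis p hp hker
  classical
  obtain ⟨M, hrel, hdet⟩ := exists_matrix n x hxn hgen
  set π := mapDomainRingHom ℤ p with hπ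
  have hdet' : (M.map (aug G)).det = (Fintype.card Q : ℤ) := by
    rw [hdet, ← Nat.card_eq_fintype_card, ← hcard]; push_cast; rfl
  have hD := det_eq_sum p hp (Sum.elim x id) (fun g => ⟨Sum.inr g, rfl⟩) M hrel hdet'
  choose σ hσ using mapDomainRingHom_surjective p hp
  set At : Matrix (ι ⊕ G) (ι ⊕ G) (MonoidAlgebra ℤ G) := (M.map π).adjugate.map σ with hAt
  have hAt' : At.map π = (M.map π).adjugate := by
    ext k l
    rw [hAt, Matrix.map_apply, Matrix.map_apply, hπ, hσ]
  have key1 : ∀ k m, π ((M * At) k m) = if k = m then ∑ q : Q, of ℤ Q q else 0 := by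
    intro k m
    have h1 : (M * At).map π = M.map π * At.map π := Matrix.map_mul
    have h2 := congrFun (congrFun h1 k) m
    rw [hAt', Matrix.mul_adjugate, hD] at h2
    simp only [Matrix.map_apply, Matrix.smul_apply, Matrix.one_apply, smul_eq_mul, mul_ite,
      mul_one, mul_zero] at h2
    exact h2
  have key2 : ∀ m, ∑ k, (of ℤ G (Sum.elim x id k) - 1) * (M * At) k m = 0 := by
    intro m
    simp only [Matrix.mul_apply, Finset.mul_sum, ← mul_assoc]
    rw [Finset.sum_comm]
    simp only [← Finset.sum_mul, hrel, zero_mul, Finset.sum_const_zero]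
  have key3 := key2 (Sum.inr g)
  have hy : ∀ k, π ((M * At) k (Sum.inr g) - if k = Sum.inr g then N else 0) = 0 := by
    intro k
    rw [map_sub, key1]
    split_ifs with h
    · rw [hN, sub_self]
    · rw [map_zero, sub_zero]
  have hsplit : (of ℤ G g - 1) * N = - ∑ k, (of ℤ G (Sum.elim x id k) - 1) *
      ((M * At) k (Sum.inr g) - if k = Sum.inr g then N else 0) := by
    simp only [mul_sub, Finset.sum_sub_distrib, mul_ite, mul_zero]
    rw [key3, Finset.sum_ite_eq' Finset.univ (Sum.inr g), if_pos (Finset.mem_univ _)]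
    simp
  rw [hsplit]
  apply neg_mem
  apply sum_mem
  intro k _
  exact AddSubgroup.subset_closure ⟨_, _, hy k, rfl⟩

end Det

end Cfsg.Agent.Helper71.PIT
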