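import Mathlib
import Cfsg.Prelude.Def_GeometricClasses
import Cfsg.Agent.Helper71.QMTen
import Cfsg.Agent.Helper93.S6QA
import Cfsg.Agent.Helper93.S6QB
import Cfsg.Agent.Helper93.S6QC
import Cfsg.Agent.Helper19.S6QD
import Cfsg.Agent.Helper53.S6QE

/-!
# Helper71: maximality of the similarity group of a quadratic form in `SL_n`, `n ≥ 6`, `q` odd.

Assembly of CALL S5798 (quadratic part): a short proof valid from dimension 6 on.
* first transvection (`Helper53.S6QE.q6_first_tv`, via the commutator `Helper71.Q6Comm`);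
* `R(u, w)` with `w` anisotropic makes `u` a full centre (`Helper93.S6QB.q6_R_full`): the
  stabiliser of `u` in the orthogonal group is transitive on the vectors of `u^⊥` of a given
  nonzero norm, and every vector of `u^⊥` is a sum of two vectors of norm `Q w`;
* spreading (`Helper93.S6QC.q6_R_of_start`).
-/

set_option autoImplicit false
set_option linter.unusedSectionVars false

namespace Cfsg.Agent.Helper71.Q6Main

open Matrix Cfsg.Agent.Helper93 Cfsg.Agent.Helper94 Cfsg.Agent.Helper98 Cfsg.Geo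

open Cfsg.Agent.Helper93.S6QA Cfsg.Agent.Helper93.S6QB Cfsg.Agent.Helper93.S6QC
open Cfsg.Agent.Helper19.S6QD Cfsg.Agent.Helper53.S6QE

variable {ι : Type} [Fintype ι] [DecidableEq ι] {F : Type*} [Field F]
variable {Q : (ι → F) → F}

/-- **The similarity group of a non-degenerate quadratic form over a finite field of odd order is
maximal in `SL_n`, `n ≥ 6`.** -/
theorem quad_similarity_max_six [Fintype F] (hQ : IsNondegenerateQuadraticForm Q)
    (hodd : Odd (Fintype.card F)) (hn : 5 < Fintype.card ι) :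
    IsMaximalIn (specialLinear ι F) (quadSimilarityGroup Q ⊓ specialLinear ι F) := by
  have h2 : (2 : F) ≠ 0 := by
    apply Ring.two_ne_zero
    intro hchar
    have := FiniteField.even_card_of_char_two hchar
    have := Nat.odd_iff.mp hodd
    omega
  have : Nontrivial ι := Fintype.one_lt_card_iff_nontrivial.mp (by omega)
  constructor
  · rw [SetLike.lt_iff_le_and_exists]
    refine ⟨inf_le_right, ?_⟩
    obtain ⟨v, hv, -⟩ := qm_exists_aniso hQ (Fin.elim0 : Fin 0 → (ι → F)) (by omega)
    obtain ⟨w, hw, hwz⟩ := qm_exists_aniso hQ ![v] (by omega)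
    have hwv : polB hQ w v = 0 := hwz 0
    have hvw : polB hQ v w = 0 := by
      rw [polB_comm]
      exact hwv
    refine ⟨ft (polB hQ) v w hvw, ft_mem_SL _ _ _ _, fun hmem => ?_⟩
    obtain ⟨c, hc⟩ := hmem.1
    have e1 := hc v
    rw [ft_mulVec, hvw, zero_smul, add_zero] at e1
    have hc1 : (c : F) = 1 := by
      have h3 : ((c : F) - 1) * Q v = 0 := by linear_combination -e1
      exact sub_eq_zero.mp ((mul_eq_zero.mp h3).resolve_right hv)
    have e2 := hc w
    rw [ft_mulVec, q_add hQ, q_smul hQ, map_smul, smul_eq_mul, hwv, mul_zero, add_zero, hc1,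
      one_mul, polB_self] at e2
    have h4 : (2 * Q w) ^ 2 * Q v ≠ 0 :=
      mul_ne_zero (pow_ne_zero 2 (mul_ne_zero h2 hw)) hv
    apply h4
    linear_combination e2
  · intro M hHM hMS
    by_cases hM : M = quadSimilarityGroup Q ⊓ specialLinear ι F
    · exact Or.inl hM
    · right
      obtain ⟨y, hyM, hyH⟩ := SetLike.exists_of_lt (lt_of_le_of_ne hHM (Ne.symm hM))
      have hy : y ∉ quadSimilarityGroup Q := fun h => hyH ⟨h, hMS hyM⟩
      have hM' : ∀ (c d : ι → F) (hc : qm_conjQ Q y c ≠ 0) (hd : qm_conjQ Q y d ≠ 0),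
          reflGL (qm_conjQ_nd hQ y) c hc * reflGL (qm_conjQ_nd hQ y) d hd ∈ M := by
        intro c d hc hd
        rw [← qm_refl_conj hQ y c hc hc, ← qm_refl_conj hQ y d hd hd]
        have h3 : y * reflGL hQ (((y⁻¹ : GL ι F) : Matrix ι ι F) *ᵥ c) hc * y⁻¹ *
            (y * reflGL hQ (((y⁻¹ : GL ι F) : Matrix ι ι F) *ᵥ d) hd * y⁻¹) =
            y * (reflGL hQ (((y⁻¹ : GL ι F) : Matrix ι ι F) *ᵥ c) hc *
              reflGL hQ (((y⁻¹ : GL ι F) : Matrix ι ι F) *ᵥ d) hd) * y⁻¹ := by
          group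
        rw [h3]
        exact M.mul_mem (M.mul_mem hyM (hHM (qm_refl2_mem hQ _ _ hc hd))) (M.inv_mem hyM)
      have hne : ¬ ∃ l : F, ∀ x, Q x = l * qm_conjQ Q y x := by
        rintro ⟨l, hl⟩
        apply hy
        have hl0 : l ≠ 0 := by
          rintro rfl
          obtain ⟨v, hv, -⟩ := qm_exists_aniso hQ (Fin.elim0 : Fin 0 → (ι → F)) (by omega)
          exact hv (by rw [hl, zero_mul])
        refine ⟨Units.mk0 l hl0, fun v => ?_⟩
        rw [hl ((y : Matrix ι ι F) *ᵥ v)]
        unfold qm_conjQ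
        rw [gl_inv_mulVec, Units.val_mk0]
      have hne' : ¬ ∃ l : F, ∀ x, qm_conjQ Q y x = l * Q x := by
        rintro ⟨l, hl⟩
        apply hne
        have hl0 : l ≠ 0 := by
          rintro rfl
          obtain ⟨v, hv, -⟩ := qm_exists_aniso (qm_conjQ_nd hQ y)
            (Fin.elim0 : Fin 0 → (ι → F)) (by omega)
          exact hv (by rw [hl, zero_mul])
        exact ⟨l⁻¹, fun x => by rw [hl x, ← mul_assoc, inv_mul_cancel₀ hl0, one_mul]⟩
      obtain ⟨a, c, ha, hc, hca, hca'⟩ := q6_exists_cv (qm_conjQ_nd hQ y) hQ h2 (by omega)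
        (fun c c' hc hc' => q6_conn hQ h2 (by omega) c c' hc hc') hne'
      obtain ⟨u₀, w₀, hR, hu₀, hw₀⟩ := q6_first_tv hQ (qm_conjQ_nd hQ y) M hHM hM' h2
        (by omega)
        ⟨c, a, hc, ha, by rw [polB_comm]; exact hca, by rw [polB_comm]; exact hca'⟩
        (fun z => q6_perp4 (qm_conjQ_nd hQ y) (by omega) z)
      apply le_antisymm hMS
      apply SL_le_of_all_tv
      intro u ψ h
      obtain ⟨w, rfl⟩ := exists_rz (polB hQ) (qm_nd hQ) ψ
      have h' : polB hQ u w = 0 := by
        rw [← rz_dot]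
        exact h
      obtain ⟨_, hmem⟩ := q6_R_of_start hHM h2 (by omega)
        (fun h hw x hx => q6_R_full hHM hodd h2 hn h hw x hx)
        (fun u a hu ha => q6_conn hQ h2 (by omega) u a hu ha)
        (fun u hu => q6_aniso_ne hQ h2 (by omega) u hu) hR hu₀ hw₀ u w h'
      exact hmem

end Cfsg.Agent.Helper71.Q6Main
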