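import Mathlib
import Cfsg.Agent.Helper71.SQMain
import Cfsg.Agent.Helper71.SGDefs

/-!
# CALL S5666, piece PORT (helper71): the radical elements and the parabolic step for `Fin n`
(port of `rad_scalar`, `rad_kron`, `zb0` of `Helper71.SQMain`, with the reflection step).
-/

set_option autoImplicit false
set_option linter.unusedVariables false

namespace Cfsg.Agent.Helper71.SGPORT

open Matrix Cfsg.Agent.Helper71.T4 Cfsg.Agent.Helper71.SO Cfsg.Agent.Helper71.SQ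
open Cfsg.Agent.Helper71.SG
open scoped Kronecker
open Cfsg.Agent.Helper53.SQET (tac_mulVec eay_mulVec eay_isom tac_eq_eay eroot_inM troot_inM)
open Cfsg.Agent.Helper51.SQEP (eay_mul troot_pow)
open Cfsg.Agent.Helper53.SQTA (alt_partner alt_partner2 alt_trans)
open Cfsg.Agent.Helper96.SQR1 (rad_pair)
open Cfsg.Agent.Helper59.SQIB (rad_struct)
open Cfsg.Agent.Helper51.SQZA (conj_rad)
open Cfsg.Agent.Helper72.SQZB1 (levi_graded)
open Cfsg.Agent.Helper12.SQZB2 (levi_lift)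
open Cfsg.Agent.Helper71.SQMain (pt_left_cancel bl_skew bl_self bl_add_r bl_smul_r bl_smul_l)

variable {F : Type*} [Field F] {m n : ℕ}

theorem rad_scalar_gen (hn : 3 ≤ n) (h2 : (2 : F) ≠ 0) (J : Matrix (Fin m) (Fin m) F) (hJ : Jᵀ = -J)
    (hdetJ : J.det ≠ 0) (S : Matrix (Fin n) (Fin n) F) (hS : Sᵀ = S) (hdetS : S.det ≠ 0)
    (M : Subgroup (GL (Fin m × Fin n) F)) (hSp : SpLEG J S M) (hH : HasHG J S M)
    (hNS : NS2 J S M)
    (hsk : ∀ (C : Matrix (Fin n) (Fin n) F) (l l' : F),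
      C * S⁻¹ * Cᵀ * S = l • (1 : Matrix (Fin n) (Fin n) F) →
      (C + 1) * S⁻¹ * (C + 1)ᵀ * S = l' • (1 : Matrix (Fin n) (Fin n) F) →
      (∀ v : Fin n → F, bl S v v ≠ 0 → ∃ l₂ : F,
        (C + Rf S v * C * Rf S v) * S⁻¹ * (C + Rf S v * C * Rf S v)ᵀ * S
          = l₂ • (1 : Matrix (Fin n) (Fin n) F)) →
      ∃ γ : F, C = γ • (1 : Matrix (Fin n) (Fin n) F))
    (a : Fin m → F) (ha : a ≠ 0)
    (ρ : GL (Fin m × Fin n) F) (hρ : ρ ∈ M)
    (h1 : ∀ b : Fin n → F, (ρ : Matrix (Fin m × Fin n) (Fin m × Fin n) F) *ᵥ pt a b = pt a b)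
    (h2' : ∀ (y : Fin m → F) (b : Fin n → F), bl J a y = 0 → ∃ b' : Fin n → F,
      (ρ : Matrix (Fin m × Fin n) (Fin m × Fin n) F) *ᵥ pt y b = pt y b + pt a b')
    (y : Fin m → F) (C : Matrix (Fin n) (Fin n) F) (hay : bl J a y = 0)
    (hC : ∀ b : Fin n → F,
      (ρ : Matrix (Fin m × Fin n) (Fin m × Fin n) F) *ᵥ pt y b = pt y b + pt a (C *ᵥ b)) :
    ∃ γ : F, C = γ • (1 : Matrix (Fin n) (Fin n) F) := by
  by_cases hy : ∃ l : F, y = l • a
  · obtain ⟨l, rfl⟩ := hy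
    refine ⟨0, ?_⟩
    rw [zero_smul]
    have hb : ∀ b : Fin n → F, C *ᵥ b = 0 := by
      intro b
      have h3 := hC b
      rw [Cfsg.Agent.Helper96.T5.pt_smul_left, Matrix.mulVec_smul, h1] at h3
      have h4 : pt a (C *ᵥ b) = pt a (0 : Fin n → F) := by
        rw [Cfsg.Agent.Helper96.T5.pt_zero_right]
        exact (add_eq_left.mp h3.symm)
      exact pt_left_cancel a ha _ _ h4
    ext i j
    have h3 := congrFun (hb (Pi.single j 1)) i
    simpa using h3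
  · push Not at hy
    obtain ⟨⟨a₁, haa₁, hya₁⟩, ⟨y', hay', hyy'⟩⟩ := alt_partner2 h2 J hJ hdetJ a y ha hay hy
    have step : ∀ (σ : GL (Fin m × Fin n) F), σ ∈ M →
        (∀ b : Fin n → F, (σ : Matrix (Fin m × Fin n) (Fin m × Fin n) F) *ᵥ pt a b = pt a b) →
        (∀ (y : Fin m → F) (b : Fin n → F), bl J a y = 0 → ∃ b' : Fin n → F,
          (σ : Matrix (Fin m × Fin n) (Fin m × Fin n) F) *ᵥ pt y b = pt y b + pt a b') →
        ∀ Cσ : Matrix (Fin n) (Fin n) F, (∀ b : Fin n → F,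
          (σ : Matrix (Fin m × Fin n) (Fin m × Fin n) F) *ᵥ pt y b = pt y b + pt a (Cσ *ᵥ b)) →
        ∃ l : F, Cσ * S⁻¹ * Cσᵀ * S = l • (1 : Matrix (Fin n) (Fin n) F) := by
      intro σ hσ h1σ h2σ Cσ hCσ
      obtain ⟨t, htM, ht⟩ := troot_inM h2 J hJ S M hH y 1
      obtain ⟨t', ht'M, ht'⟩ := troot_inM h2 J hJ S M hH y (-1)
      have hR := rad_pair h2 J hJ hdetJ S hS hdetS a a₁ y ha haa₁ hay hya₁
        (σ : Matrix (Fin m × Fin n) (Fin m × Fin n) F)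
        ((σ⁻¹ : GL (Fin m × Fin n) F) : Matrix (Fin m × Fin n) (Fin m × Fin n) F)
        (by rw [← Units.val_mul, mul_inv_cancel, Units.val_one])
        (by rw [← Units.val_mul, inv_mul_cancel, Units.val_one])
        (hSp σ hσ) h1σ h2σ Cσ hCσ 1
      have hin : InM M (1 + vecMulVec a (J *ᵥ a) ⊗ₖ ((-2 * 1 : F) • (Cσ * S⁻¹ * Cσᵀ * S))) := by
        refine ⟨((t * σ * t') * σ)⁻¹ * (σ * (t * σ * t')),
          M.mul_mem (M.inv_mem (M.mul_mem (M.mul_mem (M.mul_mem htM hσ) ht'M) hσ))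
            (M.mul_mem hσ (M.mul_mem (M.mul_mem htM hσ) ht'M)), ?_⟩
        have e1 : ((σ * (t * σ * t') : GL (Fin m × Fin n) F) :
            Matrix (Fin m × Fin n) (Fin m × Fin n) F)
            = (((t * σ * t') * σ : GL (Fin m × Fin n) F) :
                Matrix (Fin m × Fin n) (Fin m × Fin n) F)
              * (1 + vecMulVec a (J *ᵥ a) ⊗ₖ ((-2 * 1 : F) • (Cσ * S⁻¹ * Cσᵀ * S))) := by
          simp only [Units.val_mul]
          rw [ht, ht']
          exact hR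
        rw [Units.val_mul, e1, ← mul_assoc, ← Units.val_mul, inv_mul_cancel, Units.val_one,
          one_mul]
      obtain ⟨l₀, hl₀⟩ := hNS _ a ha hin
      refine ⟨(-2 * 1 : F)⁻¹ * l₀, ?_⟩
      have hne : (-2 * 1 : F) ≠ 0 := by
        rw [mul_one]
        exact neg_ne_zero.mpr h2
      rw [← smul_smul, ← hl₀, smul_smul, inv_mul_cancel₀ hne, one_smul]
    obtain ⟨l, hl⟩ := step ρ hρ h1 h2' C hC
    obtain ⟨e, heM, he⟩ := eroot_inM h2 J hJ S M hH a y' hay'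
    have hev : ∀ (x : Fin m → F) (b : Fin n → F),
        (e : Matrix (Fin m × Fin n) (Fin m × Fin n) F) *ᵥ pt x b
          = pt (x + bl J x a • y' + bl J x y' • a) b := by
      intro x b
      rw [he, kron_mulVec_pt, eay_mulVec, Matrix.one_mulVec]
    have hea : ∀ b : Fin n → F,
        (e : Matrix (Fin m × Fin n) (Fin m × Fin n) F) *ᵥ pt a b = pt a b := by
      intro b
      rw [hev, bl_self h2 J hJ, hay', zero_smul, zero_smul, add_zero, add_zero]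
    have hey : ∀ (y₀ : Fin m → F) (b : Fin n → F), bl J a y₀ = 0 →
        (e : Matrix (Fin m × Fin n) (Fin m × Fin n) F) *ᵥ pt y₀ b
          = pt y₀ b + bl J y₀ y' • pt a b := by
      intro y₀ b hy₀
      rw [hev, bl_skew J hJ a y₀, hy₀, neg_zero, zero_smul, add_zero,
        Cfsg.Agent.Helper96.T5.pt_add_left, Cfsg.Agent.Helper96.T5.pt_smul_left]
    obtain ⟨l', hl'⟩ := step (ρ * e) (M.mul_mem hρ heM)
      (by
        intro b
        rw [Units.val_mul, ← Matrix.mulVec_mulVec, hea, h1])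
      (by
        intro y₀ b hy₀
        obtain ⟨b', hb'⟩ := h2' y₀ b hy₀
        refine ⟨b' + bl J y₀ y' • b, ?_⟩
        rw [Units.val_mul, ← Matrix.mulVec_mulVec, hey y₀ b hy₀, Matrix.mulVec_add,
          Matrix.mulVec_smul, hb', h1, Cfsg.Agent.Helper96.T5.pt_add_right,
          Cfsg.Agent.Helper96.T5.pt_smul_right, add_assoc])
      (C + 1)
      (by
        intro b
        rw [Units.val_mul, ← Matrix.mulVec_mulVec, hey y b hay, Matrix.mulVec_add,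
          Matrix.mulVec_smul, hC, h1, hyy', one_smul, Matrix.add_mulVec, Matrix.one_mulVec,
          Cfsg.Agent.Helper96.T5.pt_add_right, add_assoc])
    refine hsk C l l' hl hl' ?_
    intro v hv
    have hRi : (Rf S v)ᵀ * S * Rf S v = S := by
      unfold Rf
      exact Cfsg.Agent.Helper11.SOTR.refl_isom S hS v hv
    have hRR : ∀ x : Fin n → F, Rf S v *ᵥ (Rf S v *ᵥ x) = x := by
      intro x
      unfold Rf
      rw [Cfsg.Agent.Helper11.SOTR.refl_mulVec, Cfsg.Agent.Helper11.SOTR.refl_mulVec,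
        Cfsg.Agent.Helper11.SORT.bl_sub_left, Cfsg.Agent.Helper11.SORT.bl_smul_left]
      have h5 : 2 / bl S v v * (bl S x v - 2 / bl S v v * bl S x v * bl S v v)
          = -(2 / bl S v v * bl S x v) := by
        field_simp
        ring
      rw [h5, neg_smul]
      abel
    obtain ⟨r, hrM, hr⟩ := hH 1 (Rf S v) 1 1
      (by rw [Matrix.transpose_one, Matrix.one_mul, Matrix.mul_one, one_smul])
      (by rw [hRi, one_smul]) (by rw [mul_one])
    have hrv : ∀ (x : Fin m → F) (b : Fin n → F),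
        (r : Matrix (Fin m × Fin n) (Fin m × Fin n) F) *ᵥ pt x b = pt x (Rf S v *ᵥ b) := by
      intro x b
      rw [hr, kron_mulVec_pt, Matrix.one_mulVec]
    have hval : ((ρ * (r * ρ * r) : GL (Fin m × Fin n) F) :
        Matrix (Fin m × Fin n) (Fin m × Fin n) F)
        = (ρ : Matrix (Fin m × Fin n) (Fin m × Fin n) F)
          * ((r : Matrix (Fin m × Fin n) (Fin m × Fin n) F)
            * ((ρ : Matrix (Fin m × Fin n) (Fin m × Fin n) F)
              * (r : Matrix (Fin m × Fin n) (Fin m × Fin n) F))) := by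
      simp only [Units.val_mul, mul_assoc]
    obtain ⟨l₂, hl₂⟩ := step (ρ * (r * ρ * r)) (M.mul_mem hρ (M.mul_mem (M.mul_mem hrM hρ) hrM))
      (by
        intro b
        rw [hval, ← Matrix.mulVec_mulVec, ← Matrix.mulVec_mulVec, ← Matrix.mulVec_mulVec, hrv,
          h1, hrv, hRR, h1])
      (by
        intro y₀ b hy₀
        obtain ⟨b₁, hb₁⟩ := h2' y₀ (Rf S v *ᵥ b) hy₀
        obtain ⟨b₂, hb₂⟩ := h2' y₀ b hy₀
        refine ⟨b₂ + Rf S v *ᵥ b₁, ?_⟩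
        rw [hval, ← Matrix.mulVec_mulVec, ← Matrix.mulVec_mulVec, ← Matrix.mulVec_mulVec, hrv,
          hb₁, Matrix.mulVec_add, hrv, hrv, hRR, Matrix.mulVec_add, hb₂, h1,
          Cfsg.Agent.Helper96.T5.pt_add_right, add_assoc])
      (C + Rf S v * C * Rf S v)
      (by
        intro b
        rw [hval, ← Matrix.mulVec_mulVec, ← Matrix.mulVec_mulVec, ← Matrix.mulVec_mulVec, hrv,
          hC, Matrix.mulVec_add, hrv, hrv, hRR, Matrix.mulVec_add, hC, h1, Matrix.add_mulVec,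
          Cfsg.Agent.Helper96.T5.pt_add_right, add_assoc, ← Matrix.mulVec_mulVec,
          ← Matrix.mulVec_mulVec])
    exact ⟨l₂, hl₂⟩

theorem rad_kron_gen (hn : 3 ≤ n) (h2 : (2 : F) ≠ 0) (J : Matrix (Fin m) (Fin m) F) (hJ : Jᵀ = -J)
    (hdetJ : J.det ≠ 0) (S : Matrix (Fin n) (Fin n) F) (hS : Sᵀ = S) (hdetS : S.det ≠ 0)
    (M : Subgroup (GL (Fin m × Fin n) F)) (hSp : SpLEG J S M) (hH : HasHG J S M)
    (hNS : NS2 J S M)
    (hsk : ∀ (C : Matrix (Fin n) (Fin n) F) (l l' : F),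
      C * S⁻¹ * Cᵀ * S = l • (1 : Matrix (Fin n) (Fin n) F) →
      (C + 1) * S⁻¹ * (C + 1)ᵀ * S = l' • (1 : Matrix (Fin n) (Fin n) F) →
      (∀ v : Fin n → F, bl S v v ≠ 0 → ∃ l₂ : F,
        (C + Rf S v * C * Rf S v) * S⁻¹ * (C + Rf S v * C * Rf S v)ᵀ * S
          = l₂ • (1 : Matrix (Fin n) (Fin n) F)) →
      ∃ γ : F, C = γ • (1 : Matrix (Fin n) (Fin n) F))
    (a : Fin m → F) (ha : a ≠ 0)
    (ρ : GL (Fin m × Fin n) F) (hρ : ρ ∈ M)
    (h1 : ∀ b : Fin n → F, (ρ : Matrix (Fin m × Fin n) (Fin m × Fin n) F) *ᵥ pt a b = pt a b)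
    (h2' : ∀ (y : Fin m → F) (b : Fin n → F), bl J a y = 0 → ∃ b' : Fin n → F,
      (ρ : Matrix (Fin m × Fin n) (Fin m × Fin n) F) *ᵥ pt y b = pt y b + pt a b') :
    ∃ y₀ : Fin m → F, bl J a y₀ = 0 ∧ (ρ : Matrix (Fin m × Fin n) (Fin m × Fin n) F)
      = Eay J a y₀ ⊗ₖ (1 : Matrix (Fin n) (Fin n) F) := by
  have hsc := fun y C hay hC =>
    rad_scalar_gen hn h2 J hJ hdetJ S hS hdetS M hSp hH hNS hsk a ha ρ hρ h1 h2' y C hay hC
  obtain ⟨y₀, hy₀, D, hD⟩ := rad_struct h2 J hJ hdetJ S hS hdetS a ha _ (hSp ρ hρ) h1 h2' hsc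
  obtain ⟨τ, hτM, hτ⟩ := eroot_inM h2 J hJ S M hH a y₀ hy₀
  have hin : InM M (1 + vecMulVec a (J *ᵥ a) ⊗ₖ D) := by
    refine ⟨τ⁻¹ * ρ, M.mul_mem (M.inv_mem hτM) hρ, ?_⟩
    rw [Units.val_mul, hD, ← hτ, ← mul_assoc, ← Units.val_mul, inv_mul_cancel, Units.val_one,
      one_mul]
  obtain ⟨d, hd⟩ := hNS D a ha hin
  have haa : bl J a a = 0 := bl_self h2 J hJ a
  have hay2 : bl J a ((2⁻¹ * d) • a) = 0 := by rw [bl_smul_r, haa, mul_zero]
  refine ⟨y₀ + (2⁻¹ * d) • a, ?_, ?_⟩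
  · rw [bl_add_r, hy₀, hay2, add_zero]
  · have e1 : (1 : Matrix (Fin m × Fin n) (Fin m × Fin n) F)
        + vecMulVec a (J *ᵥ a) ⊗ₖ (d • (1 : Matrix (Fin n) (Fin n) F))
        = Tac J a d ⊗ₖ (1 : Matrix (Fin n) (Fin n) F) := by
      unfold Tac
      rw [Matrix.add_kronecker, Matrix.one_kronecker_one, Matrix.kronecker_smul,
        Matrix.smul_kronecker]
    rw [hD, hd, e1, ← Matrix.mul_kronecker_mul, Matrix.mul_one, tac_eq_eay h2,
      eay_mul h2 J hJ a y₀ _ hy₀ hay2, bl_smul_l, hy₀, mul_zero, mul_zero, zero_smul, add_zero]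

theorem zb0_gen (hn : 3 ≤ n) (h2 : (2 : F) ≠ 0) (J : Matrix (Fin m) (Fin m) F) (hJ : Jᵀ = -J)
    (hdetJ : J.det ≠ 0) (S : Matrix (Fin n) (Fin n) F) (hS : Sᵀ = S) (hdetS : S.det ≠ 0)
    (M : Subgroup (GL (Fin m × Fin n) F)) (hSp : SpLEG J S M) (hH : HasHG J S M)
    (hNS : NS2 J S M)
    (hsk : ∀ (C : Matrix (Fin n) (Fin n) F) (l l' : F),
      C * S⁻¹ * Cᵀ * S = l • (1 : Matrix (Fin n) (Fin n) F) →
      (C + 1) * S⁻¹ * (C + 1)ᵀ * S = l' • (1 : Matrix (Fin n) (Fin n) F) →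
      (∀ v : Fin n → F, bl S v v ≠ 0 → ∃ l₂ : F,
        (C + Rf S v * C * Rf S v) * S⁻¹ * (C + Rf S v * C * Rf S v)ᵀ * S
          = l₂ • (1 : Matrix (Fin n) (Fin n) F)) →
      ∃ γ : F, C = γ • (1 : Matrix (Fin n) (Fin n) F))
    (a : Fin m → F) (ha : a ≠ 0)
    (k : GL (Fin m × Fin n) F) (hk : k ∈ M)
    (hka : ∀ b : Fin n → F, ∃ b' : Fin n → F,
      (k : Matrix (Fin m × Fin n) (Fin m × Fin n) F) *ᵥ pt a b = pt a b') :
    IsKron (k : Matrix (Fin m × Fin n) (Fin m × Fin n) F) := by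
  obtain ⟨a₁, haa₁⟩ := alt_partner J hdetJ a ha
  have hrad := fun ρ hρ h1 h2' =>
    rad_kron_gen hn h2 J hJ hdetJ S hS hdetS M hSp hH hNS hsk a ha ρ hρ h1 h2'
  have hconj := fun y hay => conj_rad h2 J hJ hdetJ S hS hdetS M hSp hH a ha hrad k hk hka y hay
  have hkdet : (k : Matrix (Fin m × Fin n) (Fin m × Fin n) F).det ≠ 0 :=
    ((Matrix.isUnit_iff_isUnit_det _).1 k.isUnit).ne_zero
  obtain ⟨B, A₁, μ, ν, hνμ, hB, hk0, hk1, hk2, hk3⟩ :=
    levi_graded (by omega) h2 J hJ hdetJ S hS hdetS a a₁ ha haa₁ _ hkdet (hSp k hk) hka hconj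
  obtain ⟨A, ρ, hA, hkρ, hρ1, hρ2⟩ :=
    levi_lift (by omega) h2 J hJ hdetJ S hS hdetS a a₁ ha haa₁ _ B A₁ μ ν hνμ hB hk0 hk1 hk2
      hk3
  obtain ⟨h, hhM, hh⟩ := hH A B ν μ hA hB hνμ
  have hρeq : ((h⁻¹ * k : GL (Fin m × Fin n) F) : Matrix (Fin m × Fin n) (Fin m × Fin n) F)
      = ρ := by
    rw [Units.val_mul, hkρ, ← hh, ← mul_assoc, ← Units.val_mul, inv_mul_cancel, Units.val_one,
      one_mul]
  obtain ⟨y₀, -, hy₀⟩ := hrad (h⁻¹ * k) (M.mul_mem (M.inv_mem hhM) hk)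
    (by rw [hρeq]; exact hρ1) (by rw [hρeq]; exact hρ2)
  rw [hρeq] at hy₀
  refine ⟨A * Eay J a y₀, B * 1, ?_⟩
  rw [hkρ, hy₀, Matrix.mul_kronecker_mul]


end Cfsg.Agent.Helper71.SGPORT
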