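import Mathlib
import Cfsg.Agent.Helper71.SQDefs

/-!
# CALL S5867, piece V1 (helper66): if `NS2` fails, `M` contains all transvections centred at
pure tensors `a ⊗ u` with `u` singular
-/

set_option autoImplicit false
set_option linter.unusedVariables false

namespace Cfsg.Agent.Helper71.SGV1

open Matrix Cfsg.Agent.Helper71.T4 Cfsg.Agent.Helper71.SO Cfsg.Agent.Helper71.SQ
open scoped Kronecker

variable {F : Type*} [Field F] {m n : ℕ}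

theorem sqv1_conj_vmv {k : ℕ} (G A : Matrix (Fin k) (Fin k) F) (hA : Aᵀ * G * A = G)
    (a a' : Fin k → F) (hAa : A *ᵥ a = a') :
    A * vecMulVec a (G *ᵥ a) = vecMulVec a' (G *ᵥ a') * A := by
  rw [Matrix.mul_vecMulVec, Matrix.vecMulVec_mul, hAa]
  congr 1
  rw [← Matrix.mulVec_transpose, ← hAa, Matrix.mulVec_mulVec, Matrix.mulVec_mulVec, hA]

theorem sqv1_vmv_pt {k l : ℕ} (a a'' : Fin k → F) (b b'' : Fin l → F) :
    vecMulVec (pt a b) (pt a'' b'') = vecMulVec a a'' ⊗ₖ vecMulVec b b'' := by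
  ext ⟨i, j⟩ ⟨i', j'⟩
  simp only [Matrix.vecMulVec_apply, pt, Matrix.kronecker_apply]
  ring

theorem tvp_of_not_ns2 (h2 : (2 : F) ≠ 0) (J : Matrix (Fin m) (Fin m) F) (hJ : Jᵀ = -J)
    (hdetJ : J.det ≠ 0) (S : Matrix (Fin n) (Fin n) F) (hS : Sᵀ = S) (hdetS : S.det ≠ 0)
    (M : Subgroup (GL (Fin m × Fin n) F)) (hSp : SpLEG J S M) (hH : HasHG J S M)
    (hns : ¬ NS2 J S M)
    (htrJ : ∀ a a' : Fin m → F, a ≠ 0 → a' ≠ 0 →
      ∃ A : Matrix (Fin m) (Fin m) F, Aᵀ * J * A = J ∧ A *ᵥ a' = a)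
    (htrS : ∀ u u' : Fin n → F, u ≠ 0 → u' ≠ 0 → bl S u u = 0 → bl S u' u' = 0 →
      ∃ B : Matrix (Fin n) (Fin n) F, Bᵀ * S * B = S ∧ B *ᵥ u' = u)
    (hadd : ∀ (a : Fin m → F) (D D' : Matrix (Fin n) (Fin n) F),
      InM M (1 + vecMulVec a (J *ᵥ a) ⊗ₖ D) → InM M (1 + vecMulVec a (J *ᵥ a) ⊗ₖ D') →
      InM M (1 + vecMulVec a (J *ᵥ a) ⊗ₖ (D + D')))
    (hsmul : ∀ (a : Fin m → F) (D : Matrix (Fin n) (Fin n) F) (c : F), a ≠ 0 →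
      InM M (1 + vecMulVec a (J *ᵥ a) ⊗ₖ D) → InM M (1 + vecMulVec a (J *ᵥ a) ⊗ₖ (c • D)))
    (hconj : ∀ (a : Fin m → F) (D B B' : Matrix (Fin n) (Fin n) F), Bᵀ * S * B = S →
      B * B' = 1 → InM M (1 + vecMulVec a (J *ᵥ a) ⊗ₖ D) →
      InM M (1 + vecMulVec a (J *ᵥ a) ⊗ₖ (B * D * B')))
    (hsym : ∀ (a : Fin m → F) (D : Matrix (Fin n) (Fin n) F), a ≠ 0 →
      IsSpG J S (1 + vecMulVec a (J *ᵥ a) ⊗ₖ D) → (S * D)ᵀ = S * D)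
    (hcn : ∀ D : Matrix (Fin n) (Fin n) F, (S * D)ᵀ = S * D →
      (∀ c : F, D ≠ c • (1 : Matrix (Fin n) (Fin n) F)) →
      ∃ u : Fin n → F, u ≠ 0 ∧ bl S u u = 0 ∧ bl S u (D *ᵥ u) ≠ 0)
    (hco : ∀ U : Set (Matrix (Fin n) (Fin n) F),
      (∀ D D' : Matrix (Fin n) (Fin n) F, D ∈ U → D' ∈ U → D + D' ∈ U) →
      (∀ (c : F) (D : Matrix (Fin n) (Fin n) F), D ∈ U → c • D ∈ U) →
      (∀ B B' D : Matrix (Fin n) (Fin n) F, Bᵀ * S * B = S → B * B' = 1 → D ∈ U →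
        B * D * B' ∈ U) →
      ∀ (D : Matrix (Fin n) (Fin n) F), D ∈ U → ∀ u : Fin n → F, u ≠ 0 → bl S u u = 0 →
        bl S u (D *ᵥ u) ≠ 0 → vecMulVec u (S *ᵥ u) ∈ U) :
    TvPG J S M := by
  classical
  unfold NS2 at hns
  push_neg at hns
  obtain ⟨D, a, ha, hDM, hDns⟩ := hns
  obtain ⟨U, hU⟩ : ∃ U : Set (Matrix (Fin n) (Fin n) F),
      U = {D' | InM M (1 + vecMulVec a (J *ᵥ a) ⊗ₖ D')} := ⟨_, rfl⟩
  have hUmem : ∀ D', D' ∈ U ↔ InM M (1 + vecMulVec a (J *ᵥ a) ⊗ₖ D') := by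
    intro D'
    rw [hU]
    rfl
  have hDU : D ∈ U := (hUmem D).mpr hDM
  have hsymD : (S * D)ᵀ = S * D := by
    obtain ⟨g, hg, hgD⟩ := hDM
    apply hsym a D ha
    rw [← hgD]
    exact hSp g hg
  obtain ⟨u₀, hu₀, hu₀u₀, hne⟩ := hcn D hsymD hDns
  have hvU : vecMulVec u₀ (S *ᵥ u₀) ∈ U := by
    apply hco U ?_ ?_ ?_ D hDU u₀ hu₀ hu₀u₀ hne
    · intro D₁ D₂ h1 h2
      rw [hUmem] at h1 h2 ⊢
      exact hadd a D₁ D₂ h1 h2
    · intro c D₁ h1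
      rw [hUmem] at h1 ⊢
      exact hsmul a D₁ c ha h1
    · intro B B' D₁ hB hBB' h1
      rw [hUmem] at h1 ⊢
      exact hconj a D₁ B B' hB hBB' h1
  rw [hUmem] at hvU
  intro a' u' c hu'u'
  by_cases ha' : a' = 0
  · have h0 : pt a' u' = 0 := by
      subst ha'
      ext p
      simp [pt]
    rw [h0, Matrix.zero_vecMulVec, smul_zero, add_zero]
    exact InM.one M
  by_cases hu' : u' = 0
  · have h0 : pt a' u' = 0 := by
      subst hu'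
      ext p
      simp [pt]
    rw [h0, Matrix.zero_vecMulVec, smul_zero, add_zero]
    exact InM.one M
  obtain ⟨A, hA, hAa⟩ := htrJ a' a ha' ha
  obtain ⟨B, hB, hBu⟩ := htrS u' u₀ hu' hu₀ hu'u' hu₀u₀
  have hAB : InM M (A ⊗ₖ B) :=
    hH A B 1 1 (by rw [hA, one_smul]) (by rw [hB, one_smul]) (one_mul 1)
  have hc := hsmul a _ c ha hvU
  obtain ⟨g, hg, hgm⟩ := hAB
  obtain ⟨h, hh, hhm⟩ := hc
  refine ⟨g * h * g⁻¹, M.mul_mem (M.mul_mem hg hh) (M.inv_mem hg), ?_⟩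
  have hAE := sqv1_conj_vmv J A hA a a' hAa
  have hBv := sqv1_conj_vmv S B hB u₀ u' hBu
  have hgg : (g : Matrix (Fin m × Fin n) (Fin m × Fin n) F) *
      ((g⁻¹ : GL (Fin m × Fin n) F) : Matrix (Fin m × Fin n) (Fin m × Fin n) F) = 1 := by
    rw [← Units.val_mul, mul_inv_cancel, Units.val_one]
  have hkey : (A ⊗ₖ B) * (1 + vecMulVec a (J *ᵥ a) ⊗ₖ (c • vecMulVec u₀ (S *ᵥ u₀))) =
      (1 + vecMulVec a' (J *ᵥ a') ⊗ₖ (c • vecMulVec u' (S *ᵥ u'))) * (A ⊗ₖ B) := by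
    rw [Matrix.mul_add, Matrix.add_mul, Matrix.mul_one, Matrix.one_mul,
      ← Matrix.mul_kronecker_mul, ← Matrix.mul_kronecker_mul, hAE, Matrix.mul_smul,
      Matrix.smul_mul, hBv]
  have hfin : (1 : Matrix (Fin m × Fin n) (Fin m × Fin n) F) +
      c • vecMulVec (pt a' u') (OmG J S *ᵥ pt a' u') =
      1 + vecMulVec a' (J *ᵥ a') ⊗ₖ (c • vecMulVec u' (S *ᵥ u')) := by
    have h1 : OmG J S *ᵥ pt a' u' = pt (J *ᵥ a') (S *ᵥ u') := by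
      unfold OmG
      exact kron_mulVec_pt J S a' u'
    rw [h1, sqv1_vmv_pt, Matrix.kronecker_smul]
  rw [hfin, Units.val_mul, Units.val_mul, hgm, hhm, hkey, Matrix.mul_assoc, ← hgm, hgg,
    Matrix.mul_one]

end Cfsg.Agent.Helper71.SGV1
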