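import Mathlib
import Cfsg.Prelude.Def_GeometricClasses
import Cfsg.Agent.Helper71.SODefs
import Cfsg.Agent.Helper71.T4Main
import Cfsg.Agent.Helper76.T4SY
import Cfsg.Agent.Helper11.SORT
import Cfsg.Agent.Helper11.SORP
import Cfsg.Agent.Helper11.SOTR
import Cfsg.Agent.Helper39.SOFX
import Cfsg.Agent.Helper70.SOIA
import Cfsg.Agent.Helper10.SOIB
import Cfsg.Agent.Helper58.SOZA
import Cfsg.Agent.Helper58.SOZB1
import Cfsg.Agent.Helper58.SOZB2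
import Cfsg.Agent.Helper4.SOCL
import Cfsg.Agent.Helper4.SOV1
import Cfsg.Agent.Helper33.SOV3
import Cfsg.Agent.Helper94.SORED

/-!
# Helper71: `Sp_2(q) ⊗ O_n(q)` is maximal in `Sp_{2n}(q)` (`q` odd, `n ≥ 5`)

Assembly of CALL S5843.  The pieces were proved by helper11 (RT, RP, TR), helper39 (FX),
helper70 (IA), helper10 (IB), helper58 (ZA, ZB1, ZB2), helper4 (CL, V1), helper33 (V3) and
helper94 (RED); the Sylow step reuses `Helper76.T4SY.syl_conj` and the pure-tensor criterion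
`Helper71.T4Main.kron_of_pure`.
-/

set_option autoImplicit false

namespace Cfsg.Agent.Helper71.SOMain

open Matrix Cfsg.Agent.Helper71.T4 Cfsg.Agent.Helper71.SO
open scoped Kronecker
open Cfsg.Agent.Helper11.SORT (ruw_mulVec ruw_isom root_inM)
open Cfsg.Agent.Helper11.SORP (ruw_add root_pow)
open Cfsg.Agent.Helper11.SOTR (sing_partner sing_trans)
open Cfsg.Agent.Helper39.SOFX (fix_pair)
open Cfsg.Agent.Helper70.SOIA (rad_comm)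
open Cfsg.Agent.Helper10.SOIB (rad_struct)
open Cfsg.Agent.Helper58.SOZA (conj_rad)
open Cfsg.Agent.Helper58.SOZB1 (levi_graded)
open Cfsg.Agent.Helper58.SOZB2 (levi_lift)
open Cfsg.Agent.Helper4.SOCL (cubic_image)
open Cfsg.Agent.Helper4.SOV1 (tvp_of_not_ns1)
open Cfsg.Agent.Helper33.SOV3 (centres_all)
open Cfsg.Agent.Helper94.SORED (red)

variable {F : Type*} [Field F] {n : ℕ}

/-! ## Assembly (helper71) -/

theorem levi (hn : 3 ≤ n) (h2 : (2 : F) ≠ 0) (S : Matrix (Fin n) (Fin n) F) (hS : Sᵀ = S)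
    (hdet : S.det ≠ 0) (u u₁ : Fin n → F) (hu : u ≠ 0) (huu : bl S u u = 0)
    (hu₁ : bl S u₁ u₁ = 0) (huu₁ : bl S u u₁ = 1)
    (k : Matrix (Fin 2 × Fin n) (Fin 2 × Fin n) F) (hkdet : k.det ≠ 0) (hksp : IsSpM S k)
    (hku : ∀ a : Fin 2 → F, ∃ a' : Fin 2 → F, k *ᵥ pt a u = pt a' u)
    (hconj : ∀ w : Fin n → F, bl S u w = 0 → ∃ w' : Fin n → F, bl S u w' = 0 ∧
      k * ((1 : Matrix (Fin 2) (Fin 2) F) ⊗ₖ ruw S u w)
        = ((1 : Matrix (Fin 2) (Fin 2) F) ⊗ₖ ruw S u w') * k) :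
    ∃ (A : Matrix (Fin 2) (Fin 2) F) (B : Matrix (Fin n) (Fin n) F) (μ : F)
      (ρ : Matrix (Fin 2 × Fin n) (Fin 2 × Fin n) F),
      Bᵀ * S * B = μ • S ∧ A.det * μ = 1 ∧ k = (A ⊗ₖ B) * ρ ∧
      (∀ a : Fin 2 → F, ρ *ᵥ pt a u = pt a u) ∧
      (∀ (a : Fin 2 → F) (y : Fin n → F), bl S u y = 0 → ∃ a' : Fin 2 → F,
        ρ *ᵥ pt a y = pt a y + pt a' u) := by
  obtain ⟨A, B₁, μ, hAμ, hk0, hk1, hk2, hk3⟩ :=
    levi_graded hn h2 S hS hdet u u₁ hu huu hu₁ huu₁ k hkdet hksp hku hconj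
  obtain ⟨B, ρ, hB, hkρ, hρ1, hρ2⟩ :=
    levi_lift hn h2 S hS hdet u u₁ hu huu hu₁ huu₁ k A B₁ μ hAμ hk0 hk1 hk2 hk3
  exact ⟨A, B, μ, ρ, hB, hAμ, hkρ, hρ1, hρ2⟩

theorem rad_kron (h2 : (2 : F) ≠ 0) (S : Matrix (Fin n) (Fin n) F) (hS : Sᵀ = S)
    (hdet : S.det ≠ 0) (M : Subgroup (GL (Fin 2 × Fin n) F)) (hSp : SpLE S M) (hH : HasH S M)
    (hNS : NS1 S M) (u : Fin n → F) (hu : u ≠ 0) (huu : bl S u u = 0)
    (ρ : GL (Fin 2 × Fin n) F) (hρ : ρ ∈ M)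
    (h1 : ∀ a : Fin 2 → F, (ρ : Matrix (Fin 2 × Fin n) (Fin 2 × Fin n) F) *ᵥ pt a u = pt a u)
    (h2' : ∀ (a : Fin 2 → F) (y : Fin n → F), bl S u y = 0 → ∃ a' : Fin 2 → F,
      (ρ : Matrix (Fin 2 × Fin n) (Fin 2 × Fin n) F) *ᵥ pt a y = pt a y + pt a' u) :
    ∃ w : Fin n → F, bl S u w = 0 ∧ (ρ : Matrix (Fin 2 × Fin n) (Fin 2 × Fin n) F)
      = (1 : Matrix (Fin 2) (Fin 2) F) ⊗ₖ ruw S u w := by
  have hc := fun w huw => rad_comm h2 S hS hdet M hSp hH hNS u hu huu ρ hρ h1 h2' w huw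
  obtain ⟨w₀, hw₀, C, hC⟩ := rad_struct h2 S hS hdet u hu huu _ (hSp ρ hρ) h1 h2' hc
  refine ⟨w₀, hw₀, ?_⟩
  obtain ⟨τ, hτM, hτ⟩ := root_inM h2 S hS M hH u w₀ huu hw₀
  have hin : InM M (1 + C ⊗ₖ vecMulVec u (S *ᵥ u)) := by
    refine ⟨τ⁻¹ * ρ, M.mul_mem (M.inv_mem hτM) hρ, ?_⟩
    rw [Units.val_mul, hC, ← hτ, ← mul_assoc, ← Units.val_mul, inv_mul_cancel, Units.val_one,
      one_mul]
  have hC0 := hNS C u hu huu hin
  rw [hC, hC0, Matrix.zero_kronecker, add_zero, mul_one]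

theorem zb0 (hn : 3 ≤ n) (h2 : (2 : F) ≠ 0) (S : Matrix (Fin n) (Fin n) F) (hS : Sᵀ = S)
    (hdet : S.det ≠ 0) (M : Subgroup (GL (Fin 2 × Fin n) F)) (hSp : SpLE S M) (hH : HasH S M)
    (hNS : NS1 S M) (u : Fin n → F) (hu : u ≠ 0) (huu : bl S u u = 0)
    (k : GL (Fin 2 × Fin n) F) (hk : k ∈ M)
    (hku : ∀ a : Fin 2 → F, ∃ a' : Fin 2 → F,
      (k : Matrix (Fin 2 × Fin n) (Fin 2 × Fin n) F) *ᵥ pt a u = pt a' u) :
    IsKron (k : Matrix (Fin 2 × Fin n) (Fin 2 × Fin n) F) := by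
  obtain ⟨u₁, hu₁, huu₁⟩ := sing_partner h2 S hS hdet u hu huu
  have hrad := fun ρ hρ h1 h2' => rad_kron h2 S hS hdet M hSp hH hNS u hu huu ρ hρ h1 h2'
  have hconj := fun w huw => conj_rad h2 S hS hdet M hSp hH u hu huu hrad k hk hku w huw
  have hkdet : (k : Matrix (Fin 2 × Fin n) (Fin 2 × Fin n) F).det ≠ 0 :=
    ((Matrix.isUnit_iff_isUnit_det _).1 k.isUnit).ne_zero
  obtain ⟨A, B, μ, ρ, hB, hAμ, hkρ, hρ1, hρ2⟩ :=
    levi hn h2 S hS hdet u u₁ hu huu hu₁ huu₁ _ hkdet (hSp k hk) hku hconj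
  obtain ⟨h, hhM, hh⟩ := hH A B μ hB hAμ
  have hρeq : ((h⁻¹ * k : GL (Fin 2 × Fin n) F) : Matrix (Fin 2 × Fin n) (Fin 2 × Fin n) F)
      = ρ := by
    rw [Units.val_mul, hkρ, ← hh, ← mul_assoc, ← Units.val_mul, inv_mul_cancel, Units.val_one,
      one_mul]
  obtain ⟨w₀, -, hw₀⟩ := hrad (h⁻¹ * k) (M.mul_mem (M.inv_mem hhM) hk)
    (by rw [hρeq]; exact hρ1) (by rw [hρeq]; exact hρ2)
  rw [hρeq] at hw₀
  refine ⟨A * 1, B * ruw S u w₀, ?_⟩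
  rw [hkρ, hw₀, Matrix.mul_kronecker_mul]

theorem rigid (hn : 5 ≤ n) (h2 : (2 : F) ≠ 0) (S : Matrix (Fin n) (Fin n) F) (hS : Sᵀ = S)
    (hdet : S.det ≠ 0) (M : Subgroup (GL (Fin 2 × Fin n) F)) (hSp : SpLE S M) (hH : HasH S M)
    (hNS : NS1 S M) (g : GL (Fin 2 × Fin n) F) (hg : g ∈ M) (u w : Fin n → F) (hu : u ≠ 0)
    (huu : bl S u u = 0) (huw : bl S u w = 0) (hww : bl S w w ≠ 0)
    (hk : IsKron ((g : Matrix (Fin 2 × Fin n) (Fin 2 × Fin n) F)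
      * ((1 : Matrix (Fin 2) (Fin 2) F) ⊗ₖ ruw S u w)
      * ((g⁻¹ : GL (Fin 2 × Fin n) F) : Matrix (Fin 2 × Fin n) (Fin 2 × Fin n) F))) :
    IsKron (g : Matrix (Fin 2 × Fin n) (Fin 2 × Fin n) F) := by
  obtain ⟨t, htM, ht⟩ := root_inM h2 S hS M hH u w huu huw
  have hsp : IsSpM S ((g : Matrix (Fin 2 × Fin n) (Fin 2 × Fin n) F)
      * ((1 : Matrix (Fin 2) (Fin 2) F) ⊗ₖ ruw S u w)
      * ((g⁻¹ : GL (Fin 2 × Fin n) F) : Matrix (Fin 2 × Fin n) (Fin 2 × Fin n) F)) := by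
    have := hSp (g * t * g⁻¹) (M.mul_mem (M.mul_mem hg htM) (M.inv_mem hg))
    rwa [Units.val_mul, Units.val_mul, ht] at this
  have hγ : (g : Matrix (Fin 2 × Fin n) (Fin 2 × Fin n) F)
      * ((g⁻¹ : GL (Fin 2 × Fin n) F) : Matrix (Fin 2 × Fin n) (Fin 2 × Fin n) F) = 1 := by
    rw [← Units.val_mul, mul_inv_cancel, Units.val_one]
  have hγ' : ((g⁻¹ : GL (Fin 2 × Fin n) F) : Matrix (Fin 2 × Fin n) (Fin 2 × Fin n) F)
      * (g : Matrix (Fin 2 × Fin n) (Fin 2 × Fin n) F) = 1 := by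
    rw [← Units.val_mul, inv_mul_cancel, Units.val_one]
  obtain ⟨u', hu', hu'u', himg⟩ := cubic_image hn h2 S hS u w hu huu huw hww _ _ hγ hγ' hk hsp
  obtain ⟨B, hB, hBu⟩ := sing_trans h2 S hS hdet u u' hu hu' huu hu'u'
  obtain ⟨b, hbM, hb⟩ := hH 1 B 1 (by rw [hB, one_smul]) (by rw [Matrix.det_one, one_mul])
  have hkk : IsKron ((b * g : GL (Fin 2 × Fin n) F) : Matrix (Fin 2 × Fin n) (Fin 2 × Fin n) F) := by
    apply zb0 (by omega) h2 S hS hdet M hSp hH hNS u hu huu (b * g) (M.mul_mem hbM hg)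
    intro a
    obtain ⟨a', ha'⟩ := himg a
    refine ⟨a', ?_⟩
    rw [Units.val_mul, ← Matrix.mulVec_mulVec, ha', hb, kron_mulVec_pt, hBu, Matrix.one_mulVec]
  have hbk : b ∈ kronSub 2 n F := mem_kronSub.mpr ⟨1, B, hb⟩
  have hbg : b * g ∈ kronSub 2 n F := mem_kronSub.mpr hkk
  have := (kronSub 2 n F).mul_mem ((kronSub 2 n F).inv_mem hbk) hbg
  rw [inv_mul_cancel_left] at this
  exact mem_kronSub.mp this

theorem pure_to_pure [Finite F] (hn : 5 ≤ n) (h2 : (2 : F) ≠ 0) (S : Matrix (Fin n) (Fin n) F)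
    (hS : Sᵀ = S) (hdet : S.det ≠ 0) (M : Subgroup (GL (Fin 2 × Fin n) F)) (hSp : SpLE S M)
    (hH : HasH S M) (hNS : NS1 S M) (g : GL (Fin 2 × Fin n) F) (hg : g ∈ M)
    (a : Fin 2 → F) (b : Fin n → F) :
    ∃ (a' : Fin 2 → F) (b' : Fin n → F),
      (g : Matrix (Fin 2 × Fin n) (Fin 2 × Fin n) F) *ᵥ pt a b = pt a' b' := by
  classical
  haveI : Fact (ringChar F).Prime := ⟨CharP.char_is_prime F _⟩
  obtain ⟨v, hv⟩ : ∃ v : Fin 2 × Fin n → F,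
      v = (g : Matrix (Fin 2 × Fin n) (Fin 2 × Fin n) F) *ᵥ pt a b := ⟨_, rfl⟩
  obtain ⟨u₁, w₁, hu₁, hu₁u₁, hu₁w₁, hw₁w₁, h10, h11, h12, h13⟩ :=
    fix_pair hn h2 S hS hdet (fun l => v (0, l)) (fun l => v (1, l))
  obtain ⟨u₂, w₂, hu₂, hu₂u₂, hu₂w₂, hw₂w₂, h20, h21, -, -⟩ := fix_pair hn h2 S hS hdet b b
  obtain ⟨t', ht'M, ht'⟩ := root_inM h2 S hS M hH u₁ w₁ hu₁u₁ hu₁w₁
  obtain ⟨t'', ht''M, ht''⟩ := root_inM h2 S hS M hH u₂ w₂ hu₂u₂ hu₂w₂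
  let T : Set (GL (Fin 2 × Fin n) F) := {t | ∃ u w : Fin n → F, u ≠ 0 ∧ bl S u u = 0 ∧
    bl S u w = 0 ∧ bl S w w ≠ 0 ∧ (t : Matrix (Fin 2 × Fin n) (Fin 2 × Fin n) F)
      = (1 : Matrix (Fin 2) (Fin 2) F) ⊗ₖ ruw S u w}
  have hTM : ∀ t ∈ T, t ∈ M := by
    rintro t ⟨u, w, -, huu, huw, -, ht⟩
    apply mem_of_inM
    rw [ht]
    exact root_inM h2 S hS M hH u w huu huw
  have hTH : ∀ t ∈ T, t ∈ kronSub 2 n F := by
    rintro t ⟨u, w, -, -, -, -, ht⟩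
    exact mem_kronSub.mpr ⟨1, ruw S u w, ht⟩
  have hTp : ∀ t ∈ T, t ^ (ringChar F) = 1 := by
    rintro t ⟨u, w, -, huu, huw, -, ht⟩
    exact root_pow h2 S hS (ringChar F) u w huu huw t ht
  have hi : ∀ t ∈ T, ∀ g ∈ M, g * t * g⁻¹ ∈ kronSub 2 n F → g ∈ kronSub 2 n F := by
    rintro t ⟨u, w, hu, huu, huw, hww, ht⟩ g hg hgt
    rw [mem_kronSub] at hgt ⊢
    apply rigid hn h2 S hS hdet M hSp hH hNS g hg u w hu huu huw hww
    rw [← ht]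
    rw [Units.val_mul, Units.val_mul] at hgt
    exact hgt
  let C : Subgroup (GL (Fin 2 × Fin n) F) :=
    { carrier := {c | (c : Matrix (Fin 2 × Fin n) (Fin 2 × Fin n) F) *ᵥ pt a b = pt a b}
      mul_mem' := by
        intro c₁ c₂ h₁ h₂
        show ((c₁ * c₂ : GL (Fin 2 × Fin n) F) : Matrix (Fin 2 × Fin n) (Fin 2 × Fin n) F)
          *ᵥ pt a b = pt a b
        have h₁' : (c₁ : Matrix (Fin 2 × Fin n) (Fin 2 × Fin n) F) *ᵥ pt a b = pt a b := h₁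
        have h₂' : (c₂ : Matrix (Fin 2 × Fin n) (Fin 2 × Fin n) F) *ᵥ pt a b = pt a b := h₂
        rw [Units.val_mul, ← Matrix.mulVec_mulVec, h₂', h₁']
      one_mem' := by
        show ((1 : GL (Fin 2 × Fin n) F) : Matrix (Fin 2 × Fin n) (Fin 2 × Fin n) F)
          *ᵥ pt a b = pt a b
        rw [Units.val_one, Matrix.one_mulVec]
      inv_mem' := by
        intro c hc
        show ((c⁻¹ : GL (Fin 2 × Fin n) F) : Matrix (Fin 2 × Fin n) (Fin 2 × Fin n) F)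
          *ᵥ pt a b = pt a b
        have hc' : (c : Matrix (Fin 2 × Fin n) (Fin 2 × Fin n) F) *ᵥ pt a b = pt a b := hc
        conv_lhs => rw [← hc']
        rw [Matrix.mulVec_mulVec, ← Units.val_mul, inv_mul_cancel, Units.val_one,
          Matrix.one_mulVec] }
  have hCmem : ∀ c : GL (Fin 2 × Fin n) F, c ∈ C ↔
      (c : Matrix (Fin 2 × Fin n) (Fin 2 × Fin n) F) *ᵥ pt a b = pt a b := fun c => Iff.rfl
  have hfixb : ruw S u₂ w₂ *ᵥ b = b := by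
    rw [ruw_mulVec h2 S hS u₂ w₂ b hu₂u₂ hu₂w₂, h20, h21]
    simp
  have h1 : t'' ∈ C := by
    rw [hCmem, ht'', kron_mulVec_pt, hfixb, Matrix.one_mulVec]
  have hfix0 : ruw S u₁ w₁ *ᵥ (fun l => v (0, l)) = fun l => v (0, l) := by
    rw [ruw_mulVec h2 S hS u₁ w₁ _ hu₁u₁ hu₁w₁, h10, h11]
    simp
  have hfix1 : ruw S u₁ w₁ *ᵥ (fun l => v (1, l)) = fun l => v (1, l) := by
    rw [ruw_mulVec h2 S hS u₁ w₁ _ hu₁u₁ hu₁w₁, h12, h13]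
    simp
  have ht'v : (t' : Matrix (Fin 2 × Fin n) (Fin 2 × Fin n) F) *ᵥ v = v := by
    rw [ht']
    ext ⟨i, k⟩
    have key : (((1 : Matrix (Fin 2) (Fin 2) F) ⊗ₖ ruw S u₁ w₁) *ᵥ v) (i, k)
        = (ruw S u₁ w₁ *ᵥ (fun l => v (i, l))) k := by
      simp only [Matrix.mulVec, dotProduct, Matrix.kronecker_apply, Matrix.one_apply,
        Fintype.sum_prod_type]
      rw [Finset.sum_eq_single i]
      · simp
      · intro j _ hj
        simp [Ne.symm hj]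
      · intro hne
        exact absurd (Finset.mem_univ _) hne
    rw [key]
    fin_cases i
    · exact congrFun hfix0 k
    · exact congrFun hfix1 k
  have h2c : g⁻¹ * t' * g ∈ C := by
    rw [hCmem, Units.val_mul, Units.val_mul, ← Matrix.mulVec_mulVec, ← Matrix.mulVec_mulVec,
      ← hv, ht'v, hv, Matrix.mulVec_mulVec, ← Units.val_mul, inv_mul_cancel, Units.val_one,
      Matrix.one_mulVec]
  obtain ⟨m, hmM, hmC, hmH⟩ := Cfsg.Agent.Helper76.T4SY.syl_conj (ringChar F) M (kronSub 2 n F) T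
    hTM hTH hTp hi C g t' t'' hg ⟨u₁, w₁, hu₁, hu₁u₁, hu₁w₁, hw₁w₁, ht'⟩
    ⟨u₂, w₂, hu₂, hu₂u₂, hu₂w₂, hw₂w₂, ht''⟩ h1 h2c
  have hgm : g * m⁻¹ ∈ kronSub 2 n F := by
    have h3 := (kronSub 2 n F).inv_mem hmH
    rwa [_root_.mul_inv_rev, inv_inv] at h3
  obtain ⟨A, B, hAB⟩ := mem_kronSub.mp hgm
  refine ⟨A *ᵥ a, B *ᵥ b, ?_⟩
  have hm' : ((m⁻¹ : GL (Fin 2 × Fin n) F) : Matrix (Fin 2 × Fin n) (Fin 2 × Fin n) F)
      *ᵥ pt a b = pt a b := (hCmem _).mp (C.inv_mem hmC)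
  rw [← kron_mulVec_pt, ← hAB, Units.val_mul, ← Matrix.mulVec_mulVec, hm']

/-- The model dichotomy. -/
theorem main [Finite F] (hn : 5 ≤ n) (h2 : (2 : F) ≠ 0) (S : Matrix (Fin n) (Fin n) F)
    (hS : Sᵀ = S) (hdet : S.det ≠ 0) (M : Subgroup (GL (Fin 2 × Fin n) F)) (hSp : SpLE S M)
    (hH : HasH S M) :
    (∀ g ∈ M, IsKron (g : Matrix (Fin 2 × Fin n) (Fin 2 × Fin n) F)) ∨ TvP S M := by
  by_cases hNS : NS1 S M
  · left
    intro g hg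
    refine Cfsg.Agent.Helper71.T4Main.kron_of_pure (by omega) _ ?_
      (fun a b => pure_to_pure hn h2 S hS hdet M hSp hH hNS g hg a b)
    exact ((Matrix.isUnit_iff_isUnit_det _).1 g.isUnit).ne_zero
  · right
    exact tvp_of_not_ns1 h2 S hS hdet M hSp hH hNS
      (fun u hu huu => sing_partner h2 S hS hdet u hu huu)
      (fun u u' hu hu' huu hu'u' => sing_trans h2 S hS hdet u u' hu hu' huu hu'u')

/-- **`Sp_2(q) ⊗ O_n(q)` is maximal in `Sp_{2n}(q)`** (`q` odd, `n ≥ 5`). -/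
theorem sp2_tensor_max {F : Type*} [Field F] [Fintype F] (m n : ℕ) (hn : 5 ≤ n)
    (hodd : Odd (Fintype.card F))
    (e : (Fin m ⊕ Fin m) ≃ Fin 2 × Fin n) (P : Matrix.GeneralLinearGroup (Fin m ⊕ Fin m) F)
    (f₁ : (Fin 2 → F) → (Fin 2 → F) → F) (f₂ : (Fin n → F) → (Fin n → F) → F)
    (h₁ : Cfsg.Geo.IsSymplecticForm f₁) (h₂ : Cfsg.Geo.IsSymmetricForm f₂)
    (hT : Cfsg.Geo.IsTensorFormStructure id (Cfsg.sympForm m F) f₁ f₂ e P) :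
    Cfsg.Geo.IsMaximalIn (Cfsg.spGL m F)
      (Cfsg.Geo.tensorProductSubgroup 2 n e P ⊓ Cfsg.spGL m F) := by
  have h2 : (2 : F) ≠ 0 := by
    intro h
    have hch : ringChar F = 2 := by
      have := (CharP.cast_eq_zero_iff F (ringChar F) 2).mp (by exact_mod_cast h)
      exact (Nat.prime_dvd_prime_iff_eq (CharP.char_is_prime F _) Nat.prime_two).mp this
    have hdvd : ringChar F ∣ Fintype.card F := by
      obtain ⟨k, hk⟩ := FiniteField.card F (ringChar F)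
      rw [hk.2]
      exact dvd_pow_self _ (PNat.ne_zero k)
    rw [hch] at hdvd
    exact (Nat.not_even_iff_odd.mpr hodd) (even_iff_two_dvd.mpr hdvd)
  refine red m n (by omega) hodd e P f₁ f₂ h₁ h₂ hT
    (fun S hS hdet M hSp hH => main hn h2 S hS hdet M hSp hH) ?_
  intro S hS hdet C hC1 hC3
  obtain ⟨s₀, -, hs₀, hs₀s₀, -⟩ := fix_pair hn h2 S hS hdet 0 0
  exact centres_all h2 (by omega) S hS hdet s₀ hs₀ hs₀s₀ C hC1 hC3

end Cfsg.Agent.Helper71.SOMain
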