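import Mathlib
import Cfsg.Prelude.Def_GeometricClasses
import Cfsg.Agent.Helper71.SQMain
import Cfsg.Agent.Helper71.SOMain
import Cfsg.Agent.Helper71.SGDefs
import Cfsg.Agent.Helper71.SGV1
import Cfsg.Agent.Helper71.SGPORT
import Cfsg.Agent.Helper36.SGK3G
import Cfsg.Agent.Helper59.SGCLG
import Cfsg.Agent.Helper99.SGLG
import Cfsg.Agent.Helper99.SGSIM
import Cfsg.Agent.Helper48.SGGEN3
import Cfsg.Agent.Helper83.SGKF1
import Cfsg.Agent.Helper6.SGKF2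
import Cfsg.Agent.Helper11.SGQD
import Cfsg.Agent.Helper53.SGBT
import Cfsg.Agent.Helper6.SGSUR
import Cfsg.Agent.Helper11.SGSNG
import Cfsg.Agent.Helper93.SGCN4
import Cfsg.Agent.Helper66.SGCO4
import Cfsg.Agent.Helper12.SGTY3

/-!
# Helper71: `Sp_k(q) ⊗ O_n(q)` is maximal in `Sp_{kn}(q)` (`q` odd, `k ≥ 4`, `n ≥ 4`)

Assembly of CALL S5666: the pieces (see the imports) were proved by other seats; the Sylow
fusion step reuses `Helper76.T4SY.syl_conj`.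
-/

set_option autoImplicit false
set_option linter.unusedVariables false
set_option linter.style.haveILetI false

namespace Cfsg.Agent.Helper71.SGMain

open Matrix Cfsg.Agent.Helper71.T4 Cfsg.Agent.Helper71.SO Cfsg.Agent.Helper71.SQ
open Cfsg.Agent.Helper71.SG
open scoped Kronecker
open Cfsg.Agent.Helper53.SQET (tac_mulVec eay_mulVec eay_isom tac_eq_eay eroot_inM troot_inM)
open Cfsg.Agent.Helper51.SQEP (eay_mul troot_pow)
open Cfsg.Agent.Helper53.SQTA (alt_partner alt_partner2 alt_trans)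
open Cfsg.Agent.Helper73.SQNZ (nz_add nz_smul nz_conj nz_sym)
open Cfsg.Agent.Helper46.SQV3 (centres_all)
open Cfsg.Agent.Helper88.SQRED (red)
open Cfsg.Agent.Helper71.SQMain (pt_left_cancel bl_skew bl_self bl_add_r bl_smul_r bl_smul_l)
open Cfsg.Agent.Helper96.T5 (pt_add_left pt_add_right pt_smul_left pt_smul_right pt_zero_left
  pt_zero_right)
open Cfsg.Agent.Helper71.SGPORT (rad_kron_gen zb0_gen)
open Cfsg.Agent.Helper36.SGK3G (skewN)
open Cfsg.Agent.Helper59.SGCLG (quad_image_gen)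
open Cfsg.Agent.Helper99.SGLG (lemG)
open Cfsg.Agent.Helper99.SGSIM (kron_simil)
open Cfsg.Agent.Helper48.SGGEN3 (generic3)
open Cfsg.Agent.Helper83.SGKF1 (kron_fix1)
open Cfsg.Agent.Helper6.SGKF2 (sp_fix_hyp)
open Cfsg.Agent.Helper11.SGQD (quad_ne)
open Cfsg.Agent.Helper53.SGBT (burnside_tool)
open Cfsg.Agent.Helper6.SGSUR (fix_surj)
open Cfsg.Agent.Helper11.SGSNG (sing_exists)
open Cfsg.Agent.Helper93.SGCN4 (quadric_nonscalar)
open Cfsg.Agent.Helper66.SGCO4 (quadric_lemma)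
open Cfsg.Agent.Helper12.SGTY3 (no_type3)

variable {F : Type*} [Field F] {m n : ℕ}

/-! ## Basic facts on `t_a(c) = Tac J a c ⊗ 1` -/

theorem ta_eq (J : Matrix (Fin m) (Fin m) F) (a : Fin m → F) (c : F) :
    Tac J a c ⊗ₖ (1 : Matrix (Fin n) (Fin n) F)
      = 1 + c • (vecMulVec a (J *ᵥ a) ⊗ₖ (1 : Matrix (Fin n) (Fin n) F)) := by
  unfold Tac
  rw [Matrix.add_kronecker, Matrix.one_kronecker_one, Matrix.smul_kronecker]

theorem ta_pt (J : Matrix (Fin m) (Fin m) F) (a x : Fin m → F) (c : F) (z : Fin n → F) :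
    (Tac J a c ⊗ₖ (1 : Matrix (Fin n) (Fin n) F)) *ᵥ pt x z
      = pt (x + (c * bl J x a) • a) z := by
  rw [kron_mulVec_pt, tac_mulVec, Matrix.one_mulVec]

theorem ta_fix (J : Matrix (Fin m) (Fin m) F) (a : Fin m → F) (c : F)
    (v : Fin m × Fin n → F)
    (h : (Tac J a 1 ⊗ₖ (1 : Matrix (Fin n) (Fin n) F)) *ᵥ v = v) :
    (Tac J a c ⊗ₖ (1 : Matrix (Fin n) (Fin n) F)) *ᵥ v = v := by
  rw [ta_eq, Matrix.add_mulVec, Matrix.one_mulVec, one_smul] at h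
  rw [ta_eq, Matrix.add_mulVec, Matrix.one_mulVec, Matrix.smul_mulVec, add_eq_left.mp h,
    smul_zero, add_zero]

theorem ta_img (J : Matrix (Fin m) (Fin m) F) (a : Fin m → F) (c : F)
    (u : Fin m × Fin n → F) : ∃ z : Fin n → F,
    (Tac J a c ⊗ₖ (1 : Matrix (Fin n) (Fin n) F)) *ᵥ u = u + pt a z := by
  refine ⟨fun j => c * ∑ i, (J *ᵥ a) i * u (i, j), ?_⟩
  rw [ta_eq, Matrix.add_mulVec, Matrix.one_mulVec, Matrix.smul_mulVec]
  congr 1
  ext ⟨i, j⟩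
  simp only [Pi.smul_apply, smul_eq_mul, Matrix.mulVec, dotProduct, Matrix.kronecker_apply,
    Matrix.vecMulVec_apply, Matrix.one_apply, pt, Fintype.sum_prod_type]
  simp only [mul_ite, mul_one, mul_zero, ite_mul, zero_mul, Finset.sum_ite_eq, Finset.mem_univ,
    if_true]
  rw [Finset.mul_sum, Finset.mul_sum, Finset.mul_sum]
  apply Finset.sum_congr rfl
  intro i' _
  ring

theorem tac_mul (h2 : (2 : F) ≠ 0) (J : Matrix (Fin m) (Fin m) F) (hJ : Jᵀ = -J)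
    (a : Fin m → F) (c c' : F) : Tac J a c * Tac J a c' = Tac J a (c + c') := by
  apply Cfsg.Agent.Helper11.SORT.mv_ext
  intro x
  rw [← Matrix.mulVec_mulVec, tac_mulVec, tac_mulVec, tac_mulVec,
    Cfsg.Agent.Helper11.SORT.bl_add_left, Cfsg.Agent.Helper11.SORT.bl_smul_left,
    bl_self h2 J hJ, mul_zero, add_zero, add_assoc, ← add_smul]
  congr 2
  ring

theorem ta_mul (h2 : (2 : F) ≠ 0) (J : Matrix (Fin m) (Fin m) F) (hJ : Jᵀ = -J)
    (a : Fin m → F) (c c' : F) :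
    (Tac J a c ⊗ₖ (1 : Matrix (Fin n) (Fin n) F)) * (Tac J a c' ⊗ₖ (1 : Matrix (Fin n) (Fin n) F))
      = Tac J a (c + c') ⊗ₖ (1 : Matrix (Fin n) (Fin n) F) := by
  rw [← Matrix.mul_kronecker_mul, Matrix.one_mul, tac_mul h2 J hJ]

theorem ta_zero (J : Matrix (Fin m) (Fin m) F) (a : Fin m → F) :
    Tac J a 0 ⊗ₖ (1 : Matrix (Fin n) (Fin n) F) = 1 := by
  rw [ta_eq, zero_smul, add_zero]

theorem ta_sq (h2 : (2 : F) ≠ 0) (J : Matrix (Fin m) (Fin m) F) (hJ : Jᵀ = -J)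
    (a : Fin m → F) (c : F) :
    (Tac J a c ⊗ₖ (1 : Matrix (Fin n) (Fin n) F) - 1)
      * (Tac J a c ⊗ₖ (1 : Matrix (Fin n) (Fin n) F) - 1) = 0 := by
  have h := ta_mul (n := n) h2 J hJ a c c
  have e : (Tac J a c ⊗ₖ (1 : Matrix (Fin n) (Fin n) F) - 1)
      * (Tac J a c ⊗ₖ (1 : Matrix (Fin n) (Fin n) F) - 1)
      = (Tac J a c ⊗ₖ (1 : Matrix (Fin n) (Fin n) F))
          * (Tac J a c ⊗ₖ (1 : Matrix (Fin n) (Fin n) F))
        - Tac J a c ⊗ₖ (1 : Matrix (Fin n) (Fin n) F)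
        - Tac J a c ⊗ₖ (1 : Matrix (Fin n) (Fin n) F) + 1 := by
    noncomm_ring
  rw [e, h, ta_eq, ta_eq, add_smul]
  abel

theorem ta_inj (hn : 0 < n) (J : Matrix (Fin m) (Fin m) F) (hJ : Jᵀ = -J) (hdetJ : J.det ≠ 0)
    (a : Fin m → F) (ha : a ≠ 0) (c c' : F)
    (h : Tac J a c ⊗ₖ (1 : Matrix (Fin n) (Fin n) F)
      = Tac J a c' ⊗ₖ (1 : Matrix (Fin n) (Fin n) F)) : c = c' := by
  obtain ⟨a₁, haa₁⟩ := alt_partner J hdetJ a ha
  have hb : bl J a₁ a = -1 := by rw [bl_skew J hJ a a₁, haa₁]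
  obtain ⟨i, hi⟩ := Function.ne_iff.mp ha
  have h3 := congrFun (congrArg (fun X => X *ᵥ pt a₁ (fun _ : Fin n => (1 : F))) h) (i, ⟨0, hn⟩)
  simp only [ta_pt, pt, hb, Pi.add_apply, Pi.smul_apply, smul_eq_mul, mul_one] at h3
  have h4 : (c - c') * a i = 0 := by linear_combination -h3
  rcases mul_eq_zero.mp h4 with h5 | h5
  · exact sub_eq_zero.mp h5
  · exact absurd h5 hi

/-! ## Subgroups -/

/-- The pointwise stabiliser in `GL` of the vectors satisfying `P`. -/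
def fixSub (P : (Fin m × Fin n → F) → Prop) : Subgroup (GL (Fin m × Fin n) F) where
  carrier := {c | ∀ v, P v → (c : Matrix (Fin m × Fin n) (Fin m × Fin n) F) *ᵥ v = v}
  mul_mem' := by
    intro c₁ c₂ h₁ h₂ v hv
    have h₁' : ∀ v, P v → (c₁ : Matrix (Fin m × Fin n) (Fin m × Fin n) F) *ᵥ v = v := h₁
    have h₂' : ∀ v, P v → (c₂ : Matrix (Fin m × Fin n) (Fin m × Fin n) F) *ᵥ v = v := h₂
    rw [Units.val_mul, ← Matrix.mulVec_mulVec, h₂' v hv, h₁' v hv]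
  one_mem' := by
    intro v hv
    rw [Units.val_one, Matrix.one_mulVec]
  inv_mem' := by
    intro c hc v hv
    have hc' : ∀ v, P v → (c : Matrix (Fin m × Fin n) (Fin m × Fin n) F) *ᵥ v = v := hc
    conv_lhs => rw [← hc' v hv]
    rw [Matrix.mulVec_mulVec, ← Units.val_mul, inv_mul_cancel, Units.val_one,
      Matrix.one_mulVec]

theorem mem_fixSub (P : (Fin m × Fin n → F) → Prop) (c : GL (Fin m × Fin n) F) :
    c ∈ fixSub P ↔ ∀ v, P v → (c : Matrix (Fin m × Fin n) (Fin m × Fin n) F) *ᵥ v = v :=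
  Iff.rfl

/-- The root subgroup `{t_a(c)}`. -/
def taSub (h2 : (2 : F) ≠ 0) (J : Matrix (Fin m) (Fin m) F) (hJ : Jᵀ = -J) (n : ℕ)
    (a : Fin m → F) : Subgroup (GL (Fin m × Fin n) F) where
  carrier := {x | ∃ c : F, (x : Matrix (Fin m × Fin n) (Fin m × Fin n) F)
    = Tac J a c ⊗ₖ (1 : Matrix (Fin n) (Fin n) F)}
  mul_mem' := by
    rintro x y ⟨c, hc⟩ ⟨c', hc'⟩
    exact ⟨c + c', by rw [Units.val_mul, hc, hc', ta_mul h2 J hJ]⟩
  one_mem' := ⟨0, by rw [Units.val_one, ta_zero]⟩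
  inv_mem' := by
    rintro x ⟨c, hc⟩
    refine ⟨-c, ?_⟩
    have h1 : (x : Matrix (Fin m × Fin n) (Fin m × Fin n) F)
        * (Tac J a (-c) ⊗ₖ (1 : Matrix (Fin n) (Fin n) F)) = 1 := by
      rw [hc, ta_mul h2 J hJ, add_neg_cancel, ta_zero]
    calc ((x⁻¹ : GL (Fin m × Fin n) F) : Matrix (Fin m × Fin n) (Fin m × Fin n) F)
        = ((x⁻¹ : GL (Fin m × Fin n) F) : Matrix (Fin m × Fin n) (Fin m × Fin n) F)
          * ((x : Matrix (Fin m × Fin n) (Fin m × Fin n) F)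
            * (Tac J a (-c) ⊗ₖ (1 : Matrix (Fin n) (Fin n) F))) := by rw [h1, mul_one]
      _ = Tac J a (-c) ⊗ₖ (1 : Matrix (Fin n) (Fin n) F) := by
        rw [← mul_assoc, ← Units.val_mul, inv_mul_cancel, Units.val_one, one_mul]

theorem mem_taSub (h2 : (2 : F) ≠ 0) (J : Matrix (Fin m) (Fin m) F) (hJ : Jᵀ = -J)
    (a : Fin m → F) (x : GL (Fin m × Fin n) F) :
    x ∈ taSub h2 J hJ n a ↔ ∃ c : F, (x : Matrix (Fin m × Fin n) (Fin m × Fin n) F)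
      = Tac J a c ⊗ₖ (1 : Matrix (Fin n) (Fin n) F) := Iff.rfl

/-! ## Rigidity -/

theorem rigid_gen (hm : 4 ≤ m) (hn : 3 ≤ n) (h2 : (2 : F) ≠ 0) (J : Matrix (Fin m) (Fin m) F)
    (hJ : Jᵀ = -J) (hdetJ : J.det ≠ 0) (S : Matrix (Fin n) (Fin n) F) (hS : Sᵀ = S)
    (hdetS : S.det ≠ 0)
    (M : Subgroup (GL (Fin m × Fin n) F)) (hSp : SpLEG J S M) (hH : HasHG J S M)
    (hNS : NS2 J S M) (g : GL (Fin m × Fin n) F) (hg : g ∈ M) (a : Fin m → F) (ha : a ≠ 0)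
    (c : F) (hc : c ≠ 0)
    (hk : IsKron ((g : Matrix (Fin m × Fin n) (Fin m × Fin n) F)
      * (Tac J a c ⊗ₖ (1 : Matrix (Fin n) (Fin n) F))
      * ((g⁻¹ : GL (Fin m × Fin n) F) : Matrix (Fin m × Fin n) (Fin m × Fin n) F))) :
    IsKron (g : Matrix (Fin m × Fin n) (Fin m × Fin n) F) := by
  have hγ : (g : Matrix (Fin m × Fin n) (Fin m × Fin n) F)
      * ((g⁻¹ : GL (Fin m × Fin n) F) : Matrix (Fin m × Fin n) (Fin m × Fin n) F) = 1 := by
    rw [← Units.val_mul, mul_inv_cancel, Units.val_one]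
  have hγ' : ((g⁻¹ : GL (Fin m × Fin n) F) : Matrix (Fin m × Fin n) (Fin m × Fin n) F)
      * (g : Matrix (Fin m × Fin n) (Fin m × Fin n) F) = 1 := by
    rw [← Units.val_mul, inv_mul_cancel, Units.val_one]
  have hsk := fun C l l' h0 h1 hr => skewN hn h2 S hS hdetS C l l' h0 h1 hr
  rcases quad_image_gen h2 J hJ hdetJ a ha c hc _ _ hγ hγ' hk with
    ⟨a', ha', himg⟩ | ⟨N, hN, hNN, hconj⟩
  · obtain ⟨A, hA, hAa⟩ := alt_trans h2 J hJ hdetJ a a' ha ha'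
    obtain ⟨b, hbM, hb⟩ := hH A 1 1 1 (by rw [hA, one_smul])
      (by rw [Matrix.transpose_one, Matrix.one_mul, Matrix.mul_one, one_smul]) (by rw [mul_one])
    have hkk : IsKron ((b * g : GL (Fin m × Fin n) F) :
        Matrix (Fin m × Fin n) (Fin m × Fin n) F) := by
      apply zb0_gen hn h2 J hJ hdetJ S hS hdetS M hSp hH hNS hsk a ha (b * g) (M.mul_mem hbM hg)
      intro x
      obtain ⟨x', hx'⟩ := himg x
      refine ⟨x', ?_⟩
      rw [Units.val_mul, ← Matrix.mulVec_mulVec, hx', hb, kron_mulVec_pt, hAa,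
        Matrix.one_mulVec]
    have hbk : b ∈ kronSub m n F := mem_kronSub.mpr ⟨A, 1, hb⟩
    have hbg : b * g ∈ kronSub m n F := mem_kronSub.mpr hkk
    have := (kronSub m n F).mul_mem ((kronSub m n F).inv_mem hbk) hbg
    rw [inv_mul_cancel_left] at this
    exact mem_kronSub.mp this
  · exfalso
    exact no_type3 hm h2 J hJ hdetJ S hS hdetS M hSp hH a ha
      (fun ρ hρ h1 h2' =>
        rad_kron_gen hn h2 J hJ hdetJ S hS hdetS M hSp hH hNS hsk a ha ρ hρ h1 h2')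
      g hg c hc N hN hNN hconj

/-! ## Fusion -/

theorem fus [Finite F] (hm : 4 ≤ m) (hn : 3 ≤ n) (h2 : (2 : F) ≠ 0)
    (J : Matrix (Fin m) (Fin m) F) (hJ : Jᵀ = -J) (hdetJ : J.det ≠ 0)
    (S : Matrix (Fin n) (Fin n) F) (hS : Sᵀ = S) (hdetS : S.det ≠ 0)
    (M : Subgroup (GL (Fin m × Fin n) F)) (hSp : SpLEG J S M) (hH : HasHG J S M)
    (hNS : NS2 J S M) (g : GL (Fin m × Fin n) F) (hg : g ∈ M)
    (a b : Fin m → F) (ha : a ≠ 0) (hb : b ≠ 0) :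
    ∃ x : GL (Fin m × Fin n) F, x ∈ M ∧ x * g⁻¹ ∈ kronSub m n F ∧
      ∀ v : Fin m × Fin n → F,
        (Tac J b 1 ⊗ₖ (1 : Matrix (Fin n) (Fin n) F)) *ᵥ v = v →
        (Tac J a 1 ⊗ₖ (1 : Matrix (Fin n) (Fin n) F))
            *ᵥ ((g : Matrix (Fin m × Fin n) (Fin m × Fin n) F) *ᵥ v)
          = (g : Matrix (Fin m × Fin n) (Fin m × Fin n) F) *ᵥ v →
        (x : Matrix (Fin m × Fin n) (Fin m × Fin n) F) *ᵥ v = v := by
  classical
  haveI : Fact (ringChar F).Prime := ⟨CharP.char_is_prime F _⟩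
  obtain ⟨t', ht'M, ht'⟩ := troot_inM h2 J hJ S M hH a 1
  obtain ⟨t'', ht''M, ht''⟩ := troot_inM h2 J hJ S M hH b 1
  let T : Set (GL (Fin m × Fin n) F) := {t | ∃ (a : Fin m → F) (c : F), a ≠ 0 ∧ c ≠ 0 ∧
    (t : Matrix (Fin m × Fin n) (Fin m × Fin n) F)
      = Tac J a c ⊗ₖ (1 : Matrix (Fin n) (Fin n) F)}
  have hTM : ∀ t ∈ T, t ∈ M := by
    rintro t ⟨a, c, -, -, ht⟩
    apply mem_of_inM
    rw [ht]
    exact troot_inM h2 J hJ S M hH a c
  have hTH : ∀ t ∈ T, t ∈ kronSub m n F := by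
    rintro t ⟨a, c, -, -, ht⟩
    exact mem_kronSub.mpr ⟨Tac J a c, 1, ht⟩
  have hTp : ∀ t ∈ T, t ^ (ringChar F) = 1 := by
    rintro t ⟨a, c, -, -, ht⟩
    exact troot_pow h2 J hJ (ringChar F) a c t ht
  have hi : ∀ t ∈ T, ∀ g ∈ M, g * t * g⁻¹ ∈ kronSub m n F → g ∈ kronSub m n F := by
    rintro t ⟨a, c, ha, hc, ht⟩ g hg hgt
    rw [mem_kronSub] at hgt ⊢
    apply rigid_gen hm hn h2 J hJ hdetJ S hS hdetS M hSp hH hNS g hg a ha c hc
    rw [← ht]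
    rw [Units.val_mul, Units.val_mul] at hgt
    exact hgt
  let P : (Fin m × Fin n → F) → Prop := fun v =>
    (Tac J b 1 ⊗ₖ (1 : Matrix (Fin n) (Fin n) F)) *ᵥ v = v ∧
    (Tac J a 1 ⊗ₖ (1 : Matrix (Fin n) (Fin n) F))
        *ᵥ ((g : Matrix (Fin m × Fin n) (Fin m × Fin n) F) *ᵥ v)
      = (g : Matrix (Fin m × Fin n) (Fin m × Fin n) F) *ᵥ v
  have h1 : t'' ∈ fixSub P := by
    rw [mem_fixSub]
    intro v hv
    rw [ht'']
    exact hv.1
  have h2c : g⁻¹ * t' * g ∈ fixSub P := by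
    rw [mem_fixSub]
    intro v hv
    rw [Units.val_mul, Units.val_mul, ← Matrix.mulVec_mulVec, ← Matrix.mulVec_mulVec, ht',
      hv.2, Matrix.mulVec_mulVec, ← Units.val_mul, inv_mul_cancel, Units.val_one,
      Matrix.one_mulVec]
  obtain ⟨x, hxM, hxC, hxH⟩ := Cfsg.Agent.Helper76.T4SY.syl_conj (ringChar F) M (kronSub m n F)
    T hTM hTH hTp hi (fixSub P) g t' t'' hg ⟨a, 1, ha, one_ne_zero, ht'⟩
    ⟨b, 1, hb, one_ne_zero, ht''⟩ h1 h2c
  exact ⟨x, hxM, hxH, fun v hv1 hv2 => (mem_fixSub P x).mp hxC v ⟨hv1, hv2⟩⟩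

theorem fus' [Finite F] (hm : 4 ≤ m) (hn : 3 ≤ n) (h2 : (2 : F) ≠ 0)
    (J : Matrix (Fin m) (Fin m) F) (hJ : Jᵀ = -J) (hdetJ : J.det ≠ 0)
    (S : Matrix (Fin n) (Fin n) F) (hS : Sᵀ = S) (hdetS : S.det ≠ 0)
    (M : Subgroup (GL (Fin m × Fin n) F)) (hSp : SpLEG J S M) (hH : HasHG J S M)
    (hNS : NS2 J S M) (g : GL (Fin m × Fin n) F) (hg : g ∈ M)
    (a : Fin m → F) (ha : a ≠ 0) :
    ∀ b : Fin m → F, b ≠ 0 → ∃ x : GL (Fin m × Fin n) F, x ∈ M ∧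
      (∃ (A : Matrix (Fin m) (Fin m) F) (B : Matrix (Fin n) (Fin n) F) (ν : F), ν ≠ 0 ∧
        Aᵀ * J * A = ν • J ∧ B.det ≠ 0 ∧
        (x : Matrix (Fin m × Fin n) (Fin m × Fin n) F)
          = (A ⊗ₖ B) * (g : Matrix (Fin m × Fin n) (Fin m × Fin n) F)) ∧
      ∀ v : Fin m × Fin n → F,
        (Tac J b 1 ⊗ₖ (1 : Matrix (Fin n) (Fin n) F)) *ᵥ v = v →
        (Tac J a 1 ⊗ₖ (1 : Matrix (Fin n) (Fin n) F))
            *ᵥ ((g : Matrix (Fin m × Fin n) (Fin m × Fin n) F) *ᵥ v)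
          = (g : Matrix (Fin m × Fin n) (Fin m × Fin n) F) *ᵥ v →
        (x : Matrix (Fin m × Fin n) (Fin m × Fin n) F) *ᵥ v = v := by
  intro b hb
  obtain ⟨x, hxM, hxH, hx⟩ := fus hm hn h2 J hJ hdetJ S hS hdetS M hSp hH hNS g hg a b ha hb
  refine ⟨x, hxM, ?_, hx⟩
  obtain ⟨A, B, hAB⟩ := mem_kronSub.mp hxH
  have hsp : IsSpG J S (A ⊗ₖ B) := by
    rw [← hAB]
    exact hSp _ (M.mul_mem hxM (M.inv_mem hg))
  obtain ⟨ν, μ, hνμ, hA, hB⟩ := kron_simil (by omega) (by omega) J hdetJ S hdetS A B hsp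
  refine ⟨A, B, ν, ?_, hA, ?_, ?_⟩
  · rintro rfl
    rw [zero_mul] at hνμ
    exact zero_ne_one hνμ
  · intro hB0
    have h3 := congrArg Matrix.det hB
    rw [Matrix.det_mul, Matrix.det_mul, Matrix.det_transpose, hB0, Matrix.det_smul, zero_mul,
      zero_mul] at h3
    have hμ : μ ≠ 0 := by
      rintro rfl
      rw [mul_zero] at hνμ
      exact zero_ne_one hνμ
    exact (mul_ne_zero (pow_ne_zero _ hμ) hdetS) h3.symm
  · rw [← hAB, Units.val_mul, mul_assoc, ← Units.val_mul, inv_mul_cancel, Units.val_one,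
      mul_one]

/-! ## Generic position -/

theorem c3 [Finite F] (hm : 4 ≤ m) (hn : 3 ≤ n) (h2 : (2 : F) ≠ 0)
    (J : Matrix (Fin m) (Fin m) F) (hJ : Jᵀ = -J) (hdetJ : J.det ≠ 0)
    (S : Matrix (Fin n) (Fin n) F) (hS : Sᵀ = S) (hdetS : S.det ≠ 0)
    (M : Subgroup (GL (Fin m × Fin n) F)) (hSp : SpLEG J S M) (hH : HasHG J S M)
    (hNS : NS2 J S M) (g : GL (Fin m × Fin n) F) (hg : g ∈ M)
    (hnk : ¬ IsKron (g : Matrix (Fin m × Fin n) (Fin m × Fin n) F))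
    (a b : Fin m → F) (ha : a ≠ 0) (hb : b ≠ 0) (w : Fin m × Fin n → F)
    (hw : ∃ z : Fin n → F, (g : Matrix (Fin m × Fin n) (Fin m × Fin n) F) *ᵥ w = pt a z)
    (hwb : (Tac J b 1 ⊗ₖ (1 : Matrix (Fin n) (Fin n) F)) *ᵥ w = w) : w = 0 := by
  have hsk := fun C l l' h0 h1 hr => skewN hn h2 S hS hdetS C l l' h0 h1 hr
  exact generic3 (by omega) h2 J hJ hdetJ M
    (fun d hd k hk hka => zb0_gen hn h2 J hJ hdetJ S hS hdetS M hSp hH hNS hsk d hd k hk hka)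
    (fun b a₁ hb hind μ hfix d hdb hda z => lemG h2 J hJ hdetJ b a₁ hb hind μ hfix d hdb hda z)
    g hg hnk a ha (fus' hm hn h2 J hJ hdetJ S hS hdetS M hSp hH hNS g hg a ha) b hb w hw hwb

theorem c5 [Finite F] (hm : 4 ≤ m) (hn : 3 ≤ n) (h2 : (2 : F) ≠ 0)
    (J : Matrix (Fin m) (Fin m) F) (hJ : Jᵀ = -J) (hdetJ : J.det ≠ 0)
    (S : Matrix (Fin n) (Fin n) F) (hS : Sᵀ = S) (hdetS : S.det ≠ 0)
    (M : Subgroup (GL (Fin m × Fin n) F)) (hSp : SpLEG J S M) (hH : HasHG J S M)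
    (hNS : NS2 J S M) (g : GL (Fin m × Fin n) F) (hg : g ∈ M)
    (hnk : ¬ IsKron (g : Matrix (Fin m × Fin n) (Fin m × Fin n) F))
    (a d : Fin m → F) (ha : a ≠ 0) (hd : d ≠ 0) (z : Fin n → F)
    (h : (Tac J a 1 ⊗ₖ (1 : Matrix (Fin n) (Fin n) F))
        *ᵥ ((g : Matrix (Fin m × Fin n) (Fin m × Fin n) F) *ᵥ pt d z)
      = (g : Matrix (Fin m × Fin n) (Fin m × Fin n) F) *ᵥ pt d z) : z = 0 := by
  have hnk' : ¬ IsKron ((g⁻¹ : GL (Fin m × Fin n) F) :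
      Matrix (Fin m × Fin n) (Fin m × Fin n) F) := by
    intro h'
    apply hnk
    have h3 := (kronSub m n F).inv_mem (mem_kronSub.mpr h')
    rw [inv_inv] at h3
    exact mem_kronSub.mp h3
  have h0 := c3 hm hn h2 J hJ hdetJ S hS hdetS M hSp hH hNS g⁻¹ (M.inv_mem hg) hnk' d a hd ha
    ((g : Matrix (Fin m × Fin n) (Fin m × Fin n) F) *ᵥ pt d z)
    ⟨z, by rw [Matrix.mulVec_mulVec, ← Units.val_mul, inv_mul_cancel, Units.val_one,
      Matrix.one_mulVec]⟩ h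
  have h1 : pt d z = 0 := by
    have h3 := congrArg (fun v => ((g⁻¹ : GL (Fin m × Fin n) F) :
      Matrix (Fin m × Fin n) (Fin m × Fin n) F) *ᵥ v) h0
    rwa [Matrix.mulVec_mulVec, ← Units.val_mul, inv_mul_cancel, Units.val_one,
      Matrix.one_mulVec, Matrix.mulVec_zero] at h3
  exact pt_left_cancel d hd z 0 (by rw [h1, pt_zero_right])

/-! ## The non-Kronecker contradiction -/

theorem ns2_kron [Finite F] (hm : 4 ≤ m) (hn : 3 ≤ n) (h2 : (2 : F) ≠ 0)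
    (J : Matrix (Fin m) (Fin m) F) (hJ : Jᵀ = -J) (hdetJ : J.det ≠ 0)
    (S : Matrix (Fin n) (Fin n) F) (hS : Sᵀ = S) (hdetS : S.det ≠ 0)
    (M : Subgroup (GL (Fin m × Fin n) F)) (hSp : SpLEG J S M) (hH : HasHG J S M)
    (hNS : NS2 J S M) (g : GL (Fin m × Fin n) F) (hg : g ∈ M) :
    IsKron (g : Matrix (Fin m × Fin n) (Fin m × Fin n) F) := by
  classical
  by_contra hnk
  haveI : Fact (ringChar F).Prime := ⟨CharP.char_is_prime F _⟩
  obtain ⟨a, ha⟩ : ∃ a : Fin m → F, a ≠ 0 := by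
    refine ⟨Pi.single ⟨0, by omega⟩ 1, ?_⟩
    intro h
    have h3 := congrFun h ⟨0, by omega⟩
    simp at h3
  obtain ⟨a₁, haa₁⟩ := alt_partner J hdetJ a ha
  have hsk := fun C l l' h0 h1 hr => skewN hn h2 S hS hdetS C l l' h0 h1 hr
  have hC3 := fun w hw hwb =>
    c3 hm hn h2 J hJ hdetJ S hS hdetS M hSp hH hNS g hg hnk a a ha ha w hw hwb
  have hC5 := fun d hd z h =>
    c5 hm hn h2 J hJ hdetJ S hS hdetS M hSp hH hNS g hg hnk a d ha hd z h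
  let P : (Fin m × Fin n → F) → Prop := fun v =>
    (Tac J a 1 ⊗ₖ (1 : Matrix (Fin n) (Fin n) F)) *ᵥ v = v ∧
    (Tac J a 1 ⊗ₖ (1 : Matrix (Fin n) (Fin n) F))
        *ᵥ ((g : Matrix (Fin m × Fin n) (Fin m × Fin n) F) *ᵥ v)
      = (g : Matrix (Fin m × Fin n) (Fin m × Fin n) F) *ᵥ v
  obtain ⟨D, hD⟩ : ∃ D : Subgroup (GL (Fin m × Fin n) F), D = M ⊓ fixSub P := ⟨_, rfl⟩
  obtain ⟨Z, hZ⟩ : ∃ Z : Subgroup (GL (Fin m × Fin n) F), Z = taSub h2 J hJ n a := ⟨_, rfl⟩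
  have hDmem : ∀ x : GL (Fin m × Fin n) F, x ∈ D ↔ x ∈ M ∧
      ∀ v, P v → (x : Matrix (Fin m × Fin n) (Fin m × Fin n) F) *ᵥ v = v := by
    intro x
    rw [hD, Subgroup.mem_inf, mem_fixSub]
  have hZmem : ∀ x : GL (Fin m × Fin n) F, x ∈ Z ↔
      ∃ c : F, (x : Matrix (Fin m × Fin n) (Fin m × Fin n) F)
        = Tac J a c ⊗ₖ (1 : Matrix (Fin n) (Fin n) F) := by
    intro x
    rw [hZ, mem_taSub]
  obtain ⟨t₁, ht₁M, ht₁⟩ := troot_inM h2 J hJ S M hH a 1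
  obtain ⟨t₂, ht₂M, ht₂⟩ := troot_inM h2 J hJ S M hH a 2
  have hZD : Z ≤ D := by
    intro x hx
    obtain ⟨c, hc⟩ := (hZmem x).mp hx
    rw [hDmem]
    refine ⟨?_, ?_⟩
    · apply mem_of_inM
      rw [hc]
      exact troot_inM h2 J hJ S M hH a c
    · intro v hv
      rw [hc]
      exact ta_fix J a c v hv.1
  have hZp : ∀ x ∈ Z, x ^ (ringChar F) = 1 := by
    intro x hx
    obtain ⟨c, hc⟩ := (hZmem x).mp hx
    exact troot_pow h2 J hJ (ringChar F) a c x hc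
  have hZab : ∀ x ∈ Z, ∀ y ∈ Z, x * y = y * x := by
    intro x hx y hy
    obtain ⟨c, hc⟩ := (hZmem x).mp hx
    obtain ⟨c', hc'⟩ := (hZmem y).mp hy
    apply Units.ext
    rw [Units.val_mul, Units.val_mul, hc, hc', ta_mul h2 J hJ, ta_mul h2 J hJ, add_comm]
  have hself : ∀ x ∈ D, ∀ z ∈ Z, z ≠ 1 → x * z * x⁻¹ ∈ Z → x ∈ Z := by
    intro x hxD z hz hz1 hconj
    obtain ⟨c, hc⟩ := (hZmem z).mp hz
    obtain ⟨c', hc'⟩ := (hZmem _).mp hconj
    obtain ⟨hxM, hxF⟩ := (hDmem x).mp hxD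
    have hc0 : c ≠ 0 := by
      rintro rfl
      apply hz1
      apply Units.ext
      rw [hc, ta_zero, Units.val_one]
    have hcomm : (x : Matrix (Fin m × Fin n) (Fin m × Fin n) F)
        * (Tac J a c ⊗ₖ (1 : Matrix (Fin n) (Fin n) F))
        = (Tac J a c' ⊗ₖ (1 : Matrix (Fin n) (Fin n) F))
          * (x : Matrix (Fin m × Fin n) (Fin m × Fin n) F) := by
      rw [← hc, ← hc', ← Units.val_mul, ← Units.val_mul, inv_mul_cancel_right]
    have hne : c * bl J a₁ a ≠ 0 := by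
      rw [bl_skew J hJ a a₁, haa₁]
      exact mul_ne_zero hc0 (neg_ne_zero.mpr one_ne_zero)
    have hka : ∀ z₀ : Fin n → F, ∃ z' : Fin n → F,
        (x : Matrix (Fin m × Fin n) (Fin m × Fin n) F) *ᵥ pt a z₀ = pt a z' := by
      intro z₀
      have h3 := congrArg (fun X => X *ᵥ pt a₁ z₀) hcomm
      obtain ⟨z'', hz''⟩ := ta_img J a c'
        ((x : Matrix (Fin m × Fin n) (Fin m × Fin n) F) *ᵥ pt a₁ z₀)
      rw [← Matrix.mulVec_mulVec, ← Matrix.mulVec_mulVec, ta_pt, pt_add_left, pt_smul_left,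
        Matrix.mulVec_add, Matrix.mulVec_smul, hz''] at h3
      have h4 : (c * bl J a₁ a) • ((x : Matrix (Fin m × Fin n) (Fin m × Fin n) F) *ᵥ pt a z₀)
          = pt a z'' := add_left_cancel h3
      refine ⟨(c * bl J a₁ a)⁻¹ • z'', ?_⟩
      rw [pt_smul_right, ← h4, smul_smul, inv_mul_cancel₀ hne, one_smul]
    obtain ⟨A, B, hAB⟩ := zb0_gen hn h2 J hJ hdetJ S hS hdetS M hSp hH hNS hsk a ha x hxM hka
    obtain ⟨α, hα, hAd, hBα⟩ := kron_fix1 hm (by omega) h2 J hJ hdetJ A B a ha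
      (fun v => (Tac J a 1 ⊗ₖ (1 : Matrix (Fin n) (Fin n) F))
          *ᵥ ((g : Matrix (Fin m × Fin n) (Fin m × Fin n) F) *ᵥ v)
        = (g : Matrix (Fin m × Fin n) (Fin m × Fin n) F) *ᵥ v)
      (fun d z hd h => hC5 d hd z h)
      (fun v d hd => fix_surj h2 J hJ a ha _ d (fun z h => hC5 d hd z h) v)
      (fun v hN hv => by rw [← hAB]; exact hxF v ⟨hv, hN⟩)
    have hAB' : (x : Matrix (Fin m × Fin n) (Fin m × Fin n) F)
        = (α⁻¹ • A) ⊗ₖ (1 : Matrix (Fin n) (Fin n) F) := by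
      rw [hAB, hBα, Matrix.kronecker_smul, Matrix.smul_kronecker]
    obtain ⟨c'', hc''⟩ := sp_fix_hyp (by omega) h2 J hJ hdetJ S hdetS a ha (α⁻¹ • A)
      (by rw [← hAB']; exact hSp x hxM)
      (by
        intro d hd
        rw [Matrix.smul_mulVec, hAd d hd, smul_smul, inv_mul_cancel₀ hα, one_smul])
    exact (hZmem x).mpr ⟨c'', by rw [hAB', hc'']⟩
  have ht₁Z : t₁ ∈ Z := (hZmem t₁).mpr ⟨1, ht₁⟩
  have ht₁1 : t₁ ≠ 1 := by
    intro h
    have h3 : Tac J a 1 ⊗ₖ (1 : Matrix (Fin n) (Fin n) F)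
        = Tac J a 0 ⊗ₖ (1 : Matrix (Fin n) (Fin n) F) := by
      rw [← ht₁, h, Units.val_one, ta_zero]
    exact one_ne_zero (ta_inj (by omega) J hJ hdetJ a ha 1 0 h3)
  have hgi : ((g⁻¹ : GL (Fin m × Fin n) F) : Matrix (Fin m × Fin n) (Fin m × Fin n) F)
      * (g : Matrix (Fin m × Fin n) (Fin m × Fin n) F) = 1 := by
    rw [← Units.val_mul, inv_mul_cancel, Units.val_one]
  have hgi' : (g : Matrix (Fin m × Fin n) (Fin m × Fin n) F)
      * ((g⁻¹ : GL (Fin m × Fin n) F) : Matrix (Fin m × Fin n) (Fin m × Fin n) F) = 1 := by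
    rw [← Units.val_mul, mul_inv_cancel, Units.val_one]
  -- conjugates of root elements of `a` by `g⁻¹` lie in `D`
  have hconjD : ∀ (t : GL (Fin m × Fin n) F) (c : F), t ∈ M →
      (t : Matrix (Fin m × Fin n) (Fin m × Fin n) F)
        = Tac J a c ⊗ₖ (1 : Matrix (Fin n) (Fin n) F) → g⁻¹ * t * g ∈ D := by
    intro t c htM ht
    rw [hDmem]
    refine ⟨M.mul_mem (M.mul_mem (M.inv_mem hg) htM) hg, ?_⟩
    intro v hv
    rw [Units.val_mul, Units.val_mul, ← Matrix.mulVec_mulVec, ← Matrix.mulVec_mulVec, ht,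
      ta_fix J a c _ hv.2, Matrix.mulVec_mulVec, hgi, Matrix.one_mulVec]
  have hy₁D : t₁ * (g⁻¹ * t₁ * g) ∈ D := D.mul_mem (hZD ht₁Z) (hconjD t₁ 1 ht₁M ht₁)
  have hy₂D : t₁ * (g⁻¹ * t₂ * g) ∈ D := D.mul_mem (hZD ht₁Z) (hconjD t₂ 2 ht₂M ht₂)
  have ht₁₂ : t₁ * t₁ = t₂ := by
    apply Units.ext
    rw [Units.val_mul, ht₁, ht₂, ta_mul h2 J hJ, one_add_one_eq_two]
  have hpow : ((t₁ * (g⁻¹ * t₁ * g))⁻¹ * (t₁ * (g⁻¹ * t₂ * g))) ^ (ringChar F) = 1 := by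
    have e : (t₁ * (g⁻¹ * t₁ * g))⁻¹ * (t₁ * (g⁻¹ * t₂ * g)) = g⁻¹ * t₁ * (g⁻¹)⁻¹ := by
      rw [← ht₁₂]
      group
    rw [e, conj_pow, troot_pow h2 J hJ (ringChar F) a 1 t₁ ht₁, mul_one, mul_inv_cancel]
  -- the quadratic obstruction
  have hquad : ∀ (t : GL (Fin m × Fin n) F) (d : F), d ≠ 0 →
      (t : Matrix (Fin m × Fin n) (Fin m × Fin n) F)
        = Tac J a d ⊗ₖ (1 : Matrix (Fin n) (Fin n) F) →
      ∀ x ∈ D, x * (t₁ * (g⁻¹ * t * g)) * x⁻¹ ∉ Z := by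
    intro t d hd ht x hxD hxZ
    obtain ⟨c', hc'⟩ := (hZmem _).mp hxZ
    have hq := quad_ne (by omega) h2 J hJ a a ha
      (g : Matrix (Fin m × Fin n) (Fin m × Fin n) F)
      ((g⁻¹ : GL (Fin m × Fin n) F) : Matrix (Fin m × Fin n) (Fin m × Fin n) F) hgi' hgi
      (fun w hw hwb => hC3 w hw hwb) (fun z h => hC5 a ha z h) 1 d one_ne_zero hd
    apply hq
    have hy : (Tac J a 1 ⊗ₖ (1 : Matrix (Fin n) (Fin n) F))
        * (((g⁻¹ : GL (Fin m × Fin n) F) : Matrix (Fin m × Fin n) (Fin m × Fin n) F)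
          * (Tac J a d ⊗ₖ (1 : Matrix (Fin n) (Fin n) F))
          * (g : Matrix (Fin m × Fin n) (Fin m × Fin n) F))
        = ((x⁻¹ : GL (Fin m × Fin n) F) : Matrix (Fin m × Fin n) (Fin m × Fin n) F)
          * (Tac J a c' ⊗ₖ (1 : Matrix (Fin n) (Fin n) F))
          * (x : Matrix (Fin m × Fin n) (Fin m × Fin n) F) := by
      rw [← hc', ← ht₁, ← ht, ← Units.val_mul, ← Units.val_mul, ← Units.val_mul,
        ← Units.val_mul, ← Units.val_mul]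
      congr 1
      group
    have hxi : ((x⁻¹ : GL (Fin m × Fin n) F) : Matrix (Fin m × Fin n) (Fin m × Fin n) F)
        * (x : Matrix (Fin m × Fin n) (Fin m × Fin n) F) = 1 := by
      rw [← Units.val_mul, inv_mul_cancel, Units.val_one]
    have hxi' : (x : Matrix (Fin m × Fin n) (Fin m × Fin n) F)
        * ((x⁻¹ : GL (Fin m × Fin n) F) : Matrix (Fin m × Fin n) (Fin m × Fin n) F) = 1 := by
      rw [← Units.val_mul, mul_inv_cancel, Units.val_one]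
    have e : ((x⁻¹ : GL (Fin m × Fin n) F) : Matrix (Fin m × Fin n) (Fin m × Fin n) F)
          * (Tac J a c' ⊗ₖ (1 : Matrix (Fin n) (Fin n) F))
          * (x : Matrix (Fin m × Fin n) (Fin m × Fin n) F) - 1
        = ((x⁻¹ : GL (Fin m × Fin n) F) : Matrix (Fin m × Fin n) (Fin m × Fin n) F)
          * (Tac J a c' ⊗ₖ (1 : Matrix (Fin n) (Fin n) F) - 1)
          * (x : Matrix (Fin m × Fin n) (Fin m × Fin n) F) := by
      rw [Matrix.mul_sub, Matrix.sub_mul, Matrix.mul_one, hxi]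
    rw [hy, e]
    calc ((x⁻¹ : GL (Fin m × Fin n) F) : Matrix (Fin m × Fin n) (Fin m × Fin n) F)
          * (Tac J a c' ⊗ₖ (1 : Matrix (Fin n) (Fin n) F) - 1)
          * (x : Matrix (Fin m × Fin n) (Fin m × Fin n) F)
          * (((x⁻¹ : GL (Fin m × Fin n) F) : Matrix (Fin m × Fin n) (Fin m × Fin n) F)
          * (Tac J a c' ⊗ₖ (1 : Matrix (Fin n) (Fin n) F) - 1)
          * (x : Matrix (Fin m × Fin n) (Fin m × Fin n) F))
        = ((x⁻¹ : GL (Fin m × Fin n) F) : Matrix (Fin m × Fin n) (Fin m × Fin n) F)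
          * ((Tac J a c' ⊗ₖ (1 : Matrix (Fin n) (Fin n) F) - 1)
            * ((x : Matrix (Fin m × Fin n) (Fin m × Fin n) F)
              * ((x⁻¹ : GL (Fin m × Fin n) F) : Matrix (Fin m × Fin n) (Fin m × Fin n) F))
            * (Tac J a c' ⊗ₖ (1 : Matrix (Fin n) (Fin n) F) - 1))
          * (x : Matrix (Fin m × Fin n) (Fin m × Fin n) F) := by
          simp only [mul_assoc]
      _ = 0 := by
          rw [hxi', Matrix.mul_one, ta_sq h2 J hJ, Matrix.mul_zero, Matrix.zero_mul]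
  have hfin := burnside_tool (ringChar F) D Z hZD hZp hZab hself
    t₁ ht₁Z ht₁1
    (t₁ * (g⁻¹ * t₁ * g)) (t₁ * (g⁻¹ * t₂ * g)) hy₁D hy₂D hpow
    (hquad t₁ 1 one_ne_zero ht₁) (hquad t₂ 2 h2 ht₂)
  have h12 : t₁ = t₂ := by
    have h3 := mul_left_cancel hfin
    have h4 := mul_right_cancel h3
    exact mul_left_cancel h4
  have h3 : Tac J a 1 ⊗ₖ (1 : Matrix (Fin n) (Fin n) F)
      = Tac J a 2 ⊗ₖ (1 : Matrix (Fin n) (Fin n) F) := by
    rw [← ht₁, ← ht₂, h12]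
  have h4 := ta_inj (by omega) J hJ hdetJ a ha 1 2 h3
  have h5 : (1 : F) = 0 := by linear_combination -h4
  exact one_ne_zero h5

/-- The model dichotomy. -/
theorem main_gen [Finite F] (hm : 4 ≤ m) (hn : 4 ≤ n) (h2 : (2 : F) ≠ 0)
    (J : Matrix (Fin m) (Fin m) F) (hJ : Jᵀ = -J) (hdetJ : J.det ≠ 0)
    (S : Matrix (Fin n) (Fin n) F) (hS : Sᵀ = S) (hdetS : S.det ≠ 0)
    (M : Subgroup (GL (Fin m × Fin n) F)) (hSp : SpLEG J S M) (hH : HasHG J S M) :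
    (∀ g ∈ M, IsKron (g : Matrix (Fin m × Fin n) (Fin m × Fin n) F)) ∨ TvPG J S M := by
  by_cases hNS : NS2 J S M
  · left
    intro g hg
    exact ns2_kron hm (by omega) h2 J hJ hdetJ S hS hdetS M hSp hH hNS g hg
  · right
    obtain ⟨u₀, hu₀, hu₀u₀⟩ := sing_exists (by omega) h2 S hS hdetS
    exact Cfsg.Agent.Helper71.SGV1.tvp_of_not_ns2 h2 J hJ hdetJ S hS hdetS M hSp hH hNS
      (fun a a' ha ha' => alt_trans h2 J hJ hdetJ a a' ha ha')
      (fun u u' hu hu' huu hu'u' =>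
        Cfsg.Agent.Helper11.SOTR.sing_trans h2 S hS hdetS u u' hu hu' huu hu'u')
      (fun a D D' h h' => nz_add h2 J hJ M a D D' h h')
      (fun a D c ha h => nz_smul h2 J hJ S M hH
        (fun a a' ha ha' => alt_trans h2 J hJ hdetJ a a' ha ha') a ha D h c)
      (fun a D B B' hB hBB' h => nz_conj J S M hH a D B B' hB hBB' h)
      (fun a D ha h => nz_sym h2 J hJ hdetJ S hS a ha D h)
      (fun D hsym hns => quadric_nonscalar hn h2 S hS hdetS u₀ hu₀ hu₀u₀ D hsym hns)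
      (fun U hadd hsmul hconj D hD u hu huu huD =>
        quadric_lemma hn h2 S hS hdetS U hadd hsmul hconj D hD u hu huu huD)

/-- There is no invertible alternating matrix of odd size (`2 ≠ 0`). -/
theorem alt_odd (h2 : (2 : F) ≠ 0) (k : ℕ) (hk : Odd k) (J : Matrix (Fin k) (Fin k) F)
    (hJ : Jᵀ = -J) (hdet : J.det ≠ 0) : False := by
  have h := congrArg Matrix.det hJ
  rw [Matrix.det_transpose, Matrix.det_neg, Fintype.card_fin, hk.neg_one_pow] at h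
  have h3 : 2 * J.det = 0 := by linear_combination h
  exact hdet ((mul_eq_zero.mp h3).resolve_left h2)

/-- **`Sp_k(q) ⊗ O_n(q)` is maximal in `Sp_{kn}(q)`** (`q` odd, `k ≠ 2`, `n ≥ 4`). -/
theorem spkn_tensor_max {F : Type*} [Field F] [Fintype F] (m k n : ℕ) (hk : k ≠ 0)
    (hk2 : k ≠ 2) (hn : 4 ≤ n) (hodd : Odd (Fintype.card F))
    (e : (Fin m ⊕ Fin m) ≃ Fin k × Fin n) (P : Matrix.GeneralLinearGroup (Fin m ⊕ Fin m) F)
    (f₁ : (Fin k → F) → (Fin k → F) → F) (f₂ : (Fin n → F) → (Fin n → F) → F)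
    (h₁ : Cfsg.Geo.IsSymplecticForm f₁) (h₂ : Cfsg.Geo.IsSymmetricForm f₂)
    (hT : Cfsg.Geo.IsTensorFormStructure id (Cfsg.sympForm m F) f₁ f₂ e P) :
    Cfsg.Geo.IsMaximalIn (Cfsg.spGL m F)
      (Cfsg.Geo.tensorProductSubgroup k n e P ⊓ Cfsg.spGL m F) := by
  have h2 : (2 : F) ≠ 0 := by
    intro h
    have hch : ringChar F = 2 := by
      have := (CharP.cast_eq_zero_iff F (ringChar F) 2).mp (by exact_mod_cast h)
      exact (Nat.prime_dvd_prime_iff_eq (CharP.char_is_prime F _) Nat.prime_two).mp this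
    have hdvd : ringChar F ∣ Fintype.card F := by
      obtain ⟨k, hk⟩ := FiniteField.card F (ringChar F)
      rw [hk.2]
      exact dvd_pow_self _ (PNat.ne_zero k)
    rw [hch] at hdvd
    exact (Nat.not_even_iff_odd.mpr hodd) (even_iff_two_dvd.mpr hdvd)
  refine red m k n (by omega) hodd e P f₁ f₂ h₁ h₂ hT
    (fun J S hJ hdetJ hS hdetS M hSp hH => ?_) ?_ hk
  · by_cases hk4 : 4 ≤ k
    · exact main_gen hk4 hn h2 J hJ hdetJ S hS hdetS M hSp hH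
    · exfalso
      have hko : Odd k := by
        have h13 : k = 1 ∨ k = 3 := by omega
        rcases h13 with rfl | rfl
        · exact odd_one
        · exact ⟨1, rfl⟩
      exact alt_odd h2 k hko J hJ hdetJ
  · intro J S hJ hdetJ hS hdetS C hC1 hC3
    obtain ⟨s₀, hs₀, hs₀s₀⟩ := sing_exists (by omega) h2 S hS hdetS
    exact centres_all h2 (by omega) J hJ hdetJ S hS hdetS s₀ hs₀ hs₀s₀ C hC1 hC3

end Cfsg.Agent.Helper71.SGMain
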