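import Cfsg.Agent.Helper94.SpLag2
import Cfsg.Agent.Helper94.SpOrth

/-!
# Copies of two maximality theorems of Helper94 with weaker rank bounds

`sp_lag_max_low` (rank at least 3) and `sp_orth_max_low` (rank at least 4): the proofs are those of
`Helper94.sp_lag_max` and `Helper94.sp_orth_max`, whose lemmas never needed more.
-/

set_option autoImplicit false

namespace Cfsg.Agent.Helper71.SpLowA

open Cfsg Cfsg.Geo Matrix Cfsg.Agent.Helper94

universe u

variable {F : Type u} [Field F] {m : ℕ}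

/-- For odd `q`, the stabiliser in `Sp` of a pair of complementary totally isotropic subspaces is maximal. -/
theorem sp_lag_max_low [Fintype F] (hm : 3 ≤ m) (hodd : Odd (Fintype.card F))
    (D : Fin 2 → Submodule F (Fin m ⊕ Fin m → F)) (hD : IsMDecomposition m D)
    (hts : ∀ i, IsTotallySingularFor (sympForm m F) (D i)) :
    IsMaximalIn (spGL m F) (decompositionStabilizer D ⊓ spGL m F) := by
  have h2 : (2 : F) ≠ 0 := two_ne_zero_of_odd_card hodd
  have hp : LagPair (D 0) (D 1) := by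
    refine ⟨hts 0, hts 1, ?_, ?_⟩
    · have hdisj : Disjoint (D 0) (D 1) := hD.indep.pairwiseDisjoint (by decide)
      exact fun x hx hx' => Submodule.disjoint_def.mp hdisj x hx hx'
    · have htop : D 0 ⊔ D 1 = ⊤ := by
        rw [eq_top_iff, ← hD.iSup_eq_top]
        refine iSup_le (fun i => ?_)
        fin_cases i
        · exact le_sup_left
        · exact le_sup_right
      intro v
      have hv : v ∈ D 0 ⊔ D 1 := by rw [htop]; exact Submodule.mem_top
      obtain ⟨a, ha, b, hb, hab⟩ := Submodule.mem_sup.mp hv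
      exact ⟨a, ha, b, hb, hab.symm⟩
  obtain ⟨s, hsS, hs01, hs10⟩ := lag_swap hp
  have hsH : s ∈ decompositionStabilizer D ⊓ spGL m F :=
    Subgroup.mem_inf.mpr ⟨stab2_swap_of_maps D hD.finrank_eq s hs01 hs10, hsS⟩
  have hH0 : ∀ u ∈ D 0, ∀ w ∈ D 1, sympForm m F u w = 0 →
      eichGL u w ∈ decompositionStabilizer D ⊓ spGL m F := by
    intro u hu w hw huw
    have hwu : sympForm m F w u = 0 := by rw [sf_swap, huw, neg_zero]
    refine Subgroup.mem_inf.mpr ⟨stab2_of_maps D hD.finrank_eq _ (fun x hx => ?_) (fun x hx => ?_),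
      eichGL_mem _ _⟩
    · rw [eichGL_mulVec u w hwu, hp.isoA x hx u hu, zero_smul, add_zero]
      exact (D 0).add_mem hx ((D 0).smul_mem _ hu)
    · rw [eichGL_mulVec u w hwu, hp.isoB x hx w hw, zero_smul, add_zero]
      exact (D 1).add_mem hx ((D 1).smul_mem _ hw)
  constructor
  · rw [SetLike.lt_iff_le_and_exists]
    refine ⟨inf_le_right, ?_⟩
    obtain ⟨u, hu, hu0⟩ : ∃ u ∈ D 0, u ≠ 0 := by
      apply Submodule.exists_mem_ne_zero_of_ne_bot
      intro hbot
      have := hD.finrank_eq 0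
      rw [hbot, finrank_bot] at this
      omega
    obtain ⟨w, hw, hne⟩ := hp.exists_ne u hu hu0
    refine ⟨stGL u 1, stGL_mem u 1, fun hmem => ?_⟩
    rcases stab2_cases D _ (Subgroup.mem_inf.mp hmem).1 with ⟨k0, k1⟩ | ⟨k0, k1⟩
    · have := k1 w hw
      rw [stGL_mulVec, one_mul] at this
      have h3 : sympForm m F w u • u ∈ D 1 := by
        have := (D 1).sub_mem this hw
        rwa [add_sub_cancel_left] at this
      have hwu : sympForm m F w u ≠ 0 := by rw [sf_swap]; exact neg_ne_zero.mpr hne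
      have h4 : u ∈ D 1 := by
        have := (D 1).smul_mem (sympForm m F w u)⁻¹ h3
        rwa [smul_smul, inv_mul_cancel₀ hwu, one_smul] at this
      exact hu0 (hp.disj u hu h4)
    · have := k0 u hu
      rw [stGL_mulVec, sf_self, mul_zero, zero_smul, add_zero] at this
      exact hu0 (hp.disj u hu this)
  · intro K hHK hKS
    by_cases hKH : K = decompositionStabilizer D ⊓ spGL m F
    · exact Or.inl hKH
    right
    refine le_antisymm hKS ?_
    obtain ⟨g, hgK, hgH⟩ := SetLike.exists_of_lt (lt_of_le_of_ne hHK (Ne.symm hKH))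
    have hKimg : ∀ k ∈ K, ∀ a ∈ (D 0).map (Matrix.toLin' (k : Matrix (Fin m ⊕ Fin m) (Fin m ⊕ Fin m) F)),
        ∀ b ∈ (D 1).map (Matrix.toLin' (k : Matrix (Fin m ⊕ Fin m) (Fin m ⊕ Fin m) F)),
        sympForm m F a b = 0 → eichGL a b ∈ K := by
      intro k hk a ha b hb hab
      rw [mem_map_gl] at ha hb
      have hkS := hKS hk
      have h0 : sympForm m F (((k⁻¹ : GL (Fin m ⊕ Fin m) F) : Matrix (Fin m ⊕ Fin m) (Fin m ⊕ Fin m) F) *ᵥ a)
          (((k⁻¹ : GL (Fin m ⊕ Fin m) F) : Matrix (Fin m ⊕ Fin m) (Fin m ⊕ Fin m) F) *ᵥ b) = 0 := by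
        rw [sp_apply (inv_mem hkS)]
        exact hab
      have h1 := hHK (hH0 _ ha _ hb h0)
      have h3 := K.mul_mem (K.mul_mem hk h1) (K.inv_mem hk)
      rwa [eichGL_conj hkS, gl_mulVec_inv, gl_mulVec_inv] at h3
    have claim : ∀ k ∈ K, k ∉ decompositionStabilizer D ⊓ spGL m F →
        ((∃ x, x ≠ 0 ∧ x ∈ D 0 ∧ x ∈ (D 0).map (Matrix.toLin' (k : Matrix (Fin m ⊕ Fin m) (Fin m ⊕ Fin m) F))) ∨
         (∃ x, x ≠ 0 ∧ x ∈ D 1 ∧ x ∈ (D 0).map (Matrix.toLin' (k : Matrix (Fin m ⊕ Fin m) (Fin m ⊕ Fin m) F)))) →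
        ∃ a b, eichGL a b ∈ K ∧ sympForm m F a b = 0 ∧ a ≠ 0 ∧
          ((a ∈ D 0 ∧ b ∉ D 1) ∨ (a ∈ D 1 ∧ b ∉ D 0)) := by
      intro k hk hkH hcase
      have hkS := hKS hk
      have hp' := lag_map hp hkS
      rcases hcase with ⟨x, hx0, hx, hx'⟩ | ⟨x, hx0, hx, hx'⟩
      · refine lag_nongeneric (by omega) hp hp' K (hKimg k hk) x hx hx' hx0 ?_
        rintro ⟨e0, e1⟩
        apply hkH
        refine Subgroup.mem_inf.mpr ⟨⟨1, fun i => ?_⟩, hkS⟩
        fin_cases i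
        · simpa using e0
        · simpa using e1
      · have hne : ¬ ((D 0).map (Matrix.toLin' (k : Matrix (Fin m ⊕ Fin m) (Fin m ⊕ Fin m) F)) = D 1 ∧
            (D 1).map (Matrix.toLin' (k : Matrix (Fin m ⊕ Fin m) (Fin m ⊕ Fin m) F)) = D 0) := by
          rintro ⟨e0, e1⟩
          apply hkH
          refine Subgroup.mem_inf.mpr ⟨⟨Equiv.swap 0 1, fun i => ?_⟩, hkS⟩
          fin_cases i
          · simpa using e0
          · simpa using e1
        obtain ⟨a, b, h1, h2', h3, h4⟩ := lag_nongeneric (by omega) hp.symm hp' K (hKimg k hk) x hx hx' hx0 hne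
        exact ⟨a, b, h1, h2', h3, h4.symm⟩
    have hgood : ∃ a b, eichGL a b ∈ K ∧ sympForm m F a b = 0 ∧ a ≠ 0 ∧
        ((a ∈ D 0 ∧ b ∉ D 1) ∨ (a ∈ D 1 ∧ b ∉ D 0)) := by
      have hgS := hKS hgK
      by_cases hc : (∃ x, x ≠ 0 ∧ x ∈ D 0 ∧
            x ∈ (D 0).map (Matrix.toLin' (g : Matrix (Fin m ⊕ Fin m) (Fin m ⊕ Fin m) F))) ∨
          (∃ x, x ≠ 0 ∧ x ∈ D 1 ∧ x ∈ (D 0).map (Matrix.toLin' (g : Matrix (Fin m ⊕ Fin m) (Fin m ⊕ Fin m) F)))
      · exact claim g hgK hgH hc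
      · push Not at hc
        obtain ⟨hc1, hc2⟩ := hc
        have hp' := lag_map hp hgS
        obtain ⟨u, hu, w, hw, huw, ⟨x₁, hx₁, hx₁n⟩, ⟨x₂, hx₂, hx₂0, hx₂f⟩⟩ := lag_generic (by omega) hp hp'
          (fun x hx hx' => by
            by_contra h0
            exact hc1 x h0 hx hx')
          (fun x hx hx' => by
            by_contra h0
            exact hc2 x h0 hx hx')
        have hh : eichGL u w ∈ K := hHK (hH0 u hu w hw huw)
        have hk : g⁻¹ * eichGL u w * g ∈ K := K.mul_mem (K.mul_mem (K.inv_mem hgK) hh) hgK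
        apply claim _ hk
        · intro hkH
          rcases stab2_cases D _ (Subgroup.mem_inf.mp hkH).1 with ⟨k0, k1⟩ | ⟨k0, k1⟩
          · apply hx₁n
            rw [mem_map_gl] at hx₁ ⊢
            have := k0 _ hx₁
            rw [gl_mul_mulVec, gl_mul_mulVec, gl_mulVec_inv] at this
            exact this
          · apply hx₂0
            have hx₂' := hx₂
            rw [mem_map_gl] at hx₂'
            have := k0 _ hx₂'
            rw [gl_mul_mulVec, gl_mul_mulVec, gl_mulVec_inv, hx₂f] at this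
            exact hp'.disj x₂ hx₂ ((mem_map_gl g (D 1) x₂).mpr this)
        · left
          refine ⟨((g⁻¹ : GL (Fin m ⊕ Fin m) F) : Matrix (Fin m ⊕ Fin m) (Fin m ⊕ Fin m) F) *ᵥ x₂, ?_, ?_, ?_⟩
          · intro h0
            have e := gl_mulVec_inv g x₂
            rw [h0, mulVec_zero] at e
            exact hx₂0 e.symm
          · exact (mem_map_gl g (D 0) x₂).mp hx₂
          · refine Submodule.mem_map.mpr ⟨_, (mem_map_gl g (D 0) x₂).mp hx₂, ?_⟩
            rw [Matrix.toLin'_apply, gl_mul_mulVec, gl_mul_mulVec, gl_mulVec_inv, hx₂f]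
    obtain ⟨a, b, hρ, hab, ha0, hcase⟩ := hgood
    have hK0 : ∀ u ∈ D 0, ∀ w ∈ D 1, sympForm m F u w = 0 → eichGL u w ∈ K :=
      fun u hu w hw huw => hHK (hH0 u hu w hw huw)
    have hK1 : ∀ u ∈ D 1, ∀ w ∈ D 0, sympForm m F u w = 0 → eichGL u w ∈ K := by
      intro u hu w hw huw
      have hwu : sympForm m F w u = 0 := by rw [sf_swap, huw, neg_zero]
      rw [eichGL_symm u w hwu]
      exact hK0 w hw u hu hwu
    have hsK : s ∈ K := hHK hsH
    have hboth : (∀ x ∈ D 0, x ∈ tvCentres K) ∧ (∀ x ∈ D 1, x ∈ tvCentres K) := by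
      rcases hcase with ⟨ha, hb⟩ | ⟨ha, hb⟩
      · have h0 := lag_centres h2 (by omega) hp K hK0 a b ha ha0 hab hb hρ
        refine ⟨h0, fun x hx => ?_⟩
        have := tvCentres_map K (K.inv_mem hsK) (inv_mem hsS) (h0 _ (hs10 x hx))
        rwa [gl_inv_mulVec] at this
      · have h1 := lag_centres h2 (by omega) hp.symm K hK1 a b ha ha0 hab hb hρ
        refine ⟨fun x hx => ?_, h1⟩
        have := tvCentres_map K (K.inv_mem hsK) (inv_mem hsS) (h1 _ (hs01 x hx))
        rwa [gl_inv_mulVec] at this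
    apply spGL_le_of_tvCentres
    intro v
    obtain ⟨a', ha', b', hb', rfl⟩ := hp.dec v
    by_cases ha'0 : a' = 0
    · rw [ha'0, zero_add]
      exact hboth.2 _ hb'
    obtain ⟨b₂, hb₂, hne⟩ := hp.exists_ne a' ha' ha'0
    by_cases hab' : sympForm m F a' b' ≠ 0
    · have := tvCentres_line K (hboth.1 _ ha') (hboth.2 _ hb') hab' 1 1
      rwa [one_smul, one_smul] at this
    · push Not at hab'
      have h1 := tvCentres_line K (hboth.1 _ ha') (hboth.2 _ hb₂) hne 1 1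
      rw [one_smul, one_smul] at h1
      have h3 : sympForm m F (a' + b₂) (b' - b₂) ≠ 0 := by
        rw [sf_add_left, sf_sub_right, sf_sub_right, hab', hp.isoB b₂ hb₂ b' hb', sf_self]
        simpa using hne
      have := tvCentres_line K h1 (hboth.2 _ (Submodule.sub_mem _ hb' hb₂)) h3 1 1
      rw [one_smul, one_smul] at this
      have e : a' + b₂ + (b' - b₂) = a' + b' := by abel
      rwa [e] at this

/-- In characteristic two, the isometry group of a non-degenerate quadratic form is a maximal subgroup of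
the symplectic group of its polar form. -/
theorem sp_orth_max_low [Fintype F] (hm : 4 ≤ m) (heven : ¬ Odd (Fintype.card F))
    (Q : (Fin m ⊕ Fin m → F) → F) (hQ0 : IsNondegenerateQuadraticForm Q)
    (hpol : ∀ u v, QuadraticMap.polar Q u v = sympForm m F u v) :
    IsMaximalIn (spGL m F) (quadSimilarityGroup Q ⊓ spGL m F) := by
  have hQ := qs_of heven hQ0 hpol
  refine ⟨qs_lt hQ (by omega), fun K hHK hKS => ?_⟩
  by_cases hKH : K = quadSimilarityGroup Q ⊓ spGL m F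
  · exact Or.inl hKH
  right
  refine le_antisymm hKS ?_
  obtain ⟨g₀, hg₀K, hg₀H⟩ := SetLike.exists_of_lt (lt_of_le_of_ne hHK (Ne.symm hKH))
  obtain ⟨a₀, φ₀, hq₀, hv₀⟩ := qs_cocycle hQ (hKS hg₀K)
  have ha₀ : a₀ ≠ 0 := by
    rintro rfl
    apply hg₀H
    exact qs_isom_mem (hKS hg₀K) (fun v => by rw [hv₀, sf_zero_left]; ring)
  obtain ⟨s₀, hs₀⟩ := qs_exists_s a₀ φ₀ hq₀
  have hτ₀ : stGL a₀ s₀ ∈ K := by
    have h1 := hHK (qs_quot hQ (hKS hg₀K) a₀ hv₀ s₀ hs₀)
    have h2 := K.mul_mem (K.inv_mem h1) hg₀K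
    rwa [_root_.mul_inv_rev, inv_inv, inv_mul_cancel_right] at h2
  have conj : ∀ (a : Fin m ⊕ Fin m → F) (s : F) (b : Fin m ⊕ Fin m → F), a ≠ 0 → b ≠ 0 → Q b = Q a →
      stGL a s ∈ K → stGL b s ∈ K := by
    intro a s b ha hb hq hτ
    obtain ⟨h, hh, e⟩ := qs_witt hQ (by omega) a b ha hb hq.symm
    have := K.mul_mem (K.mul_mem (hHK hh) hτ) (K.inv_mem (hHK hh))
    rwa [stGL_conj (Subgroup.mem_inf.mp hh).2, e] at this
  have step : ∀ ψ : F, ψ ≠ 0 → ∃ (z : Fin m ⊕ Fin m → F) (s' : F), z ≠ 0 ∧ Q z = ψ ^ 2 + ψ ∧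
      s' + s' ^ 2 * Q z = 1 ∧ stGL z s' ∈ K := by
    intro ψ hψ
    obtain ⟨y₁, hy₁⟩ := sf_exists_ne a₀ ha₀
    obtain ⟨y₀, hy₀⟩ : ∃ y₀, sympForm m F a₀ y₀ = ψ :=
      ⟨(ψ / sympForm m F a₀ y₁) • y₁, by rw [sf_smul_right]; field_simp⟩
    classical
    have hfin : Module.finrank F
        (Submodule.span F ((({a₀, y₀} : Finset (Fin m ⊕ Fin m → F))) : Set (Fin m ⊕ Fin m → F))) < m :=
      lt_of_le_of_lt (le_trans (finrank_span_finset_le_card _) Finset.card_le_two) (by omega)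
    obtain ⟨u₀, hu₀, -, hQu₀⟩ := qs_exists_nonsing hQ _ hfin
    obtain ⟨l, hl⟩ := hQ.sq ((Q a₀ + Q y₀) / Q u₀)
    have hl' : l ^ 2 * Q u₀ = Q a₀ + Q y₀ := by rw [hl]; field_simp
    have hau : sympForm m F a₀ u₀ = 0 := hu₀ a₀ (Submodule.subset_span (by simp))
    have hyu : sympForm m F y₀ u₀ = 0 := hu₀ y₀ (Submodule.subset_span (by simp))
    obtain ⟨y, hydef⟩ : ∃ y, y = y₀ + l • u₀ := ⟨_, rfl⟩
    have hQy : Q y = Q a₀ := by
      rw [hydef, hQ.add, hQ.smul, hl', sf_smul_right, hyu]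
      linear_combination (Q y₀) * hQ.two
    have hfy : sympForm m F a₀ y = ψ := by
      rw [hydef, sf_add_right, sf_smul_right, hau, mul_zero, add_zero, hy₀]
    have hy : y ≠ 0 := by
      rintro rfl
      rw [sf_zero_right] at hfy
      exact hψ hfy.symm
    have hτy : stGL y s₀ ∈ K := conj a₀ s₀ y ha₀ hy hQy hτ₀
    have hgK : stGL a₀ s₀ * stGL y s₀ ∈ K := K.mul_mem hτ₀ hτy
    obtain ⟨z, hz⟩ : ∃ z, z = a₀ + (1 + s₀ * ψ) • y := ⟨_, rfl⟩
    have hQz : Q z = ψ ^ 2 + ψ := by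
      rw [hz, hQ.add, hQ.smul, sf_smul_right, hfy, hQy]
      linear_combination (Q a₀ + s₀ * ψ * Q a₀) * hQ.two + ψ ^ 2 * hs₀
    have hzne : z ≠ 0 := by
      intro h0
      have : sympForm m F z y = ψ := by
        rw [hz, sf_add_left, sf_smul_left, sf_self, mul_zero, add_zero, hfy]
      rw [h0, sf_zero_left] at this
      exact hψ this.symm
    have hgz : ∀ v, Q (((stGL a₀ s₀ * stGL y s₀ : GL (Fin m ⊕ Fin m) F) :
        Matrix (Fin m ⊕ Fin m) (Fin m ⊕ Fin m) F) *ᵥ v) = Q v + (sympForm m F z v) ^ 2 := by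
      intro v
      have hA : sympForm m F (((stGL y s₀ : GL (Fin m ⊕ Fin m) F) :
          Matrix (Fin m ⊕ Fin m) (Fin m ⊕ Fin m) F) *ᵥ v) a₀ =
          sympForm m F v a₀ - s₀ * sympForm m F v y * ψ := by
        rw [stGL_mulVec, sf_add_left, sf_smul_left, sf_swap y a₀, hfy]; ring
      have hZ : sympForm m F z v = - sympForm m F v a₀ - (1 + s₀ * ψ) * sympForm m F v y := by
        rw [hz, sf_add_left, sf_smul_left, sf_swap a₀ v, sf_swap y v]; ring
      rw [gl_mul_mulVec, qs_tv hQ a₀ s₀, qs_tv hQ y s₀ v, hQy, hs₀, hA, hZ]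
      linear_combination (-(2 * s₀ * ψ * sympForm m F v a₀ * sympForm m F v y +
        sympForm m F v a₀ * sympForm m F v y + s₀ * ψ * (sympForm m F v y) ^ 2)) * hQ.two
    obtain ⟨s', hs'⟩ := qs_exists_s z ψ hQz
    refine ⟨z, s', hzne, hQz, hs', ?_⟩
    have h1 := hHK (qs_quot hQ (hKS hgK) z hgz s' hs')
    have h2 := K.mul_mem (K.inv_mem h1) hgK
    rwa [_root_.mul_inv_rev, inv_inv, inv_mul_cancel_right] at h2
  have all : ∀ (b : Fin m ⊕ Fin m → F) (φ : F), b ≠ 0 → Q b = φ ^ 2 + φ →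
      ∃ s : F, s + s ^ 2 * Q b = 1 ∧ stGL b s ∈ K := by
    intro b φ hb hqb
    have : ∃ ψ : F, ψ ≠ 0 ∧ Q b = ψ ^ 2 + ψ := by
      by_cases hφ : φ = 0
      · refine ⟨1, one_ne_zero, ?_⟩
        rw [hqb, hφ]
        linear_combination (-1 : F) * hQ.two
      · exact ⟨φ, hφ, hqb⟩
    obtain ⟨ψ, hψ, hqb'⟩ := this
    obtain ⟨z, s', hz, hQz, hs', hτ⟩ := step ψ hψ
    refine ⟨s', ?_, conj z s' b hz hb (hqb'.trans hQz.symm) hτ⟩
    rw [hqb', ← hQz]
    exact hs'
  intro g hg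
  obtain ⟨a, φ, hq, hv⟩ := qs_cocycle hQ hg
  by_cases ha : a = 0
  · subst ha
    exact hHK (qs_isom_mem hg (fun v => by rw [hv, sf_zero_left]; ring))
  · obtain ⟨s, hs, hτ⟩ := all a φ ha hq
    have h1 := hHK (qs_quot hQ hg a hv s hs)
    have := K.mul_mem h1 hτ
    rwa [inv_mul_cancel_right] at this

end Cfsg.Agent.Helper71.SpLowA
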