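import Mathlib
import Cfsg.Prelude.Def_GeometricClasses
import Cfsg.Agent.Helper98.SU3

/-!
# The unitary overfield subgroups of the symplectic group: rank at least five

A copy of `Helper98.su_unitary_max` with the bound on the rank lowered from seven to five. The only
lemma that needed more room, the common non-singular neighbour of two non-singular vectors, is
proved again in dimension at least ten; the rest is the text of Helper98 with the bound changed.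
-/

set_option autoImplicit false
set_option linter.unusedSectionVars false
set_option linter.unusedVariables false
set_option linter.unusedSimpArgs false

universe u

namespace Cfsg.Agent.Helper71.SpLowC

open Matrix Cfsg Cfsg.Geo Cfsg.Agent.Helper45 Cfsg.Agent.Helper94 Cfsg.Agent.Helper98

section OC

variable {ι : Type} [Fintype ι] [DecidableEq ι] {F : Type u} [Field F] [Fintype F]
  (Q : QuadraticForm F (ι → F))

variable {ω : (ι → F) →ₗ[F] (ι → F)} {τ ν : F}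

/-- A common non-singular "neighbour" of two non-singular vectors (dimension at least ten). -/
theorem oc_exists_x3_low (hQ : (QuadraticMap.polarBilin Q).Nondegenerate) (h2 : (2 : F) ≠ 0)
    (hn : 10 ≤ Fintype.card ι) (hd : OcData Q ω τ ν) (x₁ x₂ : ι → F) (h1 : Q x₁ ≠ 0)
    (h2' : Q x₂ ≠ 0) :
    ∃ x₃, Q x₃ ≠ 0 ∧ x₃ ∉ ocK ω x₁ ∧ x₃ ∉ ocK ω x₂ ∧ QuadraticMap.polar ⇑Q x₁ x₃ ≠ 0 ∧ QuadraticMap.polar ⇑Q x₂ x₃ ≠ 0 := by
  have h11 : QuadraticMap.polar ⇑Q x₁ x₁ ≠ 0 := by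
    rw [Helper44.polar_self_eq]
    exact mul_ne_zero h2 h1
  have h22 : QuadraticMap.polar ⇑Q x₂ x₂ ≠ 0 := by
    rw [Helper44.polar_self_eq]
    exact mul_ne_zero h2 h2'
  obtain ⟨c, hcS, hc1, hc2⟩ : ∃ c ∈ ocK ω x₁ ⊔ ocK ω x₂, QuadraticMap.polar ⇑Q x₁ c ≠ 0 ∧ QuadraticMap.polar ⇑Q x₂ c ≠ 0 := by
    by_cases h : QuadraticMap.polar ⇑Q x₂ x₁ = 0
    · refine ⟨x₁ + x₂, Submodule.add_mem _ (Submodule.mem_sup_left (oc_self_mem_K ω x₁))
        (Submodule.mem_sup_right (oc_self_mem_K ω x₂)), ?_, ?_⟩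
      · rw [QuadraticMap.polar_add_right, QuadraticMap.polar_comm ⇑Q x₁ x₂, h, add_zero]
        exact h11
      · rw [QuadraticMap.polar_add_right, h, zero_add]
        exact h22
    · exact ⟨x₁, Submodule.mem_sup_left (oc_self_mem_K ω x₁), h11, h⟩
  obtain ⟨E, hE⟩ : ∃ E : Submodule F (ι → F), E = ⊤ ⊓ perpSub Q x₁ ⊓ perpSub Q (ω x₁) ⊓
      perpSub Q x₂ ⊓ perpSub Q (ω x₂) := ⟨_, rfl⟩
  have hEdim : Fintype.card ι ≤ Module.finrank F E + 4 := by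
    have e1 := finrank_inf_perpSub_ge Q ⊤ x₁
    have e2 := finrank_inf_perpSub_ge Q (⊤ ⊓ perpSub Q x₁) (ω x₁)
    have e3 := finrank_inf_perpSub_ge Q (⊤ ⊓ perpSub Q x₁ ⊓ perpSub Q (ω x₁)) x₂
    have e4 := finrank_inf_perpSub_ge Q (⊤ ⊓ perpSub Q x₁ ⊓ perpSub Q (ω x₁) ⊓ perpSub Q x₂)
      (ω x₂)
    have e0 : Module.finrank F ↥(⊤ : Submodule F (ι → F)) = Fintype.card ι := by
      rw [finrank_top, Module.finrank_fintype_fun_eq_card]
    rw [hE]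
    omega
  have hEmem : ∀ e ∈ E, QuadraticMap.polar ⇑Q x₁ e = 0 ∧ QuadraticMap.polar ⇑Q (ω x₁) e = 0 ∧ QuadraticMap.polar ⇑Q x₂ e = 0 ∧ QuadraticMap.polar ⇑Q (ω x₂) e = 0 := by
    intro e he
    rw [hE] at he
    obtain ⟨he, he4⟩ := Submodule.mem_inf.mp he
    obtain ⟨he, he3⟩ := Submodule.mem_inf.mp he
    obtain ⟨he, he2⟩ := Submodule.mem_inf.mp he
    obtain ⟨he, he1⟩ := Submodule.mem_inf.mp he
    exact ⟨(mem_perpSub Q _ _).mp he1, (mem_perpSub Q _ _).mp he2, (mem_perpSub Q _ _).mp he3,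
      (mem_perpSub Q _ _).mp he4⟩
  have hS : Module.finrank F ↥(ocK ω x₁ ⊔ ocK ω x₂) ≤ 4 := by
    have e1 := Submodule.finrank_add_le_finrank_add_finrank (ocK ω x₁) (ocK ω x₂)
    have e2 := oc_finrank_K_le ω x₁
    have e3 := oc_finrank_K_le ω x₂
    omega
  have hSE : ∀ s ∈ ocK ω x₁ ⊔ ocK ω x₂, ∀ e ∈ E, QuadraticMap.polar ⇑Q s e = 0 := by
    intro s hs e he
    obtain ⟨g1, g2, g3, g4⟩ := hEmem e he
    obtain ⟨s₁, hs₁, s₂, hs₂, rfl⟩ := Submodule.mem_sup.mp hs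
    rw [QuadraticMap.polar_add_left, oc_K_perp Q x₁ s₁ hs₁ _ g1 g2, oc_K_perp Q x₂ s₂ hs₂ _ g3 g4,
      add_zero]
  obtain ⟨e, heE, heS, heQ⟩ : ∃ e ∈ E, e ∉ ocK ω x₁ ⊔ ocK ω x₂ ∧ Q c + Q e ≠ 0 := by
    by_cases hcQ : Q c = 0
    · obtain ⟨e, heE, heQ⟩ := oc_exists_nonsing Q hQ E (by omega)
      refine ⟨e, heE, ?_, by rw [hcQ, zero_add]; exact heQ⟩
      intro heS
      have k3 := hSE e heS e heE
      rw [Helper44.polar_self_eq] at k3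
      rcases mul_eq_zero.mp k3 with k4 | k4
      · exact h2 k4
      · exact heQ k4
    · obtain ⟨e₀, he₀E, he₀S⟩ : ∃ e₀ ∈ E, e₀ ∉ ocK ω x₁ ⊔ ocK ω x₂ := by
        by_contra hcon
        push Not at hcon
        have hle : E ≤ ocK ω x₁ ⊔ ocK ω x₂ := fun e he => hcon e he
        have := Submodule.finrank_mono hle
        omega
      have he₀0 : e₀ ≠ 0 := by
        rintro rfl
        exact he₀S (Submodule.zero_mem _)
      by_cases hq0 : Q c + Q e₀ ≠ 0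
      · exact ⟨e₀, he₀E, he₀S, hq0⟩
      push Not at hq0
      obtain ⟨e₁, he₁E, he₁S⟩ : ∃ e₁ ∈ E, e₁ ∉ (ocK ω x₁ ⊔ ocK ω x₂) ⊔ Submodule.span F {e₀} := by
        by_contra hcon
        push Not at hcon
        have hle : E ≤ (ocK ω x₁ ⊔ ocK ω x₂) ⊔ Submodule.span F {e₀} := fun e he => hcon e he
        have h3 := Submodule.finrank_mono hle
        have h4 := Submodule.finrank_add_le_finrank_add_finrank (ocK ω x₁ ⊔ ocK ω x₂)
          (Submodule.span F {e₀})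
        have h5 := finrank_span_singleton (K := F) he₀0
        omega
      by_cases hq1 : Q c + Q e₁ ≠ 0
      · exact ⟨e₁, he₁E, fun h => he₁S (Submodule.mem_sup_left h), hq1⟩
      push Not at hq1
      by_cases hq2 : Q c + Q (e₀ + e₁) ≠ 0
      · refine ⟨e₀ + e₁, E.add_mem he₀E he₁E, fun h => he₁S ?_, hq2⟩
        have e' : e₁ = (e₀ + e₁) - e₀ := by abel
        rw [e']
        exact Submodule.sub_mem _ (Submodule.mem_sup_left h)
          (Submodule.mem_sup_right (Submodule.mem_span_singleton_self e₀))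
      push Not at hq2
      refine ⟨e₀ + -e₁, E.add_mem he₀E (E.neg_mem he₁E), fun h => he₁S ?_, ?_⟩
      · have e' : e₁ = e₀ - (e₀ + -e₁) := by abel
        rw [e']
        exact Submodule.sub_mem _ (Submodule.mem_sup_right (Submodule.mem_span_singleton_self e₀))
          (Submodule.mem_sup_left h)
      · intro hq3
        rw [Helper13.Q_add', QuadraticMap.map_neg, QuadraticMap.polar_neg_right] at hq3
        rw [Helper13.Q_add'] at hq2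
        have h3 : 2 * Q c = 0 := by linear_combination 2 * hq0 + 2 * hq1 - hq2 - hq3
        exact hcQ ((mul_eq_zero.mp h3).resolve_left h2)
  obtain ⟨g1, g2, g3, g4⟩ := hEmem _ heE
  have g5 := hSE c hcS e heE
  refine ⟨c + e, ?_, ?_, ?_, ?_, ?_⟩
  · rw [Helper13.Q_add', g5, add_zero]
    exact heQ
  · intro h
    apply heS
    have := Submodule.sub_mem _ (Submodule.mem_sup_left h : c + e ∈ ocK ω x₁ ⊔ ocK ω x₂) hcS
    rwa [add_sub_cancel_left] at this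
  · intro h
    apply heS
    have := Submodule.sub_mem _ (Submodule.mem_sup_right h : c + e ∈ ocK ω x₁ ⊔ ocK ω x₂) hcS
    rwa [add_sub_cancel_left] at this
  · rw [QuadraticMap.polar_add_right, g1, add_zero]
    exact hc1
  · rw [QuadraticMap.polar_add_right, g3, add_zero]
    exact hc2

theorem oc_exists_good_ns_low (hQ : (QuadraticMap.polarBilin Q).Nondegenerate) (h2 : (2 : F) ≠ 0)
    (hn : 10 ≤ Fintype.card ι) (hd : OcData Q ω τ ν) (ω' : (ι → F) →ₗ[F] (ι → F))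
    (hne : ¬∃ a b : F, ∀ x, ω' x = a • x + b • ω x) : ∃ u, Q u ≠ 0 ∧ ω' u ∉ ocK ω u := by
  by_contra hcon
  push Not at hcon
  have h0 : Module.finrank F ↥(⊤ : Submodule F (ι → F)) = Fintype.card ι := by
    rw [finrank_top, Module.finrank_fintype_fun_eq_card]
  obtain ⟨π₀, -, hπ₀⟩ := oc_exists_nonsing Q hQ ⊤ (by omega)
  obtain ⟨a₀, b₀, e₀⟩ := (oc_mem_K ω π₀ _).mp (hcon π₀ hπ₀)
  apply hne
  refine ⟨a₀, b₀, ?_⟩
  have hne0 : ∀ x, Q x ≠ 0 → x ≠ 0 := by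
    rintro x hx rfl
    exact hx (QuadraticMap.map_zero Q)
  have hpair : ∀ (x x₃ : ι → F) (a b a₃ b₃ : F), Q x ≠ 0 → Q x₃ ≠ 0 → x₃ ∉ ocK ω x →
      QuadraticMap.polar ⇑Q x x₃ ≠ 0 → a • x + b • ω x = ω' x → a₃ • x₃ + b₃ • ω x₃ = ω' x₃ →
      a = a₃ ∧ b = b₃ := by
    intro x x₃ a b a₃ b₃ hx hx₃ hx₃K hB e e₃
    by_cases hs : Q (x + x₃) ≠ 0
    · obtain ⟨a₄, b₄, e₄⟩ := (oc_mem_K ω (x + x₃) _).mp (hcon _ hs)
      exact oc_cmp Q hd ω' x x₃ (hne0 x hx) hx₃K a b a₃ b₃ a₄ b₄ e.symm e₃.symm e₄.symm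
    · push Not at hs
      have hs' : Q (x + -x₃) ≠ 0 := by
        rw [Helper13.Q_add', QuadraticMap.map_neg, QuadraticMap.polar_neg_right]
        rw [Helper13.Q_add'] at hs
        intro h
        have h3 : 2 * QuadraticMap.polar ⇑Q x x₃ = 0 := by linear_combination hs - h
        rcases mul_eq_zero.mp h3 with h4 | h4
        · exact h2 h4
        · exact hB h4
      obtain ⟨a₄, b₄, e₄⟩ := (oc_mem_K ω (x + -x₃) _).mp (hcon _ hs')
      have e₃' : ω' (-x₃) = a₃ • (-x₃) + b₃ • ω (-x₃) := by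
        rw [map_neg, map_neg, ← e₃]
        module
      have hK' : -x₃ ∉ ocK ω x := fun h => hx₃K (by
        have := Submodule.neg_mem _ h
        rwa [neg_neg] at this)
      exact oc_cmp Q hd ω' x (-x₃) (hne0 x hx) hK' a b a₃ b₃ a₄ b₄ e.symm e₃' e₄.symm
  have hns : ∀ x, Q x ≠ 0 → ω' x = a₀ • x + b₀ • ω x := by
    intro x hx
    obtain ⟨a₁, b₁, e₁⟩ := (oc_mem_K ω x _).mp (hcon x hx)
    obtain ⟨x₃, hx₃Q, hx₃K1, hx₃K2, hB1, hB2⟩ := oc_exists_x3_low Q hQ h2 hn hd π₀ x hπ₀ hx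
    obtain ⟨a₃, b₃, e₃⟩ := (oc_mem_K ω x₃ _).mp (hcon x₃ hx₃Q)
    have c1 := hpair π₀ x₃ a₀ b₀ a₃ b₃ hπ₀ hx₃Q hx₃K1 hB1 e₀ e₃
    have c2 := hpair x x₃ a₁ b₁ a₃ b₃ hx hx₃Q hx₃K2 hB2 e₁ e₃
    rw [← e₁, c2.1, c2.2, ← c1.1, ← c1.2]
  intro x
  by_cases hx : Q x ≠ 0
  · exact hns x hx
  · push Not at hx
    have e1 := finrank_inf_perpSub_ge Q ⊤ x
    obtain ⟨y, hyP, hyQ⟩ := oc_exists_nonsing Q hQ (⊤ ⊓ perpSub Q x) (by omega)
    have hxy : QuadraticMap.polar ⇑Q x y = 0 := (mem_perpSub Q x y).mp (Submodule.mem_inf.mp hyP).2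
    have h1 : Q (x + y) ≠ 0 := by
      rw [Helper13.Q_add', hx, hxy, zero_add, add_zero]
      exact hyQ
    have e : ω' x = ω' (x + y) - ω' y := by
      rw [map_add]
      abel
    rw [e, hns _ h1, hns _ hyQ, map_add]
    module

/-- A singular vector outside `W_x` and outside `W_y`. -/
theorem oc_exists_sing_both (hQ : (QuadraticMap.polarBilin Q).Nondegenerate)
    (hn : 3 ≤ Fintype.card ι) (hd : OcData Q ω τ ν) (x y : ι → F) (hx : x ≠ 0) (hy : y ≠ 0) :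
    ∃ s, Q s = 0 ∧ s ∉ ocW Q ω x ∧ s ∉ ocW Q ω y := by
  have h0 : Module.finrank F ↥(⊤ : Submodule F (ι → F)) = Fintype.card ι := by
    rw [finrank_top, Module.finrank_fintype_fun_eq_card]
  obtain ⟨z, -, hz0, hzQ⟩ := exists_sing_in Q ⊤ (by omega)
  obtain ⟨c, hc⟩ : ∃ c, QuadraticMap.polar ⇑Q z c ≠ 0 := by
    by_contra h
    push Not at h
    exact hz0 (hQ.1 z h)
  have key : ∀ v : ι → F, v ≠ 0 → ∃ s, Q s = 0 ∧ QuadraticMap.polar ⇑Q v s ≠ 0 := by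
    intro v hv
    obtain ⟨a, ha⟩ : ∃ a, QuadraticMap.polar ⇑Q v a ≠ 0 := by
      by_contra h
      push Not at h
      exact hv (hQ.1 v h)
    obtain ⟨s, -, hsQ, hvs⟩ := oc_exists_sing_pair Q ⊤ v a Submodule.mem_top ha z c
      Submodule.mem_top Submodule.mem_top hzQ hc
    exact ⟨s, hsQ, hvs⟩
  obtain ⟨s₁, hs₁Q, hxs₁⟩ := key x hx
  obtain ⟨s₂, hs₂Q, hys₂⟩ := key y hy
  have hs₁x : s₁ ∉ ocW Q ω x := fun h => hxs₁ ((oc_mem_W Q ω x s₁).mp h).1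
  have hs₂y : s₂ ∉ ocW Q ω y := fun h => hys₂ ((oc_mem_W Q ω y s₂).mp h).1
  by_cases h1 : s₁ ∈ ocW Q ω y
  · by_cases h2 : s₂ ∈ ocW Q ω x
    · obtain ⟨α, β, hαβ, hzero⟩ : ∃ α β : F, ¬(α = 0 ∧ β = 0) ∧
          α * QuadraticMap.polar ⇑Q s₁ s₂ + β * QuadraticMap.polar ⇑Q s₁ (ω s₂) = 0 := by
        by_cases h3 : QuadraticMap.polar ⇑Q s₁ s₂ = 0
        · exact ⟨1, 0, fun h => one_ne_zero h.1, by rw [h3]; ring⟩
        · exact ⟨QuadraticMap.polar ⇑Q s₁ (ω s₂), -QuadraticMap.polar ⇑Q s₁ s₂, fun h => h3 (neg_eq_zero.mp h.2), by ring⟩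
      have hk : α • s₂ + β • ω s₂ ∈ ocW Q ω x :=
        Submodule.add_mem _ (Submodule.smul_mem _ _ h2)
          (Submodule.smul_mem _ _ (oc_W_mem_omega Q hd x s₂ h2))
      refine ⟨s₁ + (α • s₂ + β • ω s₂), ?_, ?_, ?_⟩
      · rw [Helper13.Q_add', hs₁Q, oc_Q_comb Q hd, hs₂Q, QuadraticMap.polar_add_right,
          QuadraticMap.polar_smul_right, QuadraticMap.polar_smul_right]
        simp only [smul_eq_mul]
        rw [hzero]
        ring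
      · intro h
        apply hs₁x
        have := Submodule.sub_mem _ h hk
        rwa [add_sub_cancel_right] at this
      · intro h
        apply hs₂y
        have h4 := Submodule.sub_mem _ h h1
        rw [add_sub_cancel_left] at h4
        exact oc_kline Q hd (ocW Q ω y) (oc_W_mem_omega Q hd y) α β s₂ h4 hαβ
    · exact ⟨s₂, hs₂Q, h2, hs₂y⟩
  · exact ⟨s₁, hs₁Q, hs₁x, h1⟩

end OC

section SU

variable {F : Type u} [Field F] [Fintype F] {m : ℕ}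

variable {ω : (Fin m ⊕ Fin m → F) →ₗ[F] (Fin m ⊕ Fin m → F)} {ν : F}

theorem su_center_aux_low {ω' : (Fin m ⊕ Fin m → F) →ₗ[F] (Fin m ⊕ Fin m → F)} {ν' : F} (hd' : SuData ω' ν')
    (h2 : (2 : F) ≠ 0) (hm : 4 ≤ m) (M : Subgroup (GL (Fin m ⊕ Fin m) F))
    (hM' : ∀ g ∈ spGL m F, (∀ x, ((g : GL (Fin m ⊕ Fin m) F) : Matrix (Fin m ⊕ Fin m) (Fin m ⊕ Fin m) F) *ᵥ (ω' x) = ω' (((g : GL (Fin m ⊕ Fin m) F) : Matrix (Fin m ⊕ Fin m) (Fin m ⊕ Fin m) F) *ᵥ x)) → g ∈ M)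
    (π a : (Fin m ⊕ Fin m → F)) (h1 : sympForm m F π a = 1) (hr : suR π a h1 ∈ M) (haK : a ∉ ocK ω' π) :
    π ∈ tvCentres M := by
  have hcard : 7 ≤ Fintype.card (Fin m ⊕ Fin m) := by
    rw [Fintype.card_sum, Fintype.card_fin]
    omega
  have hν' := su_nu_ne hd'
  have hO' := su_ocdata hd'
  have hQn' := su_nondeg hd' h2
  obtain ⟨w, hwQ, hw1, hw2, hwK, hw3⟩ := oc_SW' (suQ ω') hQn' hcard π a haK
  obtain ⟨w₂, hw₂Q, hw₂1, hw₂2, hw₂3, hw₂4⟩ :=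
    oc_partner (suQ ω') hQn' hO' π w hwQ hw1 hw2 hwK
  rw [suQ_apply] at hwQ hw₂Q
  rw [su_polar hd'] at hw1 hw3 hw₂1 hw₂3
  rw [su_polar hd', su_ww hd'] at hw2 hw₂2 hw₂4
  have A1 : sympForm m F π (ω' w) = 0 := su_two h2 hw1
  have A2 : sympForm m F π w = 0 := (mul_eq_zero.mp (su_two h2 hw2)).resolve_left hν'
  have A3 : sympForm m F a (ω' w) ≠ 0 := fun h => hw3 (by rw [h, mul_zero])
  have B1 : sympForm m F π (ω' w₂) = 0 := su_two h2 hw₂1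
  have B2 : sympForm m F π w₂ = 0 := (mul_eq_zero.mp (su_two h2 hw₂2)).resolve_left hν'
  have B3 : sympForm m F w (ω' w₂) = 0 := su_two h2 hw₂3
  have ht : suT ω' ν' w 1 ∈ M := hM' _ (suT_mem _ _ _ _) (suT_comm hd' w hwQ 1)
  have htπ : ((suT ω' ν' w 1 : GL (Fin m ⊕ Fin m) F) : Matrix (Fin m ⊕ Fin m) (Fin m ⊕ Fin m) F) *ᵥ π = π := by
    rw [suT_mulVec w hwQ]
    unfold suP
    rw [A1, A2]
    simp
  obtain ⟨a₂, ha₂⟩ : ∃ a₂ : (Fin m ⊕ Fin m → F), a₂ = ((suT ω' ν' w 1 : GL (Fin m ⊕ Fin m) F) : Matrix (Fin m ⊕ Fin m) (Fin m ⊕ Fin m) F) *ᵥ a := ⟨_, rfl⟩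
  have h1' : sympForm m F (((suT ω' ν' w 1 : GL (Fin m ⊕ Fin m) F) : Matrix (Fin m ⊕ Fin m) (Fin m ⊕ Fin m) F) *ᵥ π) (((suT ω' ν' w 1 : GL (Fin m ⊕ Fin m) F) : Matrix (Fin m ⊕ Fin m) (Fin m ⊕ Fin m) F) *ᵥ a) = 1 := by
    rw [sp_apply (suT_mem _ _ _ _)]
    exact h1
  have h1₂ : sympForm m F π a₂ = 1 := by
    rw [ha₂]
    rw [htπ] at h1'
    exact h1'
  have hr₂ : suR π a₂ h1₂ ∈ M := by
    have e := suR_conj (suT_mem ω' ν' w 1) π a h1 h1'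
    rw [suR_congr _ _ _ _ htπ.symm ha₂ h1₂ h1', ← e]
    exact M.mul_mem (M.mul_mem ht hr) (M.inv_mem ht)
  have hg₀ : suH π ((2 : F) • (a₂ - a)) (4 * sympForm m F a a₂) ∈ M := by
    rw [← suR_mul π a a₂ h1 h1₂]
    exact M.mul_mem hr hr₂
  obtain ⟨b₀, hb₀⟩ : ∃ b₀ : (Fin m ⊕ Fin m → F), b₀ = (2 : F) • (a₂ - a) := ⟨_, rfl⟩
  rw [← hb₀] at hg₀
  have ha₂' : a₂ = a - (1 : F) • suP ω' ν' w a := by
    rw [ha₂, suT_mulVec w hwQ]
  have hb : sympForm m F π b₀ = 0 := by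
    rw [hb₀, sf_smul_right, sf_sub_right, h1, h1₂]
    ring
  have hb1 : sympForm m F b₀ (ω' w₂) = -sympForm m F a (ω' w) := by
    rw [hb₀, ha₂']
    unfold suP
    simp only [sf_add_left, sf_add_right, sf_smul_left, sf_smul_right, sf_sub_left, sf_sub_right, sf_neg_left, sf_neg_right, map_add, map_sub, map_smul, map_neg, smul_eq_mul, su_ww hd', B3]
    linear_combination (-sympForm m F a (ω' w)) * hw₂4
  obtain ⟨N, hNdef⟩ : ∃ N : F,
      N = ν' * sympForm m F b₀ w₂ * sympForm m F b₀ w₂ + sympForm m F b₀ (ω' w₂) * sympForm m F b₀ (ω' w₂) := ⟨_, rfl⟩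
  have hN : N ≠ 0 := by
    intro h
    rw [hNdef] at h
    have := hd'.irr (sympForm m F b₀ (ω' w₂)) (sympForm m F b₀ w₂) (by linear_combination h)
    rw [hb1] at this
    exact A3 (neg_eq_zero.mp this.1)
  intro c
  obtain ⟨c₂, hc₂⟩ : ∃ c₂ : F, c₂ = c * (2 * N)⁻¹ := ⟨_, rfl⟩
  have hh : suT ω' ν' w₂ c₂ ∈ M := hM' _ (suT_mem _ _ _ _) (suT_comm hd' w₂ hw₂Q c₂)
  have hhπ : ((suT ω' ν' w₂ c₂ : GL (Fin m ⊕ Fin m) F) : Matrix (Fin m ⊕ Fin m) (Fin m ⊕ Fin m) F) *ᵥ π = π := by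
    rw [suT_mulVec w₂ hw₂Q]
    unfold suP
    rw [B1, B2]
    simp
  have hg₁ : suH π (((suT ω' ν' w₂ c₂ : GL (Fin m ⊕ Fin m) F) : Matrix (Fin m ⊕ Fin m) (Fin m ⊕ Fin m) F) *ᵥ b₀) (4 * sympForm m F a a₂) ∈ M := by
    have e := suH_conj (suT_mem ω' ν' w₂ c₂) π b₀ (4 * sympForm m F a a₂)
    rw [hhπ] at e
    rw [← e]
    exact M.mul_mem (M.mul_mem hh hg₀) (M.inv_mem hh)
  have hb' : sympForm m F π (((suT ω' ν' w₂ c₂ : GL (Fin m ⊕ Fin m) F) : Matrix (Fin m ⊕ Fin m) (Fin m ⊕ Fin m) F) *ᵥ b₀) = 0 := by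
    have := sp_apply (suT_mem ω' ν' w₂ c₂) π b₀
    rw [hhπ] at this
    rw [this]
    exact hb
  have key := suH_comm π b₀ (((suT ω' ν' w₂ c₂ : GL (Fin m ⊕ Fin m) F) : Matrix (Fin m ⊕ Fin m) (Fin m ⊕ Fin m) F) *ᵥ b₀) hb hb' (4 * sympForm m F a a₂)
    (4 * sympForm m F a a₂)
  have key2 := eq_mul_inv_of_mul_eq key.symm
  have e3 : 2 * sympForm m F (((suT ω' ν' w₂ c₂ : GL (Fin m ⊕ Fin m) F) : Matrix (Fin m ⊕ Fin m) (Fin m ⊕ Fin m) F) *ᵥ b₀) b₀ = c := by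
    rw [suT_form w₂ hw₂Q, ← hNdef, hc₂]
    field_simp
  rw [e3] at key2
  rw [key2]
  exact M.mul_mem (M.mul_mem hg₀ hg₁) (M.inv_mem (M.mul_mem hg₁ hg₀))

theorem su_center_low {ω' : (Fin m ⊕ Fin m → F) →ₗ[F] (Fin m ⊕ Fin m → F)} {ν' : F} (hd : SuData ω ν) (hd' : SuData ω' ν')
    (h2 : (2 : F) ≠ 0) (hm : 4 ≤ m) (M : Subgroup (GL (Fin m ⊕ Fin m) F))
    (hM : ∀ g ∈ spGL m F, (∀ x, ((g : GL (Fin m ⊕ Fin m) F) : Matrix (Fin m ⊕ Fin m) (Fin m ⊕ Fin m) F) *ᵥ (ω x) = ω (((g : GL (Fin m ⊕ Fin m) F) : Matrix (Fin m ⊕ Fin m) (Fin m ⊕ Fin m) F) *ᵥ x)) → g ∈ M)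
    (hM' : ∀ g ∈ spGL m F, (∀ x, ((g : GL (Fin m ⊕ Fin m) F) : Matrix (Fin m ⊕ Fin m) (Fin m ⊕ Fin m) F) *ᵥ (ω' x) = ω' (((g : GL (Fin m ⊕ Fin m) F) : Matrix (Fin m ⊕ Fin m) (Fin m ⊕ Fin m) F) *ᵥ x)) → g ∈ M)
    (π : (Fin m ⊕ Fin m → F)) (hq : sympForm m F π (ω π) ≠ 0) (hπ : ω' π ∉ ocK ω π) : π ∈ tvCentres M := by
  have h1 : sympForm m F π ((sympForm m F π (ω π))⁻¹ • ω π) = 1 := by rw [sf_smul_right, inv_mul_cancel₀ hq]
  have hr : suR π _ h1 ∈ M := hM _ (suR_mem _ _ _) (suR_comm hd π hq h1)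
  have haK : (sympForm m F π (ω π))⁻¹ • ω π ∉ ocK ω' π := by
    intro hK
    obtain ⟨α, β, e⟩ := (oc_mem_K ω' π _).mp hK
    apply hπ
    by_cases hβ : β = 0
    · exfalso
      rw [hβ, zero_smul, add_zero] at e
      have h3 : sympForm m F π (α • π) = 1 := by rw [e]; exact h1
      rw [sf_smul_right, sf_self, mul_zero] at h3
      exact zero_ne_one h3
    · rw [oc_mem_K]
      refine ⟨-(β⁻¹ * α), β⁻¹ * (sympForm m F π (ω π))⁻¹, ?_⟩
      have h3 : ω' π = β⁻¹ • ((sympForm m F π (ω π))⁻¹ • ω π - α • π) := by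
        rw [← e, add_sub_cancel_left, smul_smul, inv_mul_cancel₀ hβ, one_smul]
      rw [h3]
      module
  exact su_center_aux_low hd' h2 hm M hM' π _ h1 hr haK

theorem su_main_low {ω' : (Fin m ⊕ Fin m → F) →ₗ[F] (Fin m ⊕ Fin m → F)} {ν' : F} (hd : SuData ω ν) (hd' : SuData ω' ν')
    (h2 : (2 : F) ≠ 0) (hm : 5 ≤ m) (M : Subgroup (GL (Fin m ⊕ Fin m) F))
    (hM : ∀ g ∈ spGL m F, (∀ x, ((g : GL (Fin m ⊕ Fin m) F) : Matrix (Fin m ⊕ Fin m) (Fin m ⊕ Fin m) F) *ᵥ (ω x) = ω (((g : GL (Fin m ⊕ Fin m) F) : Matrix (Fin m ⊕ Fin m) (Fin m ⊕ Fin m) F) *ᵥ x)) → g ∈ M)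
    (hM' : ∀ g ∈ spGL m F, (∀ x, ((g : GL (Fin m ⊕ Fin m) F) : Matrix (Fin m ⊕ Fin m) (Fin m ⊕ Fin m) F) *ᵥ (ω' x) = ω' (((g : GL (Fin m ⊕ Fin m) F) : Matrix (Fin m ⊕ Fin m) (Fin m ⊕ Fin m) F) *ᵥ x)) → g ∈ M)
    (hne : ¬∃ a b : F, ∀ x, ω' x = a • x + b • ω x) : spGL m F ≤ M := by
  have hcard : 10 ≤ Fintype.card (Fin m ⊕ Fin m) := by
    rw [Fintype.card_sum, Fintype.card_fin]
    omega
  obtain ⟨π, hπQ, hπ⟩ := oc_exists_good_ns_low (suQ ω) (su_nondeg hd h2) h2 hcard (su_ocdata hd) ω' hne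
  rw [suQ_apply] at hπQ
  have hπC := su_center_low hd hd' h2 (by omega) M hM hM' π hπQ hπ
  exact spGL_le_of_tvCentres M (su_spread hd h2 (by omega) M hM π hπC hπQ)

theorem su_unitary_max_low (m : ℕ) (hm : 5 ≤ m) (hodd : Odd (Fintype.card F))
    (K : Subalgebra F (Matrix (Fin m ⊕ Fin m) (Fin m ⊕ Fin m) F)) (hK : IsFieldSubalgebra 2 K)
    (hac : IsAdjointClosedFor (sympForm m F) K) (hnsa : ¬IsSelfAdjointFor (sympForm m F) K) :
    IsMaximalIn (spGL m F) (subalgebraNormalizer K ⊓ spGL m F) := by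
  have h2 := su_two_ne hodd
  have hne : Nonempty (Fin m ⊕ Fin m) := ⟨Sum.inl ⟨0, by omega⟩⟩
  obtain ⟨ω₀, hω₀K, hω₀, hKspan₀⟩ := oc_K_basis K hK.finrank_eq
  obtain ⟨ω₀', hω₀'K, hadj₀⟩ := hac ω₀ hω₀K
  have hadj₀' : ∀ u v, sympForm m F (ω₀' *ᵥ u) v = sympForm m F u (ω₀ *ᵥ v) := by
    intro u v
    rw [sf_swap (ω₀' *ᵥ u) v, ← hadj₀, sf_swap (ω₀ *ᵥ v) u, neg_neg]
  obtain ⟨ω₁, hω₁def⟩ : ∃ ω₁ : Matrix (Fin m ⊕ Fin m) (Fin m ⊕ Fin m) F, ω₁ = ω₀ - ω₀' := ⟨_, rfl⟩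
  have hω₁K : ω₁ ∈ K := by
    rw [hω₁def]
    exact K.sub_mem hω₀K hω₀'K
  have hskew : ∀ u v, sympForm m F (ω₁ *ᵥ u) v = -sympForm m F u (ω₁ *ᵥ v) := by
    intro u v
    rw [hω₁def, Matrix.sub_mulVec, Matrix.sub_mulVec, sf_sub_left, sf_sub_right, hadj₀, hadj₀']
    ring
  obtain ⟨u₀, v₀, huv₀⟩ : ∃ u₀ v₀ : (Fin m ⊕ Fin m → F), sympForm m F u₀ v₀ ≠ 0 := by
    have h3 : (Pi.single (Sum.inl ⟨0, by omega⟩) 1 : (Fin m ⊕ Fin m → F)) ≠ 0 := by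
      intro h
      have h4 := congrFun h (Sum.inl ⟨0, by omega⟩)
      simp at h4
    obtain ⟨y, hy⟩ := sf_exists_ne _ h3
    exact ⟨_, y, hy⟩
  have hu₀ : u₀ ≠ 0 := by
    rintro rfl
    apply huv₀
    have h3 := sf_smul_left (0 : F) (0 : (Fin m ⊕ Fin m → F)) v₀
    rw [zero_smul, zero_mul] at h3
    exact h3
  have hω₁ : ∀ a : F, ω₁ ≠ a • (1 : Matrix (Fin m ⊕ Fin m) (Fin m ⊕ Fin m) F) := by
    intro a e
    have h3 : a = 0 := by
      have h4 := hskew u₀ v₀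
      rw [e, Matrix.smul_mulVec, Matrix.smul_mulVec, Matrix.one_mulVec, Matrix.one_mulVec,
        sf_smul_left, sf_smul_right] at h4
      have h5 : 2 * (a * sympForm m F u₀ v₀) = 0 := by linear_combination h4
      rcases mul_eq_zero.mp (su_two h2 h5) with h6 | h6
      · exact h6
      · exact absurd h6 huv₀
    rw [h3, zero_smul] at e
    apply hnsa
    intro k hk u v
    obtain ⟨c, d, rfl⟩ := hKspan₀ k hk
    have h7 : ω₀' = ω₀ := by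
      rw [hω₁def] at e
      exact (sub_eq_zero.mp e).symm
    rw [h7] at hadj₀
    rw [Matrix.add_mulVec, Matrix.add_mulVec, Matrix.smul_mulVec, Matrix.smul_mulVec,
      Matrix.smul_mulVec, Matrix.smul_mulVec, Matrix.one_mulVec, Matrix.one_mulVec]
    simp only [sf_add_left, sf_add_right, sf_smul_left, sf_smul_right, sf_sub_left, sf_sub_right, sf_neg_left, sf_neg_right, map_add, map_sub, map_smul, map_neg, smul_eq_mul]
    rw [hadj₀]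
  have hKspan := oc_K_span K hK.finrank_eq ω₁ hω₁K hω₁
  obtain ⟨a, b, hab⟩ := hKspan (ω₁ * ω₁) (K.mul_mem hω₁K hω₁K)
  have hb : b = 0 := by
    by_contra hb
    have h3 : ∀ u v, sympForm m F (ω₁ *ᵥ u) v = 0 := by
      intro u v
      have h4 : sympForm m F ((ω₁ * ω₁) *ᵥ u) v = sympForm m F u ((ω₁ * ω₁) *ᵥ v) := by
        rw [← Matrix.mulVec_mulVec, ← Matrix.mulVec_mulVec, hskew (ω₁ *ᵥ u) v,
          hskew u (ω₁ *ᵥ v), neg_neg]
      rw [hab, Matrix.add_mulVec, Matrix.add_mulVec, Matrix.smul_mulVec, Matrix.smul_mulVec,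
        Matrix.smul_mulVec, Matrix.smul_mulVec, Matrix.one_mulVec, Matrix.one_mulVec] at h4
      simp only [sf_add_left, sf_add_right, sf_smul_left, sf_smul_right, sf_sub_left, sf_sub_right, sf_neg_left, sf_neg_right, map_add, map_sub, map_smul, map_neg, smul_eq_mul] at h4
      have h5 : 2 * (b * sympForm m F (ω₁ *ᵥ u) v) = 0 := by linear_combination h4 + b * hskew u v
      exact (mul_eq_zero.mp (su_two h2 h5)).resolve_left hb
    apply hω₁ 0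
    apply matrix_ext_mulVec
    intro x
    rw [zero_smul, Matrix.zero_mulVec]
    exact Helper13.sympForm_sep _ (h3 x)
  obtain ⟨ν, hν⟩ : ∃ ν : F, ν = -a := ⟨_, rfl⟩
  have hsq : ∀ x, ω₁ *ᵥ (ω₁ *ᵥ x) = -(ν • x) := by
    intro x
    rw [Matrix.mulVec_mulVec, hab, hb, zero_smul, add_zero, Matrix.smul_mulVec,
      Matrix.one_mulVec, hν, neg_smul, neg_neg]
  have hd : SuData (Matrix.toLin' ω₁) ν := by
    refine ⟨?_, ?_, ?_⟩
    · intro x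
      rw [Matrix.toLin'_apply, Matrix.toLin'_apply]
      exact hsq x
    · intro α β hN
      have hxK : α • (1 : Matrix (Fin m ⊕ Fin m) (Fin m ⊕ Fin m) F) + β • ω₁ ∈ K :=
        K.add_mem (K.smul_mem K.one_mem α) (K.smul_mem hω₁K β)
      have hyK : α • (1 : Matrix (Fin m ⊕ Fin m) (Fin m ⊕ Fin m) F) + (-β) • ω₁ ∈ K :=
        K.add_mem (K.smul_mem K.one_mem α) (K.smul_mem hω₁K _)
      have hxy : (α • (1 : Matrix (Fin m ⊕ Fin m) (Fin m ⊕ Fin m) F) + β • ω₁) *ᵥ ((α • (1 : Matrix (Fin m ⊕ Fin m) (Fin m ⊕ Fin m) F) + (-β) • ω₁) *ᵥ u₀) = 0 := by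
        have e : ∀ (p q : F) (w : (Fin m ⊕ Fin m → F)), (p • (1 : Matrix (Fin m ⊕ Fin m) (Fin m ⊕ Fin m) F) + q • ω₁) *ᵥ w = p • w + q • (ω₁ *ᵥ w) := by
          intro p q w
          rw [Matrix.add_mulVec, Matrix.smul_mulVec, Matrix.smul_mulVec, Matrix.one_mulVec]
        rw [e, e, Matrix.mulVec_add, Matrix.mulVec_smul, Matrix.mulVec_smul, hsq]
        rw [← zero_smul F u₀, ← hN]
        module
      by_cases hx : α • (1 : Matrix (Fin m ⊕ Fin m) (Fin m ⊕ Fin m) F) + β • ω₁ = 0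
      · exact oc_lin_indep ω₁ hω₁ α β hx
      · have h1 := IsFS.mulVec_eq_zero (IsFS.of hK) hxK hx hxy
        by_cases hy : α • (1 : Matrix (Fin m ⊕ Fin m) (Fin m ⊕ Fin m) F) + (-β) • ω₁ = 0
        · have h3 := oc_lin_indep ω₁ hω₁ _ _ hy
          exact ⟨h3.1, neg_eq_zero.mp h3.2⟩
        · exact absurd (IsFS.mulVec_eq_zero (IsFS.of hK) hyK hy h1) hu₀
    · intro x y
      rw [Matrix.toLin'_apply, Matrix.toLin'_apply]
      exact hskew x y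
  have hnorm1 : ∀ g : GL (Fin m ⊕ Fin m) F, g ∈ subalgebraNormalizer K → ∃ a b : F, ∀ x : (Fin m ⊕ Fin m → F),
      (g : Matrix (Fin m ⊕ Fin m) (Fin m ⊕ Fin m) F) *ᵥ (Matrix.toLin' ω₁ x) =
        a • ((g : Matrix (Fin m ⊕ Fin m) (Fin m ⊕ Fin m) F) *ᵥ x) + b • Matrix.toLin' ω₁ ((g : Matrix (Fin m ⊕ Fin m) (Fin m ⊕ Fin m) F) *ᵥ x) := by
    intro g hg
    obtain ⟨a, b, h⟩ := oc_of_norm K ω₁ hω₁K hKspan g hg
    exact ⟨a, b, fun x => by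
      rw [Matrix.toLin'_apply, Matrix.toLin'_apply]
      exact h x⟩
  have hnorm2 : ∀ g : GL (Fin m ⊕ Fin m) F, (∃ a b : F, ∀ x : (Fin m ⊕ Fin m → F),
      (g : Matrix (Fin m ⊕ Fin m) (Fin m ⊕ Fin m) F) *ᵥ (Matrix.toLin' ω₁ x) =
        a • ((g : Matrix (Fin m ⊕ Fin m) (Fin m ⊕ Fin m) F) *ᵥ x) + b • Matrix.toLin' ω₁ ((g : Matrix (Fin m ⊕ Fin m) (Fin m ⊕ Fin m) F) *ᵥ x)) →
      g ∈ subalgebraNormalizer K := by
    rintro g ⟨a, b, h⟩
    exact oc_norm_of K ω₁ hω₁K hKspan g ⟨a, b, fun x => by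
      have h3 := h x
      rw [Matrix.toLin'_apply, Matrix.toLin'_apply] at h3
      exact h3⟩
  obtain ⟨ω, hωdef⟩ : ∃ ω : (Fin m ⊕ Fin m → F) →ₗ[F] (Fin m ⊕ Fin m → F), ω = Matrix.toLin' ω₁ := ⟨_, rfl⟩
  rw [← hωdef] at hd hnorm1 hnorm2
  have hO := su_ocdata hd
  have hQn := su_nondeg hd h2
  constructor
  · rw [SetLike.lt_iff_le_and_exists]
    refine ⟨inf_le_right, ?_⟩
    have h0 : Module.finrank F ↥(⊤ : Submodule F (Fin m ⊕ Fin m → F)) = Fintype.card (Fin m ⊕ Fin m) := by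
      rw [finrank_top, Module.finrank_fintype_fun_eq_card]
    have hcard : Fintype.card (Fin m ⊕ Fin m) = m + m := by
      rw [Fintype.card_sum, Fintype.card_fin]
    obtain ⟨v, -, hv0, hvQ⟩ := exists_sing_in (suQ ω) ⊤ (by omega)
    rw [suQ_apply] at hvQ
    refine ⟨stGL v 1, stGL_mem v 1, fun hmem => ?_⟩
    obtain ⟨a', b', hab'⟩ := hnorm1 _ hmem.1
    have hvv : sympForm m F (ω v) v = 0 := by rw [sf_swap, hvQ, neg_zero]
    have h3 := hab' v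
    simp only [stGL_mulVec, hvv, sf_self, mul_zero, zero_smul, add_zero] at h3
    obtain ⟨ha', hb'⟩ := oc_indep (suQ ω) hO v hv0 a' (b' - 1) (by
      rw [sub_smul, one_smul, ← add_sub_assoc]
      exact sub_eq_zero.mpr h3.symm)
    have hb'1 : b' = 1 := sub_eq_zero.mp hb'
    obtain ⟨y, hy⟩ := sf_exists_ne v hv0
    have h4 := hab' y
    simp only [stGL_mulVec] at h4
    rw [ha', hb'1, zero_smul, zero_add, one_smul, map_add, map_smul] at h4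
    have h5 := add_left_cancel h4
    have h6 := (oc_indep (suQ ω) hO v hv0 (1 * sympForm m F (ω y) v) (-(1 * sympForm m F y v)) (by
      rw [h5]
      module)).2
    apply hy
    have h7 : sympForm m F y v = 0 := by linear_combination -h6
    rw [sf_swap, h7, neg_zero]
  · intro M hHM hMG
    by_cases hMH : M = subalgebraNormalizer K ⊓ spGL m F
    · exact Or.inl hMH
    right
    apply le_antisymm hMG
    have hM1 : ∀ g ∈ spGL m F,
        (∀ x, ((g : GL (Fin m ⊕ Fin m) F) : Matrix (Fin m ⊕ Fin m) (Fin m ⊕ Fin m) F) *ᵥ (ω x) = ω (((g : GL (Fin m ⊕ Fin m) F) : Matrix (Fin m ⊕ Fin m) (Fin m ⊕ Fin m) F) *ᵥ x)) → g ∈ M := by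
      intro g hg hcomm
      apply hHM
      refine ⟨hnorm2 _ ⟨0, 1, fun x => ?_⟩, hg⟩
      rw [zero_smul, zero_add, one_smul]
      exact hcomm x
    obtain ⟨y, hyM, hyH⟩ := SetLike.exists_of_lt (lt_of_le_of_ne hHM (Ne.symm hMH))
    have hySp : y ∈ spGL m F := hMG hyM
    have hd' := su_conj_data hd hySp
    have hM2 : ∀ g ∈ spGL m F,
        (∀ x, ((g : GL (Fin m ⊕ Fin m) F) : Matrix (Fin m ⊕ Fin m) (Fin m ⊕ Fin m) F) *ᵥ (suConj ω y x) = suConj ω y (((g : GL (Fin m ⊕ Fin m) F) : Matrix (Fin m ⊕ Fin m) (Fin m ⊕ Fin m) F) *ᵥ x)) →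
        g ∈ M := by
      intro g hg hcomm
      have hconj : y⁻¹ * g * y ∈ spGL m F :=
        (spGL m F).mul_mem ((spGL m F).mul_mem ((spGL m F).inv_mem hySp) hg) hySp
      have h1 : y⁻¹ * g * y ∈ M := hM1 _ hconj (fun x => by
        rw [gl_mul_mulVec, gl_mul_mulVec, gl_mul_mulVec, gl_mul_mulVec]
        have h2' := hcomm ((y : Matrix (Fin m ⊕ Fin m) (Fin m ⊕ Fin m) F) *ᵥ x)
        rw [suConj_apply, suConj_apply, gl_inv_mulVec] at h2'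
        rw [h2', gl_inv_mulVec])
      have e : g = y * (y⁻¹ * g * y) * y⁻¹ := by group
      rw [e]
      exact M.mul_mem (M.mul_mem hyM h1) (M.inv_mem hyM)
    refine su_main_low hd hd' h2 hm M hM1 hM2 ?_
    rintro ⟨a, b, hab⟩
    apply hyH
    refine ⟨hnorm2 _ ⟨a, b, fun x => ?_⟩, hySp⟩
    have h3 := hab ((y : Matrix (Fin m ⊕ Fin m) (Fin m ⊕ Fin m) F) *ᵥ x)
    rw [suConj_apply, gl_inv_mulVec] at h3
    exact h3

end SU

end Cfsg.Agent.Helper71.SpLowC
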