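import Mathlib
import Cfsg.Agent.Helper71.DesignNT

set_option autoImplicit false

namespace Cfsg.Agent.Helper71

open Matrix

section

variable {Γ : Type*} [Group Γ] {Ω : Type*} [Fintype Ω] [DecidableEq Ω] [MulAction Γ Ω]

/-- The all-ones matrix. -/
def allOnes (Ω : Type*) : Matrix Ω Ω ℤ := Matrix.of fun _ _ => 1

omit [Fintype Ω] [DecidableEq Ω] in
theorem allOnes_apply (i j : Ω) : allOnes Ω i j = 1 := rfl

omit [DecidableEq Ω] in
theorem allOnes_mul_allOnes : allOnes Ω * allOnes Ω = (Fintype.card Ω : ℤ) • allOnes Ω := by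
  ext i j
  simp [Matrix.mul_apply, allOnes_apply]

omit [Fintype Ω] [DecidableEq Ω] in
theorem allOnes_transpose : (allOnes Ω)ᵀ = allOnes Ω := by
  ext i j
  simp [allOnes_apply]

omit [DecidableEq Ω] in
theorem mul_allOnes_of_row_sum (A : Matrix Ω Ω ℤ) (k : ℤ) (h : ∀ i, ∑ j, A i j = k) :
    A * allOnes Ω = k • allOnes Ω := by
  ext i j
  simp [Matrix.mul_apply, allOnes_apply, h i]

omit [DecidableEq Ω] in
theorem allOnes_mul_of_col_sum (A : Matrix Ω Ω ℤ) (k : ℤ) (h : ∀ j, ∑ i, A i j = k) :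
    allOnes Ω * A = k • allOnes Ω := by
  ext i j
  simp [Matrix.mul_apply, allOnes_apply, h j]

omit [Fintype Ω] in
/-- A matrix invariant under a doubly transitive group is a combination of `1` and the all-ones
matrix. -/
theorem matrix_eq_of_invariant (h2 : MulAction.IsMultiplyPretransitive Γ Ω 2)
    (M : Matrix Ω Ω ℤ) (hM : ∀ (g : Γ) (i j : Ω), M (g • i) (g • j) = M i j) {i₀ j₀ : Ω}
    (hne : i₀ ≠ j₀) :
    M = (M i₀ i₀ - M i₀ j₀) • (1 : Matrix Ω Ω ℤ) + M i₀ j₀ • allOnes Ω := by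
  have htr : MulAction.IsPretransitive Γ Ω := MulAction.isPretransitive_of_is_two_pretransitive
  ext i j
  by_cases h : i = j
  · subst h
    obtain ⟨g, hg⟩ := MulAction.exists_smul_eq Γ i₀ i
    rw [← hg, hM, Matrix.add_apply, Matrix.smul_apply, Matrix.smul_apply, Matrix.one_apply_eq,
      allOnes_apply, smul_eq_mul, smul_eq_mul]
    ring
  · obtain ⟨g, hg1, hg2⟩ := (MulAction.is_two_pretransitive_iff.mp h2) hne h
    rw [← hg1, ← hg2, hM, hg1, hg2, Matrix.add_apply, Matrix.smul_apply, Matrix.smul_apply,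
      Matrix.one_apply_ne h, allOnes_apply, smul_eq_mul, smul_eq_mul]
    ring

/-- Main matrix lemma: a `0/1` matrix with constant row and column sums `k` intertwining the
permutation representation of a doubly transitive group with its twist by an automorphism `α`
with `α ^ m = 1` yields the parameters used in `design_arith`. -/
theorem exists_design_parameters (h2 : MulAction.IsMultiplyPretransitive Γ Ω 2) (α : MulAut Γ)
    (m : ℕ) (hαm : α ^ m = 1) (A : Matrix Ω Ω ℤ) (k : ℤ) (hA01 : ∀ i j, A i j = 0 ∨ A i j = 1)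
    (hAint : ∀ (g : Γ) (i j : Ω), A (g • i) (α g • j) = A i j)
    (hArow : ∀ i, ∑ j, A i j = k) (hAcol : ∀ j, ∑ i, A i j = k) (hn : 2 ≤ Fintype.card Ω) :
    ∃ s x y : ℤ, s * ((Fintype.card Ω : ℤ) - 1) = k * ((Fintype.card Ω : ℤ) - k) ∧
      x + (Fintype.card Ω : ℤ) * y = k ^ m ∧ x ^ 2 = s ^ m := by
  obtain ⟨i₀, j₀, hne⟩ : ∃ i₀ j₀ : Ω, i₀ ≠ j₀ := Fintype.exists_pair_of_one_lt_card (by omega)
  have hAJ : A * allOnes Ω = k • allOnes Ω := mul_allOnes_of_row_sum A k hArow
  have hJA : allOnes Ω * A = k • allOnes Ω := allOnes_mul_of_col_sum A k hAcol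
  have hJAt : allOnes Ω * Aᵀ = k • allOnes Ω := by
    have h1 := congrArg Matrix.transpose hAJ
    rw [Matrix.transpose_mul, Matrix.transpose_smul, allOnes_transpose] at h1
    exact h1
  have hAtJ : Aᵀ * allOnes Ω = k • allOnes Ω := by
    have h1 := congrArg Matrix.transpose hJA
    rw [Matrix.transpose_mul, Matrix.transpose_smul, allOnes_transpose] at h1
    exact h1
  have hBinv : ∀ (g : Γ) (i j : Ω), (A * Aᵀ) (g • i) (g • j) = (A * Aᵀ) i j := by
    intro g i j
    simp only [Matrix.mul_apply, Matrix.transpose_apply]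
    rw [← Equiv.sum_comp (MulAction.toPerm (α g))]
    apply Finset.sum_congr rfl
    intro l _
    simp only [MulAction.toPerm_apply]
    rw [hAint, hAint]
  have hB := matrix_eq_of_invariant h2 (A * Aᵀ) hBinv hne
  have hBdiag : (A * Aᵀ) i₀ i₀ = k := by
    simp only [Matrix.mul_apply, Matrix.transpose_apply]
    rw [← hArow i₀]
    apply Finset.sum_congr rfl
    intro l _
    rcases hA01 i₀ l with h | h <;> rw [h] <;> norm_num
  obtain ⟨lam, hlam⟩ : ∃ lam : ℤ, lam = (A * Aᵀ) i₀ j₀ := ⟨_, rfl⟩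
  rw [hBdiag, ← hlam] at hB
  have hBJ : (A * Aᵀ) * allOnes Ω = (k * k) • allOnes Ω := by
    rw [Matrix.mul_assoc, hAtJ, Matrix.mul_smul, hAJ, smul_smul]
  have hrel : (k - lam) + lam * (Fintype.card Ω : ℤ) = k * k := by
    have h1 := congrFun (congrFun hBJ i₀) i₀
    rw [hB, Matrix.add_mul, Matrix.smul_mul, Matrix.one_mul, Matrix.smul_mul,
      allOnes_mul_allOnes] at h1
    simp only [Matrix.add_apply, Matrix.smul_apply, allOnes_apply, smul_eq_mul] at h1
    linarith
  have hpowJ : ∀ r : ℕ, A ^ r * allOnes Ω = (k ^ r) • allOnes Ω := by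
    intro r
    induction r with
    | zero => simp
    | succ r ih =>
      rw [pow_succ, Matrix.mul_assoc, hAJ, Matrix.mul_smul, ih, smul_smul, pow_succ, mul_comm]
  have hpowinv : ∀ (r : ℕ) (g : Γ) (i j : Ω),
      (A ^ r) (g • i) ((α ^ r) g • j) = (A ^ r) i j := by
    intro r
    induction r with
    | zero =>
      intro g i j
      simp only [pow_zero, MulAut.one_apply, Matrix.one_apply]
      by_cases h : i = j
      · simp [h]
      · have h' : g • i ≠ g • j := fun e => h (MulAction.injective g e)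
        simp [h, h']
    | succ r ih =>
      intro g i j
      rw [pow_succ, Matrix.mul_apply, Matrix.mul_apply]
      rw [← Equiv.sum_comp (MulAction.toPerm ((α ^ r) g))]
      apply Finset.sum_congr rfl
      intro l _
      simp only [MulAction.toPerm_apply]
      rw [ih]
      have e1 : (α ^ (r + 1)) g = α ((α ^ r) g) := by rw [pow_succ']; rfl
      rw [e1, hAint]
  have hCinv : ∀ (g : Γ) (i j : Ω), (A ^ m) (g • i) (g • j) = (A ^ m) i j := by
    intro g i j
    have h1 := hpowinv m g i j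
    rw [hαm] at h1
    exact h1
  have hC := matrix_eq_of_invariant h2 (A ^ m) hCinv hne
  obtain ⟨x, hx⟩ : ∃ x : ℤ, x = (A ^ m) i₀ i₀ - (A ^ m) i₀ j₀ := ⟨_, rfl⟩
  obtain ⟨y, hy⟩ : ∃ y : ℤ, y = (A ^ m) i₀ j₀ := ⟨_, rfl⟩
  rw [← hx, ← hy] at hC
  have hxy : x + (Fintype.card Ω : ℤ) * y = k ^ m := by
    have h1 := congrFun (congrFun (hpowJ m) i₀) i₀
    rw [hC, Matrix.add_mul, Matrix.smul_mul, Matrix.one_mul, Matrix.smul_mul,
      allOnes_mul_allOnes] at h1
    simp only [Matrix.add_apply, Matrix.smul_apply, allOnes_apply, smul_eq_mul] at h1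
    linarith
  have hD : ∀ r : ℕ, ∃ c : ℤ, A ^ r * (A ^ r)ᵀ =
      ((k - lam) ^ r) • (1 : Matrix Ω Ω ℤ) + c • allOnes Ω := by
    intro r
    induction r with
    | zero => exact ⟨0, by simp⟩
    | succ r ih =>
      obtain ⟨c, hc⟩ := ih
      refine ⟨(k - lam) ^ r * lam + c * (k * k), ?_⟩
      have e1 : A ^ (r + 1) * (A ^ (r + 1))ᵀ = A * (A ^ r * (A ^ r)ᵀ) * Aᵀ := by
        rw [pow_succ', Matrix.transpose_mul]
        simp only [Matrix.mul_assoc]
      rw [e1, hc, Matrix.mul_add, Matrix.add_mul, Matrix.mul_smul, Matrix.mul_one,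
        Matrix.smul_mul, hB, Matrix.mul_smul, Matrix.smul_mul, hAJ, Matrix.smul_mul, hJAt]
      ext i j
      simp only [Matrix.add_apply, Matrix.smul_apply, allOnes_apply, smul_eq_mul,
        Matrix.one_apply]
      split_ifs <;> ring
  obtain ⟨c, hc⟩ := hD m
  rw [hC] at hc
  have hprod : (x • (1 : Matrix Ω Ω ℤ) + y • allOnes Ω) *
      (x • (1 : Matrix Ω Ω ℤ) + y • allOnes Ω)ᵀ =
      (x * x) • (1 : Matrix Ω Ω ℤ) +
        (2 * x * y + (Fintype.card Ω : ℤ) * y * y) • allOnes Ω := by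
    rw [Matrix.transpose_add, Matrix.transpose_smul, Matrix.transpose_smul,
      Matrix.transpose_one, allOnes_transpose, Matrix.mul_add, Matrix.add_mul, Matrix.add_mul]
    simp only [Matrix.smul_mul, Matrix.mul_smul, Matrix.one_mul, Matrix.mul_one,
      allOnes_mul_allOnes]
    ext i j
    simp only [Matrix.add_apply, Matrix.smul_apply, allOnes_apply, smul_eq_mul,
      Matrix.one_apply]
    split_ifs <;> ring
  rw [hprod] at hc
  have h1 := congrFun (congrFun hc i₀) i₀
  have h3 := congrFun (congrFun hc i₀) j₀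
  simp only [Matrix.add_apply, Matrix.smul_apply, allOnes_apply, smul_eq_mul,
    Matrix.one_apply_eq, Matrix.one_apply_ne hne] at h1 h3
  refine ⟨k - lam, x, y, ?_, hxy, ?_⟩
  · linarith
  · linarith

end

end Cfsg.Agent.Helper71
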