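import Mathlib
import Cfsg.Agent.Helper71.TwoTransMatrix

set_option autoImplicit false

namespace Cfsg.Agent.Helper71

open Matrix

section

variable {Γ : Type*} [Group Γ] {Ω : Type*} [Fintype Ω] [MulAction Γ Ω]

/-- Orbit lengths (coprime to the degree) of the image of a point stabilizer under an
automorphism of odd order of a doubly transitive group are `1` or `n - 1`. -/
theorem card_orbit_map_stabilizer (h2 : MulAction.IsMultiplyPretransitive Γ Ω 2) (o : Ω)
    (α : MulAut Γ) (hα : Odd (orderOf α)) (ω : Ω)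
    (hk : (Nat.card (MulAction.orbit ((MulAction.stabilizer Γ o).map α.toMonoidHom) ω)).Coprime
      (Fintype.card Ω)) :
    Nat.card (MulAction.orbit ((MulAction.stabilizer Γ o).map α.toMonoidHom) ω) = 1 ∨
      Nat.card (MulAction.orbit ((MulAction.stabilizer Γ o).map α.toMonoidHom) ω) =
        Fintype.card Ω - 1 := by
  classical
  have htr : MulAction.IsPretransitive Γ Ω := MulAction.isPretransitive_of_is_two_pretransitive
  obtain ⟨K, hK⟩ : ∃ K : Subgroup Γ, K = (MulAction.stabilizer Γ o).map α.toMonoidHom :=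
    ⟨_, rfl⟩
  rw [← hK] at hk ⊢
  obtain ⟨k, hkdef⟩ : ∃ k : ℕ, k = Nat.card (MulAction.orbit K ω) := ⟨_, rfl⟩
  rw [← hkdef] at hk ⊢
  have hmemorb : ∀ j : Ω, j ∈ MulAction.orbit K ω ↔ ∃ g : Γ, g • o = o ∧ α g • ω = j := by
    intro j
    constructor
    · rintro ⟨⟨x, hx⟩, rfl⟩
      rw [hK] at hx
      obtain ⟨g, hg, rfl⟩ := hx
      exact ⟨g, hg, rfl⟩
    · rintro ⟨g, hg, rfl⟩
      refine ⟨⟨α g, ?_⟩, rfl⟩
      rw [hK]
      exact ⟨g, hg, rfl⟩
  have hk1 : 1 ≤ k := by
    rw [hkdef, Nat.card_coe_set_eq]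
    exact (Set.ncard_pos (Set.toFinite _)).mpr ⟨ω, MulAction.mem_orbit_self ω⟩
  have hkle : k ≤ Fintype.card Ω := by
    rw [hkdef, ← Nat.card_eq_fintype_card]
    exact Nat.card_le_card_of_injective _ Subtype.val_injective
  by_cases hn : Fintype.card Ω < 2
  · left
    omega
  push Not at hn
  have hkn : k < Fintype.card Ω := by
    rcases Nat.lt_or_ge k (Fintype.card Ω) with h | h
    · exact h
    · exfalso
      have hkeq : k = Fintype.card Ω := le_antisymm hkle h
      rw [hkeq, Nat.coprime_self] at hk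
      omega
  -- the incidence matrix
  let A : Matrix Ω Ω ℤ := Matrix.of fun i j =>
    if ∃ g : Γ, g • o = i ∧ α g • ω = j then 1 else 0
  have hAdef : ∀ i j, A i j = if ∃ g : Γ, g • o = i ∧ α g • ω = j then 1 else 0 :=
    fun i j => rfl
  have hA01 : ∀ i j, A i j = 0 ∨ A i j = 1 := by
    intro i j
    rw [hAdef]
    split_ifs
    · right; rfl
    · left; rfl
  have hAint : ∀ (g : Γ) (i j : Ω), A (g • i) (α g • j) = A i j := by
    intro g i j
    rw [hAdef, hAdef]
    have hiff : (∃ g' : Γ, g' • o = g • i ∧ α g' • ω = α g • j) ↔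
        (∃ g' : Γ, g' • o = i ∧ α g' • ω = j) := by
      constructor
      · rintro ⟨g', h1, h2'⟩
        refine ⟨g⁻¹ * g', ?_, ?_⟩
        · rw [mul_smul, h1, inv_smul_smul]
        · rw [map_mul, map_inv, mul_smul, h2', inv_smul_smul]
      · rintro ⟨g', h1, h2'⟩
        refine ⟨g * g', ?_, ?_⟩
        · rw [mul_smul, h1]
        · rw [map_mul, mul_smul, h2']
    simp only [hiff]
  have hrow0 : ∑ j, A o j = (k : ℤ) := by
    have h1 : ∀ j, A o j = if j ∈ MulAction.orbit K ω then 1 else 0 := by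
      intro j
      rw [hAdef]
      simp only [hmemorb]
    simp only [h1]
    rw [Finset.sum_boole, hkdef, Nat.card_coe_set_eq]
    congr 1
    rw [← Set.ncard_coe_finset]
    congr 1
    ext j
    simp
  have hArow : ∀ i, ∑ j, A i j = (k : ℤ) := by
    intro i
    obtain ⟨g, rfl⟩ := MulAction.exists_smul_eq Γ o i
    rw [← hrow0, ← Equiv.sum_comp (MulAction.toPerm (α g))]
    apply Finset.sum_congr rfl
    intro j _
    simp only [MulAction.toPerm_apply]
    exact hAint g o j
  have hcoleq : ∀ (g : Γ) (j : Ω), ∑ i, A i (α g • j) = ∑ i, A i j := by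
    intro g j
    rw [← Equiv.sum_comp (MulAction.toPerm g)]
    apply Finset.sum_congr rfl
    intro i _
    simp only [MulAction.toPerm_apply]
    exact hAint g i j
  have hAcol : ∀ j, ∑ i, A i j = (k : ℤ) := by
    intro j
    have hall : ∀ j', ∑ i, A i j' = ∑ i, A i j := by
      intro j'
      obtain ⟨h, rfl⟩ := MulAction.exists_smul_eq Γ j j'
      have := hcoleq (α.symm h) j
      rw [MulEquiv.apply_symm_apply] at this
      exact this
    have htot : ∑ j', ∑ i, A i j' = (Fintype.card Ω : ℤ) * (k : ℤ) := by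
      rw [Finset.sum_comm]
      simp only [hArow]
      simp
    simp only [hall] at htot
    simp only [Finset.sum_const, Finset.card_univ, nsmul_eq_mul] at htot
    have hpos : (0 : ℤ) < (Fintype.card Ω : ℤ) := by
      have : (2 : ℤ) ≤ (Fintype.card Ω : ℤ) := by exact_mod_cast hn
      linarith
    exact mul_left_cancel₀ hpos.ne' htot
  obtain ⟨s, x, y, hs, hxy, hx⟩ := exists_design_parameters h2 α (orderOf α)
    (pow_orderOf_eq_one α) A (k : ℤ) hA01 hAint hArow hAcol hn
  exact design_arith (Fintype.card Ω) k (orderOf α) s x y hn hk1 hkn hk hα hs hxy hx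

/-- If an orbit of `K` has length `1` or `n - 1`, then `K` fixes a point. -/
theorem exists_fixed_of_card_orbit (K : Subgroup Γ) (ω : Ω)
    (h : Nat.card (MulAction.orbit K ω) = 1 ∨
      Nat.card (MulAction.orbit K ω) = Fintype.card Ω - 1) :
    ∃ ω' : Ω, ∀ g ∈ K, g • ω' = ω' := by
  classical
  have hone : Nat.card (MulAction.orbit K ω) = 1 → ∃ ω' : Ω, ∀ g ∈ K, g • ω' = ω' := by
    intro h1
    refine ⟨ω, fun g hg => ?_⟩
    rw [Nat.card_eq_one_iff_unique] at h1
    have h2 := h1.1.elim
      (⟨(⟨g, hg⟩ : K) • ω, MulAction.mem_orbit _ _⟩ : MulAction.orbit K ω)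
      ⟨ω, MulAction.mem_orbit_self _⟩
    exact congrArg Subtype.val h2
  rcases h with h | h
  · exact hone h
  · by_cases hn : Fintype.card Ω ≤ 2
    · -- then the orbit has at most one element
      have hpos : 1 ≤ Nat.card (MulAction.orbit K ω) := by
        rw [Nat.card_coe_set_eq]
        exact (Set.ncard_pos (Set.toFinite _)).mpr ⟨ω, MulAction.mem_orbit_self ω⟩
      exact hone (by omega)
    · push Not at hn
      -- the complement of the orbit is a single point
      have hcompl : (MulAction.orbit K ω)ᶜ.ncard = 1 := by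
        have h1 := Set.ncard_add_ncard_compl (MulAction.orbit K ω)
        rw [← Nat.card_coe_set_eq, h, Nat.card_eq_fintype_card] at h1
        omega
      obtain ⟨ω', hω'⟩ := Set.ncard_eq_one.mp hcompl
      refine ⟨ω', fun g hg => ?_⟩
      have h1 : g • ω' ∈ (MulAction.orbit K ω)ᶜ := by
        intro hmem
        have h2 : ω' ∈ (MulAction.orbit K ω)ᶜ := by rw [hω']; rfl
        apply h2
        have h3 : (⟨g, hg⟩ : K)⁻¹ • (g • ω') ∈ MulAction.orbit K ω :=
          MulAction.smul_orbit_subset _ _ ⟨_, hmem, rfl⟩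
        have h4 : (⟨g, hg⟩ : K)⁻¹ • (g • ω') = ω' := by
          show (g⁻¹ : Γ) • (g • ω') = ω'
          rw [inv_smul_smul]
        rw [h4] at h3
        exact h3
      rw [hω'] at h1
      exact h1

end

end Cfsg.Agent.Helper71
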