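import Mathlib
import Cfsg.Agent.Helper35.Burnside

/-!
# Cyclic and generalized quaternion `2`-groups: generation and Frattini subgroup
-/

set_option autoImplicit false

namespace Cfsg.Agent.Helper71.ZGen

/-- "cyclic or generalized quaternion" -/
def CQ (T : Type*) [Group T] : Prop :=
  IsCyclic T ∨ ∃ n : ℕ, Nonempty (T ≃* QuaternionGroup (2 ^ n))

theorem CQ.of_equiv {T T' : Type*} [Group T] [Group T'] (e : T ≃* T') (h : CQ T) : CQ T' := by
  rcases h with h | ⟨n, ⟨e'⟩⟩
  · left
    exact isCyclic_of_surjective e e.surjective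
  · right
    exact ⟨n, ⟨e.symm.trans e'⟩⟩

theorem exists_two_gen {T : Type*} [Group T] (h : CQ T) :
    ∃ a b : T, Subgroup.zpowers a ⊔ Subgroup.zpowers b = ⊤ := by
  rcases h with h | ⟨n, ⟨e⟩⟩
  · obtain ⟨g, hg⟩ := isCyclic_iff_exists_zpowers_eq_top.mp h
    exact ⟨g, 1, by rw [hg]; simp⟩
  · have : NeZero (2 * 2 ^ n) := ⟨by positivity⟩
    refine ⟨e.symm (QuaternionGroup.a 1), e.symm (QuaternionGroup.xa 0), ?_⟩
    rw [eq_top_iff]
    intro t _
    have ha : ∀ i : ZMod (2 * 2 ^ n), e.symm (QuaternionGroup.a i) ∈
        Subgroup.zpowers (e.symm (QuaternionGroup.a 1)) := by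
      intro i
      have h1 : (QuaternionGroup.a 1 : QuaternionGroup (2 ^ n)) ^ i.val = QuaternionGroup.a i := by
        rw [QuaternionGroup.a_one_pow, ZMod.natCast_zmod_val]
      rw [← h1, map_pow]
      exact Subgroup.pow_mem _ (Subgroup.mem_zpowers _) _
    have key : ∀ q : QuaternionGroup (2 ^ n), e.symm q ∈
        Subgroup.zpowers (e.symm (QuaternionGroup.a 1)) ⊔
          Subgroup.zpowers (e.symm (QuaternionGroup.xa 0)) := by
      intro q
      cases q with
      | a i => exact Subgroup.mem_sup_left (ha i)
      | xa i =>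
        have h2 : (QuaternionGroup.xa i : QuaternionGroup (2 ^ n)) =
            QuaternionGroup.xa 0 * QuaternionGroup.a i := by
          rw [QuaternionGroup.xa_mul_a, zero_add]
        rw [h2, map_mul]
        exact Subgroup.mul_mem _ (Subgroup.mem_sup_right (Subgroup.mem_zpowers _))
          (Subgroup.mem_sup_left (ha i))
    have h3 := key (e t)
    rwa [e.symm_apply_apply] at h3

theorem isCoatom_of_index_two {G : Type*} [Group G] {M : Subgroup G} (h : M.index = 2) :
    IsCoatom M := by
  refine ⟨?_, fun H hMH => ?_⟩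
  · intro htop
    rw [htop, Subgroup.index_top] at h
    omega
  · have h1 := Subgroup.relIndex_mul_index hMH.le
    rw [h] at h1
    have h2 : M.relIndex H ≠ 1 := by
      intro h3
      exact hMH.not_ge (Subgroup.relIndex_eq_one.mp h3)
    have h3 : M.relIndex H ∣ 2 := ⟨_, h1.symm⟩
    rcases (Nat.dvd_prime Nat.prime_two).mp h3 with h4 | h4
    · exact absurd h4 h2
    · rw [h4] at h1
      have h5 : H.index = 1 := by omega
      exact Subgroup.index_eq_one.mp h5

theorem frattini_isCyclic {T : Type*} [Group T] [Finite T] (h : CQ T) : IsCyclic (frattini T) := by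
  rcases h with h | ⟨n, ⟨e⟩⟩
  · infer_instance
  · have : NeZero (2 ^ n) := ⟨by positivity⟩
    have hidxA : (Subgroup.zpowers (QuaternionGroup.a 1 : QuaternionGroup (2 ^ n))).index = 2 := by
      have h1 := (Subgroup.zpowers (QuaternionGroup.a 1 : QuaternionGroup (2 ^ n))).card_mul_index
      rw [Nat.card_zpowers, QuaternionGroup.orderOf_a_one, Nat.card_eq_fintype_card,
        QuaternionGroup.card] at h1
      have h2 : 2 * 2 ^ n *
          (Subgroup.zpowers (QuaternionGroup.a 1 : QuaternionGroup (2 ^ n))).index =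
          2 * 2 ^ n * 2 := by rw [h1]; ring
      exact Nat.eq_of_mul_eq_mul_left (by positivity) h2
    have hidxM : ((Subgroup.zpowers (QuaternionGroup.a 1 : QuaternionGroup (2 ^ n))).comap
        e.toMonoidHom).index = 2 := by
      rw [Subgroup.index_comap_of_surjective _ e.surjective, hidxA]
    have hle : frattini T ≤ (Subgroup.zpowers (QuaternionGroup.a 1 :
        QuaternionGroup (2 ^ n))).comap e.toMonoidHom :=
      frattini_le_coatom (isCoatom_of_index_two hidxM)
    have hMc : IsCyclic ((Subgroup.zpowers (QuaternionGroup.a 1 :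
        QuaternionGroup (2 ^ n))).comap e.toMonoidHom) := by
      have hf : Function.Injective (e.toMonoidHom.subgroupComap
          (Subgroup.zpowers (QuaternionGroup.a 1 : QuaternionGroup (2 ^ n)))) := by
        intro x y hxy
        apply Subtype.ext
        apply e.injective
        exact congrArg Subtype.val hxy
      exact isCyclic_of_injective _ hf
    exact isCyclic_of_injective (Subgroup.inclusion hle) (Subgroup.inclusion_injective hle)

theorem card_quot_frattini_le {T : Type*} [Group T] [Finite T] (hT : IsPGroup 2 T) (h : CQ T) :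
    Nat.card (T ⧸ frattini T) ≤ 4 := by
  have : Fact (Nat.Prime 2) := ⟨Nat.prime_two⟩
  obtain ⟨a, b, hab⟩ := exists_two_gen h
  exact Cfsg.Agent.Helper35.card_quotient_frattini_le hT a b hab

theorem isCyclic_of_card_quot_frattini_le_two {T : Type*} [Group T] [Finite T]
    (h : Nat.card (T ⧸ frattini T) ≤ 2) : IsCyclic T := by
  rw [← Subgroup.index_eq_card] at h
  have h0 : (frattini T).index ≠ 0 := Subgroup.index_ne_zero_of_finite
  rcases Nat.lt_or_ge (frattini T).index 2 with h1 | h2
  · have h1' : (frattini T).index = 1 := by omega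
    have htop : frattini T = ⊤ := Subgroup.index_eq_one.mp h1'
    have hb : (⊥ : Subgroup T) = ⊤ := frattini_nongenerating (by rw [htop]; simp)
    have hsub : Subsingleton T := by
      refine ⟨fun x y => ?_⟩
      have hx : x ∈ (⊥ : Subgroup T) := by rw [hb]; exact Subgroup.mem_top x
      have hy : y ∈ (⊥ : Subgroup T) := by rw [hb]; exact Subgroup.mem_top y
      rw [Subgroup.mem_bot.mp hx, Subgroup.mem_bot.mp hy]
    exact isCyclic_of_subsingleton
  · have h2' : (frattini T).index = 2 := by omega
    have hco := isCoatom_of_index_two h2'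
    obtain ⟨t, ht⟩ : ∃ t : T, t ∉ frattini T := by
      by_contra hcon
      push Not at hcon
      have h3 : frattini T = ⊤ := eq_top_iff.mpr (fun x _ => hcon x)
      rw [h3, Subgroup.index_top] at h2'
      omega
    have hlt : frattini T < Subgroup.zpowers t ⊔ frattini T := by
      refine lt_of_le_of_ne le_sup_right ?_
      intro heq
      apply ht
      rw [heq]
      exact Subgroup.mem_sup_left (Subgroup.mem_zpowers t)
    have htop : Subgroup.zpowers t ⊔ frattini T = ⊤ := hco.2 _ hlt
    have hz : Subgroup.zpowers t = ⊤ := frattini_nongenerating htop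
    exact isCyclic_iff_exists_zpowers_eq_top.mpr ⟨t, hz⟩

end Cfsg.Agent.Helper71.ZGen
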