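import Mathlib

/-!
# Klein pairs and normal subgroups of `A₄`, `S₄`, `A₅`, `S₅`

A finite group containing two distinct commuting involutions is not a Z-group; every nontrivial
normal subgroup of `A₄`, `S₄`, `A₅`, `S₅` contains such a pair, hence is not a Z-group.
-/

set_option autoImplicit false

namespace Cfsg.Agent.Helper71.ZKlein

/-- two distinct commuting involutions -/
def HasKlein (Q : Type*) [Group Q] : Prop :=
  ∃ a b : Q, a ≠ 1 ∧ b ≠ 1 ∧ a ≠ b ∧ a * a = 1 ∧ b * b = 1 ∧ a * b = b * a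

theorem isPGroup_closure_pair {Q : Type*} [Group Q] (a b : Q) (ha2 : a * a = 1)
    (hb2 : b * b = 1) (hc : a * b = b * a) : IsPGroup 2 (Subgroup.closure ({a, b} : Set Q)) := by
  have hS : ∀ x ∈ ({a, b} : Set Q), ∀ y ∈ ({a, b} : Set Q), x * y = y * x := by
    rintro x (rfl | rfl) y (rfl | rfl)
    · rfl
    · exact hc
    · exact hc.symm
    · rfl
  have hcomm : ∀ x ∈ Subgroup.closure ({a, b} : Set Q),
      ∀ y ∈ Subgroup.closure ({a, b} : Set Q), x * y = y * x := by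
    intro x hx y hy
    have hI : IsMulCommutative (Subgroup.closure ({a, b} : Set Q)) :=
      Subgroup.isMulCommutative_closure hS
    have h1 := hI.is_comm.comm ⟨x, hx⟩ ⟨y, hy⟩
    exact congrArg Subtype.val h1
  have hsq : ∀ x ∈ Subgroup.closure ({a, b} : Set Q), x * x = 1 := by
    intro x hx
    induction hx using Subgroup.closure_induction with
    | mem y hy =>
      rcases hy with rfl | rfl
      · exact ha2
      · exact hb2
    | one => simp
    | mul x y hx hy ihx ihy =>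
      calc x * y * (x * y) = x * (y * x) * y := by group
        _ = x * (x * y) * y := by rw [hcomm y hy x hx]
        _ = (x * x) * (y * y) := by group
        _ = 1 := by rw [ihx, ihy, one_mul]
    | inv x hx ih =>
      calc x⁻¹ * x⁻¹ = (x * x)⁻¹ := by group
        _ = 1 := by rw [ih, inv_one]
  rintro ⟨x, hx⟩
  refine ⟨1, ?_⟩
  apply Subtype.ext
  rw [pow_one]
  show x ^ 2 = 1
  rw [pow_two]
  exact hsq x hx

theorem not_isZGroup_of_hasKlein {Q : Type*} [Group Q] [Finite Q] (h : HasKlein Q) :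
    ¬ IsZGroup Q := by
  classical
  intro hZ
  obtain ⟨a, b, ha, hb, hab, ha2, hb2, hc⟩ := h
  have : Fact (Nat.Prime 2) := ⟨Nat.prime_two⟩
  have hW : IsPGroup 2 (Subgroup.closure ({a, b} : Set Q)) :=
    isPGroup_closure_pair a b ha2 hb2 hc
  obtain ⟨P, hP⟩ := hW.exists_le_sylow
  have hcyc : IsCyclic P := inferInstance
  have haP : a ∈ (P : Subgroup Q) := hP (Subgroup.subset_closure (by simp))
  have hbP : b ∈ (P : Subgroup Q) := hP (Subgroup.subset_closure (by simp))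
  have hfin : Fintype P := Fintype.ofFinite P
  have hle : (Finset.univ.filter (fun x : P => x ^ 2 = 1)).card ≤ 2 :=
    IsCyclic.card_pow_eq_one_le (by norm_num)
  have hsub : ({1, ⟨a, haP⟩, ⟨b, hbP⟩} : Finset P) ⊆
      Finset.univ.filter (fun x : P => x ^ 2 = 1) := by
    intro x hx
    simp only [Finset.mem_insert, Finset.mem_singleton] at hx
    rw [Finset.mem_filter]
    refine ⟨Finset.mem_univ _, ?_⟩
    rcases hx with rfl | rfl | rfl
    · simp
    · apply Subtype.ext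
      show a ^ 2 = 1
      rw [pow_two]; exact ha2
    · apply Subtype.ext
      show b ^ 2 = 1
      rw [pow_two]; exact hb2
  have h3 : ({1, ⟨a, haP⟩, ⟨b, hbP⟩} : Finset P).card = 3 := by
    rw [Finset.card_insert_of_notMem, Finset.card_insert_of_notMem, Finset.card_singleton]
    · rw [Finset.mem_singleton]
      intro h
      exact hab (congrArg Subtype.val h)
    · rw [Finset.mem_insert, Finset.mem_singleton]
      rintro (h | h)
      · exact ha (congrArg Subtype.val h).symm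
      · exact hb (congrArg Subtype.val h).symm
  have h4 := Finset.card_le_card hsub
  omega

/-! ### degree four -/

def a4 : Equiv.Perm (Fin 4) := Equiv.swap 0 1 * Equiv.swap 2 3
def b4 : Equiv.Perm (Fin 4) := Equiv.swap 0 2 * Equiv.swap 1 3
def c4 : Equiv.Perm (Fin 4) := Equiv.swap 0 1 * Equiv.swap 1 2

theorem klein4 : a4 ≠ 1 ∧ b4 ≠ 1 ∧ a4 ≠ b4 ∧ a4 * a4 = 1 ∧ b4 * b4 = 1 ∧ a4 * b4 = b4 * a4 := by
  decide

theorem a4_mem : a4 ∈ alternatingGroup (Fin 4) := by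
  rw [Equiv.Perm.mem_alternatingGroup]; decide
theorem b4_mem : b4 ∈ alternatingGroup (Fin 4) := by
  rw [Equiv.Perm.mem_alternatingGroup]; decide
theorem c4_mem : c4 ∈ alternatingGroup (Fin 4) := by
  rw [Equiv.Perm.mem_alternatingGroup]; decide

theorem four_aux1 : ∀ g : Equiv.Perm (Fin 4), g ≠ 1 →
    (g = a4 ∨ g = b4 ∨ g = a4 * b4) ∨
    (g * a4 * g⁻¹ * a4⁻¹ = a4 ∨ g * a4 * g⁻¹ * a4⁻¹ = b4 ∨ g * a4 * g⁻¹ * a4⁻¹ = a4 * b4) ∨
    (g * b4 * g⁻¹ * b4⁻¹ = a4 ∨ g * b4 * g⁻¹ * b4⁻¹ = b4 ∨ g * b4 * g⁻¹ * b4⁻¹ = a4 * b4) := by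
  decide

theorem four_aux2 : (c4 * a4 * c4⁻¹ = a4 * b4 ∧ c4 * b4 * c4⁻¹ = a4 ∧ c4 * (a4 * b4) * c4⁻¹ = b4) := by
  decide

/-! ### degree five -/

def a5 : Equiv.Perm (Fin 5) := Equiv.swap 0 1 * Equiv.swap 2 3
def b5 : Equiv.Perm (Fin 5) := Equiv.swap 0 2 * Equiv.swap 1 3
def t5 : Equiv.Perm (Fin 5) := Equiv.swap 0 1 * Equiv.swap 1 2
def u5 : Equiv.Perm (Fin 5) := Equiv.swap 0 1 * Equiv.swap 1 2 * Equiv.swap 2 3 * Equiv.swap 3 4

theorem klein5 : a5 ≠ 1 ∧ b5 ≠ 1 ∧ a5 ≠ b5 ∧ a5 * a5 = 1 ∧ b5 * b5 = 1 ∧ a5 * b5 = b5 * a5 := by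
  decide

theorem a5_mem : a5 ∈ alternatingGroup (Fin 5) := by
  rw [Equiv.Perm.mem_alternatingGroup]; decide
theorem b5_mem : b5 ∈ alternatingGroup (Fin 5) := by
  rw [Equiv.Perm.mem_alternatingGroup]; decide
theorem t5_mem : t5 ∈ alternatingGroup (Fin 5) := by
  rw [Equiv.Perm.mem_alternatingGroup]; decide
theorem u5_mem : u5 ∈ alternatingGroup (Fin 5) := by
  rw [Equiv.Perm.mem_alternatingGroup]; decide

theorem five_aux : ∀ g : Equiv.Perm (Fin 5), g * t5 = t5 * g → g * u5 = u5 * g → g = 1 := by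
  decide +kernel

/-! ### nontrivial normal subgroups contain a Klein pair -/

theorem klein_mem_four (M : Subgroup (Equiv.Perm (Fin 4)))
    (hnorm : ∀ h ∈ alternatingGroup (Fin 4), ∀ m ∈ M, h * m * h⁻¹ ∈ M) (hne : M ≠ ⊥) :
    a4 ∈ M ∧ b4 ∈ M := by
  obtain ⟨g, hg, hg1⟩ : ∃ g ∈ M, g ≠ 1 := by
    by_contra hcon
    push Not at hcon
    exact hne ((Subgroup.eq_bot_iff_forall M).mpr hcon)
  have hcm : ∀ h ∈ alternatingGroup (Fin 4), g * h * g⁻¹ * h⁻¹ ∈ M := by
    intro h hh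
    have e : g * h * g⁻¹ * h⁻¹ = g * (h * g⁻¹ * h⁻¹) := by group
    rw [e]
    exact M.mul_mem hg (hnorm h hh _ (M.inv_mem hg))
  have hv : a4 ∈ M ∨ b4 ∈ M ∨ a4 * b4 ∈ M := by
    rcases four_aux1 g hg1 with (h | h | h) | (h | h | h) | (h | h | h)
    · left; rw [← h]; exact hg
    · right; left; rw [← h]; exact hg
    · right; right; rw [← h]; exact hg
    · left; rw [← h]; exact hcm a4 a4_mem
    · right; left; rw [← h]; exact hcm a4 a4_mem
    · right; right; rw [← h]; exact hcm a4 a4_mem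
    · left; rw [← h]; exact hcm b4 b4_mem
    · right; left; rw [← h]; exact hcm b4 b4_mem
    · right; right; rw [← h]; exact hcm b4 b4_mem
  obtain ⟨h1, h2, h3⟩ := four_aux2
  have step : ∀ m ∈ M, c4 * m * c4⁻¹ ∈ M := fun m hm => hnorm c4 c4_mem m hm
  have ha_ab : a4 ∈ M → a4 * b4 ∈ M := fun h => by rw [← h1]; exact step _ h
  have hab_b : a4 * b4 ∈ M → b4 ∈ M := fun h => by rw [← h3]; exact step _ h
  have hb_a : b4 ∈ M → a4 ∈ M := fun h => by rw [← h2]; exact step _ h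
  rcases hv with h | h | h
  · exact ⟨h, hab_b (ha_ab h)⟩
  · exact ⟨hb_a h, h⟩
  · exact ⟨hb_a (hab_b h), hab_b h⟩

theorem klein_mem_five (M : Subgroup (Equiv.Perm (Fin 5)))
    (hnorm : ∀ h ∈ alternatingGroup (Fin 5), ∀ m ∈ M, h * m * h⁻¹ ∈ M) (hne : M ≠ ⊥) :
    a5 ∈ M ∧ b5 ∈ M := by
  have hs : IsSimpleGroup (alternatingGroup (Fin 5)) := alternatingGroup.isSimpleGroup_five
  have hn : (M.subgroupOf (alternatingGroup (Fin 5))).Normal := by
    constructor
    intro n hn g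
    rw [Subgroup.mem_subgroupOf] at hn ⊢
    exact hnorm g g.2 n hn
  rcases hn.eq_bot_or_eq_top with h | h
  · exfalso
    obtain ⟨g, hg, hg1⟩ : ∃ g ∈ M, g ≠ 1 := by
      by_contra hcon
      push Not at hcon
      exact hne ((Subgroup.eq_bot_iff_forall M).mpr hcon)
    have hcm : ∀ h' ∈ alternatingGroup (Fin 5), g * h' = h' * g := by
      intro h' hh'
      have h1 : g * h' * g⁻¹ * h'⁻¹ ∈ M := by
        have e : g * h' * g⁻¹ * h'⁻¹ = g * (h' * g⁻¹ * h'⁻¹) := by group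
        rw [e]
        exact M.mul_mem hg (hnorm h' hh' _ (M.inv_mem hg))
      have h2 : g * h' * g⁻¹ * h'⁻¹ ∈ alternatingGroup (Fin 5) := by
        rw [Equiv.Perm.mem_alternatingGroup, map_mul, map_mul, map_mul, map_inv, map_inv]
        have hu : ∀ x y : ℤˣ, x * y * x⁻¹ * y⁻¹ = 1 := fun x y => by
          rw [mul_comm x y, mul_inv_cancel_right, mul_inv_cancel]
        exact hu _ _
      have h3 : g * h' * g⁻¹ * h'⁻¹ = 1 := by
        have hd := Subgroup.subgroupOf_eq_bot.mp h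
        exact Subgroup.disjoint_def.mp hd h1 h2
      calc g * h' = (g * h' * g⁻¹ * h'⁻¹) * (h' * g) := by group
        _ = h' * g := by rw [h3, one_mul]
    exact hg1 (five_aux g (hcm t5 t5_mem) (hcm u5 u5_mem))
  · have hle : alternatingGroup (Fin 5) ≤ M := Subgroup.subgroupOf_eq_top.mp h
    exact ⟨hle a5_mem, hle b5_mem⟩

theorem noZ_aux {Q P : Type*} [Group Q] [Finite Q] [Group P] (ι : Q →* P)
    (hι : Function.Injective ι) (M : Subgroup Q) (a b : P)
    (hk : a ≠ 1 ∧ b ≠ 1 ∧ a ≠ b ∧ a * a = 1 ∧ b * b = 1 ∧ a * b = b * a)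
    (ha : a ∈ M.map ι) (hb : b ∈ M.map ι) : ¬ IsZGroup M := by
  obtain ⟨a0, ha0, ha0'⟩ := ha
  obtain ⟨b0, hb0, hb0'⟩ := hb
  obtain ⟨k1, k2, k3, k4, k5, k6⟩ := hk
  apply not_isZGroup_of_hasKlein
  refine ⟨⟨a0, ha0⟩, ⟨b0, hb0⟩, ?_, ?_, ?_, ?_, ?_, ?_⟩
  · intro h
    apply k1
    have h1 : a0 = 1 := congrArg Subtype.val h
    rw [← ha0', h1, map_one]
  · intro h
    apply k2
    have h1 : b0 = 1 := congrArg Subtype.val h
    rw [← hb0', h1, map_one]
  · intro h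
    apply k3
    have h1 : a0 = b0 := congrArg Subtype.val h
    rw [← ha0', ← hb0', h1]
  · apply Subtype.ext
    apply hι
    show ι (a0 * a0) = ι 1
    rw [map_mul, ha0', k4, map_one]
  · apply Subtype.ext
    apply hι
    show ι (b0 * b0) = ι 1
    rw [map_mul, hb0', k5, map_one]
  · apply Subtype.ext
    apply hι
    show ι (a0 * b0) = ι (b0 * a0)
    rw [map_mul, map_mul, ha0', hb0', k6]

theorem noZ_four {Q : Type*} [Group Q] [Finite Q] (ι : Q →* Equiv.Perm (Fin 4))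
    (hι : Function.Injective ι) (hA : alternatingGroup (Fin 4) ≤ ι.range)
    (M : Subgroup Q) (hM : M.Normal) (hZ : IsZGroup M) : M = ⊥ := by
  by_contra hne
  have hne' : M.map ι ≠ ⊥ := by
    intro h
    exact hne ((Subgroup.map_eq_bot_iff_of_injective M hι).mp h)
  have hnorm : ∀ h ∈ alternatingGroup (Fin 4), ∀ m ∈ M.map ι, h * m * h⁻¹ ∈ M.map ι := by
    intro h hh m hm
    obtain ⟨q, rfl⟩ := hA hh
    obtain ⟨m0, hm0, rfl⟩ := hm
    exact ⟨q * m0 * q⁻¹, hM.conj_mem m0 hm0 q, by simp⟩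
  obtain ⟨ha, hb⟩ := klein_mem_four _ hnorm hne'
  exact noZ_aux ι hι M a4 b4 klein4 ha hb hZ

theorem noZ_five {Q : Type*} [Group Q] [Finite Q] (ι : Q →* Equiv.Perm (Fin 5))
    (hι : Function.Injective ι) (hA : alternatingGroup (Fin 5) ≤ ι.range)
    (M : Subgroup Q) (hM : M.Normal) (hZ : IsZGroup M) : M = ⊥ := by
  by_contra hne
  have hne' : M.map ι ≠ ⊥ := by
    intro h
    exact hne ((Subgroup.map_eq_bot_iff_of_injective M hι).mp h)
  have hnorm : ∀ h ∈ alternatingGroup (Fin 5), ∀ m ∈ M.map ι, h * m * h⁻¹ ∈ M.map ι := by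
    intro h hh m hm
    obtain ⟨q, rfl⟩ := hA hh
    obtain ⟨m0, hm0, rfl⟩ := hm
    exact ⟨q * m0 * q⁻¹, hM.conj_mem m0 hm0 q, by simp⟩
  obtain ⟨ha, hb⟩ := klein_mem_five _ hnorm hne'
  exact noZ_aux ι hι M a5 b5 klein5 ha hb hZ

theorem noZ_alt4 (M : Subgroup (alternatingGroup (Fin 4))) (hM : M.Normal) (hZ : IsZGroup M) :
    M = ⊥ :=
  noZ_four (alternatingGroup (Fin 4)).subtype Subtype.coe_injective
    (by rw [Subgroup.range_subtype]) M hM hZ

theorem noZ_perm4 (M : Subgroup (Equiv.Perm (Fin 4))) (hM : M.Normal) (hZ : IsZGroup M) :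
    M = ⊥ :=
  noZ_four (MonoidHom.id _) Function.injective_id
    (by rw [MonoidHom.range_eq_top.mpr Function.surjective_id]; exact le_top) M hM hZ

theorem noZ_alt5 (M : Subgroup (alternatingGroup (Fin 5))) (hM : M.Normal) (hZ : IsZGroup M) :
    M = ⊥ :=
  noZ_five (alternatingGroup (Fin 5)).subtype Subtype.coe_injective
    (by rw [Subgroup.range_subtype]) M hM hZ

theorem noZ_perm5 (M : Subgroup (Equiv.Perm (Fin 5))) (hM : M.Normal) (hZ : IsZGroup M) :
    M = ⊥ :=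
  noZ_five (MonoidHom.id _) Function.injective_id
    (by rw [MonoidHom.range_eq_top.mpr Function.surjective_id]; exact le_top) M hM hZ

theorem hasKlein_dihedral : HasKlein (DihedralGroup 2) :=
  ⟨DihedralGroup.r 1, DihedralGroup.sr 0, by decide, by decide, by decide, by decide, by decide,
    by decide⟩

theorem hasKlein_perm4 : HasKlein (Equiv.Perm (Fin 4)) := ⟨a4, b4, klein4⟩

theorem hasKlein_perm5 : HasKlein (Equiv.Perm (Fin 5)) := ⟨a5, b5, klein5⟩

theorem hasKlein_alt4 : HasKlein (alternatingGroup (Fin 4)) := by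
  obtain ⟨k1, k2, k3, k4, k5, k6⟩ := klein4
  exact ⟨⟨a4, a4_mem⟩, ⟨b4, b4_mem⟩, fun h => k1 (congrArg Subtype.val h),
    fun h => k2 (congrArg Subtype.val h), fun h => k3 (congrArg Subtype.val h),
    Subtype.ext k4, Subtype.ext k5, Subtype.ext k6⟩

theorem hasKlein_alt5 : HasKlein (alternatingGroup (Fin 5)) := by
  obtain ⟨k1, k2, k3, k4, k5, k6⟩ := klein5
  exact ⟨⟨a5, a5_mem⟩, ⟨b5, b5_mem⟩, fun h => k1 (congrArg Subtype.val h),
    fun h => k2 (congrArg Subtype.val h), fun h => k3 (congrArg Subtype.val h),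
    Subtype.ext k4, Subtype.ext k5, Subtype.ext k6⟩

end Cfsg.Agent.Helper71.ZKlein
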