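import Mathlib
import Cfsg.Agent.S0016
import Cfsg.Agent.Helper56.SL25
import Cfsg.Agent.Helper71.ZGen
import Cfsg.Agent.Helper71.ZKlein

/-!
# The abstract properties of Frobenius complements used for Zassenhaus' structure theorem
-/

set_option autoImplicit false

namespace Cfsg.Agent.Helper71.ZCond

open Cfsg.Agent.Helper71.ZGen

/-- the properties of a Frobenius complement that are used: `p`-subgroups have at most one
subgroup of order `p`, and nontrivial perfect subgroups are `SL(2,5)` -/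
structure ZC (G : Type*) [Group G] : Prop where
  uniq : ∀ (p : ℕ) [Fact p.Prime] (Q : Subgroup G), IsPGroup p Q → ∀ A B : Subgroup G,
    A ≤ Q → B ≤ Q → Nat.card A = p → Nat.card B = p → A = B
  perf : ∀ L : Subgroup G, ⁅L, L⁆ = L → L ≠ ⊥ → Nonempty (L ≃* Cfsg.Agent.Helper56.SL25)

variable {G : Type*} [Group G]

theorem ZC.syl [Finite G] (h : ZC G) (p : ℕ) [Fact p.Prime] (Q : Subgroup G)
    (hQ : IsPGroup p Q) :
    IsCyclic Q ∨ (p = 2 ∧ ∃ n : ℕ, Nonempty (Q ≃* QuaternionGroup (2 ^ n))) := by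
  apply Cfsg.Agent.S0016.result p hQ
  intro A B hA hB
  have h1 := h.uniq p Q hQ (A.map Q.subtype) (B.map Q.subtype) (Subgroup.map_subtype_le A)
    (Subgroup.map_subtype_le B)
    (by rw [Subgroup.card_map_of_injective Q.subtype_injective, hA])
    (by rw [Subgroup.card_map_of_injective Q.subtype_injective, hB])
  exact Subgroup.map_injective Q.subtype_injective h1

theorem ZC.cq [Finite G] (h : ZC G) (Q : Subgroup G) (hQ : IsPGroup 2 Q) : CQ Q := by
  have : Fact (Nat.Prime 2) := ⟨Nat.prime_two⟩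
  rcases h.syl 2 Q hQ with h1 | ⟨-, h2⟩
  · exact Or.inl h1
  · exact Or.inr h2

theorem ZC.odd_cyclic [Finite G] (h : ZC G) (p : ℕ) [Fact p.Prime] (hp : p ≠ 2)
    (Q : Subgroup G) (hQ : IsPGroup p Q) : IsCyclic Q := by
  rcases h.syl p Q hQ with h1 | ⟨h2, -⟩
  · exact h1
  · exact absurd h2 hp

/-- commuting involutions coincide -/
theorem ZC.inv2 (h : ZC G) (s t : G) (hs : s ≠ 1) (ht : t ≠ 1) (hs2 : s * s = 1)
    (ht2 : t * t = 1) (hst : s * t = t * s) : s = t := by
  have : Fact (Nat.Prime 2) := ⟨Nat.prime_two⟩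
  have hQ := ZKlein.isPGroup_closure_pair s t hs2 ht2 hst
  have hos : orderOf s = 2 := orderOf_eq_prime (by rw [pow_two]; exact hs2) hs
  have hot : orderOf t = 2 := orderOf_eq_prime (by rw [pow_two]; exact ht2) ht
  have h1 := h.uniq 2 _ hQ (Subgroup.zpowers s) (Subgroup.zpowers t)
    (by rw [Subgroup.zpowers_le]; exact Subgroup.subset_closure (by simp))
    (by rw [Subgroup.zpowers_le]; exact Subgroup.subset_closure (by simp))
    (by rw [Nat.card_zpowers, hos]) (by rw [Nat.card_zpowers, hot])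
  have hmem : s ∈ Subgroup.zpowers t := by rw [← h1]; exact Subgroup.mem_zpowers s
  obtain ⟨k, hk⟩ := Subgroup.mem_zpowers_iff.mp hmem
  have hk' : t ^ (k % 2) = s := by
    have h2 := zpow_mod_orderOf t k
    rw [hot] at h2
    rw [← hk]
    exact_mod_cast h2
  rcases Int.emod_two_eq_zero_or_one k with h0 | h1'
  · rw [h0, zpow_zero] at hk'
    exact absurd hk'.symm hs
  · rw [h1', zpow_one] at hk'
    exact hk'.symm

/-- a subgroup all of whose `p`-subgroups are cyclic is a Z-group -/
theorem isZGroup_of {N : Subgroup G}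
    (h : ∀ (p : ℕ) [Fact p.Prime] (Q : Subgroup G), Q ≤ N → IsPGroup p Q → IsCyclic Q) :
    IsZGroup N := by
  rw [isZGroup_iff]
  intro p hp P
  have : Fact p.Prime := ⟨hp⟩
  have h1 := h p ((P : Subgroup N).map N.subtype) (Subgroup.map_subtype_le _)
    (P.isPGroup'.map _)
  exact isCyclic_of_surjective
    ((P : Subgroup N).equivMapOfInjective N.subtype N.subtype_injective).symm
    (MulEquiv.surjective _)

end Cfsg.Agent.Helper71.ZCond
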