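import Mathlib
import Cfsg.Agent.Helper71.Fitting
import Cfsg.Agent.Helper73.FittingSolvable
import Cfsg.Agent.Helper35.Burnside
import Cfsg.Agent.Helper71.ZGen
import Cfsg.Agent.Helper71.ZRec

/-!
# The solvable core of Zassenhaus' theorem on Frobenius complements

A finite solvable group `Y` without nontrivial normal subgroups of odd order, whose `2`-core is
cyclic or generalized quaternion, and which is not cyclic, has a cyclic normal subgroup `D` with
`Y / D` isomorphic to the Klein four-group, `A₄` or `S₄`.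
-/

set_option autoImplicit false

namespace Cfsg.Agent.Helper71.ZSolv

open Cfsg.Agent.Helper71.ZGen

theorem hom_of_quot_equiv {Y Q : Type*} [Group Y] [Group Q] (D : Subgroup Y) [D.Normal]
    (e : Y ⧸ D ≃* Q) : ∃ f : Y →* Q, Function.Surjective f ∧ f.ker = D := by
  refine ⟨e.toMonoidHom.comp (QuotientGroup.mk' D), ?_, ?_⟩
  · exact e.surjective.comp (QuotientGroup.mk'_surjective D)
  · ext x
    rw [MonoidHom.mem_ker]
    show e (QuotientGroup.mk' D x) = 1 ↔ x ∈ D
    rw [e.map_eq_one_iff]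
    exact QuotientGroup.eq_one_iff x

/-- the elements acting trivially on `T / Φ(T)` lie in `T = O₂(Y)` -/
theorem mem_core_of_trivial_action {Y : Type*} [Group Y] [Finite Y]
    (hC : Subgroup.centralizer ((sylowCore 2 Y : Subgroup Y) : Set Y) ≤ sylowCore 2 Y)
    (hΦn : ((frattini ↥(sylowCore 2 Y)).map (sylowCore 2 Y).subtype).Normal) (y : Y)
    (hy : ∀ t ∈ sylowCore 2 Y, y * t * y⁻¹ * t⁻¹ ∈
      (frattini ↥(sylowCore 2 Y)).map (sylowCore 2 Y).subtype) : y ∈ sylowCore 2 Y := by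
  have hp2 : Fact (Nat.Prime 2) := ⟨Nat.prime_two⟩
  have hTn : (sylowCore 2 Y).Normal := sylowCore_normal 2 Y
  have hT2 : IsPGroup 2 (sylowCore 2 Y) := sylowCore_isPGroup 2 Y
  let B : Subgroup Y :=
    { carrier := {y | ∀ t ∈ sylowCore 2 Y, y * t * y⁻¹ * t⁻¹ ∈
        (frattini ↥(sylowCore 2 Y)).map (sylowCore 2 Y).subtype}
      one_mem' := fun t _ => by
        have e : (1 : Y) * t * 1⁻¹ * t⁻¹ = 1 := by group
        rw [e]; exact Subgroup.one_mem _
      mul_mem' := by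
        intro a b ha hb t ht
        have e : a * b * t * (a * b)⁻¹ * t⁻¹ =
            a * (b * t * b⁻¹ * t⁻¹) * a⁻¹ * (a * t * a⁻¹ * t⁻¹) := by group
        rw [e]
        exact Subgroup.mul_mem _ (hΦn.conj_mem _ (hb t ht) a) (ha t ht)
      inv_mem' := by
        intro a ha t ht
        have e : a⁻¹ * t * a⁻¹⁻¹ * t⁻¹ = a⁻¹ * (a * t * a⁻¹ * t⁻¹)⁻¹ * a⁻¹⁻¹ := by group
        rw [e]
        exact hΦn.conj_mem _ (Subgroup.inv_mem _ (ha t ht)) a⁻¹ }
  have hBn : B.Normal := by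
    constructor
    intro b hb g t ht
    have ht' : g⁻¹ * t * g ∈ sylowCore 2 Y := by
      have := hTn.conj_mem t ht g⁻¹
      simpa using this
    have e : g * b * g⁻¹ * t * (g * b * g⁻¹)⁻¹ * t⁻¹ =
        g * (b * (g⁻¹ * t * g) * b⁻¹ * (g⁻¹ * t * g)⁻¹) * g⁻¹ := by group
    rw [e]
    exact hΦn.conj_mem _ (hb _ ht') g
  have hB2 : IsPGroup 2 B := by
    rintro ⟨b, hb⟩
    obtain ⟨k, m, hm, hkm⟩ := Nat.exists_eq_two_pow_mul_odd (orderOf_pos b).ne'
    refine ⟨k, ?_⟩
    apply Subtype.ext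
    show b ^ 2 ^ k = 1
    have hhB : b ^ 2 ^ k ∈ B := B.pow_mem hb _
    have hpow : (b ^ 2 ^ k) ^ m = 1 := by
      rw [← pow_mul, ← hkm]; exact pow_orderOf_eq_one b
    have hdvd : orderOf (b ^ 2 ^ k) ∣ m := orderOf_dvd_of_pow_eq_one hpow
    have hodd : Odd (orderOf (b ^ 2 ^ k)) := hm.of_dvd_nat hdvd
    have hcop : (orderOf (b ^ 2 ^ k)).Coprime 2 := Nat.Coprime.symm (Nat.coprime_two_left.mpr hodd)
    have hnorm : b ^ 2 ^ k ∈ Subgroup.normalizer ((sylowCore 2 Y : Subgroup Y) : Set Y) := by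
      rw [Subgroup.normalizer_eq_top]; exact Subgroup.mem_top _
    have hcen := Cfsg.Agent.Helper35.centralizes_of_coprime_of_frattini hT2 hnorm hcop hhB
    have hcT : b ^ 2 ^ k ∈ sylowCore 2 Y := by
      apply hC
      rw [Subgroup.mem_centralizer_iff]
      intro t ht
      exact (hcen t ht).symm
    obtain ⟨j, hj⟩ := hT2 ⟨b ^ 2 ^ k, hcT⟩
    have hj' : (b ^ 2 ^ k) ^ 2 ^ j = 1 := congrArg Subtype.val hj
    have hd2 : orderOf (b ^ 2 ^ k) ∣ 2 ^ j := orderOf_dvd_of_pow_eq_one hj'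
    have hc1 : Nat.Coprime (2 ^ j) m := Nat.Coprime.pow_left j (Nat.coprime_two_left.mpr hm)
    have h1 : orderOf (b ^ 2 ^ k) ∣ 1 := by
      have := Nat.dvd_gcd hd2 hdvd
      rwa [hc1] at this
    exact orderOf_eq_one_iff.mp (Nat.dvd_one.mp h1)
  exact le_sylowCore_of_normal 2 B hB2 (show y ∈ B from hy)

section core

variable {Y : Type*} [Group Y] [Finite Y]

local notation "TT" => sylowCore 2 Y
local notation "ΦΦ" =>
  Subgroup.map (Subgroup.subtype (sylowCore 2 Y)) (frattini (sylowCore 2 Y))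

/-- **The solvable core.** -/
theorem solvable_core [Group.IsSolvable Y]
    (hO : ∀ M : Subgroup Y, M.Normal → Odd (Nat.card M) → M = ⊥)
    (hT : CQ (sylowCore 2 Y)) (hnc : ¬ IsCyclic Y) :
    ∃ D : Subgroup Y, IsCyclic D ∧
      ((∃ f : Y →* DihedralGroup 2, Function.Surjective f ∧ f.ker = D) ∨
       (∃ f : Y →* alternatingGroup (Fin 4), Function.Surjective f ∧ f.ker = D) ∨
       (∃ f : Y →* Equiv.Perm (Fin 4), Function.Surjective f ∧ f.ker = D)) := by
  classical
  have hp2 : Fact (Nat.Prime 2) := ⟨Nat.prime_two⟩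
  have hTn : (TT).Normal := sylowCore_normal 2 Y
  have hT2 : IsPGroup 2 TT := sylowCore_isPGroup 2 Y
  have hF : Cfsg.fittingSubgroup Y ≤ TT := by
    rw [fittingSubgroup_eq_sylowCoreSup]
    unfold sylowCoreSup
    apply iSup_le
    rintro ⟨p, hp⟩
    have hpp : p.Prime := Nat.prime_of_mem_primeFactors hp
    by_cases h2 : p = 2
    · subst h2; exact le_rfl
    · have hpf : Fact p.Prime := ⟨hpp⟩
      have hodd : Odd (Nat.card (sylowCore p Y)) := by
        obtain ⟨k, hk⟩ := IsPGroup.iff_card.mp (sylowCore_isPGroup p Y)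
        rw [hk]
        exact (hpp.odd_of_ne_two h2).pow
      show sylowCore p Y ≤ TT
      rw [hO _ (sylowCore_normal p Y) hodd]
      exact bot_le
  have hC : Subgroup.centralizer ((TT : Subgroup Y) : Set Y) ≤ TT :=
    le_trans (Subgroup.centralizer_le (SetLike.coe_subset_coe.mpr hF))
      (le_trans Cfsg.Agent.Helper73.centralizer_fittingSubgroup_le hF)
  have hΦn : (ΦΦ).Normal := by
    rw [← Subgroup.normalizer_eq_top_iff]
    have h1 := Cfsg.Agent.Helper47.normalizer_le_normalizer_map_of_characteristic TT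
      (frattini ↥TT)
    rw [Subgroup.normalizer_eq_top] at h1
    exact top_le_iff.mp h1
  have hB := mem_core_of_trivial_action hC hΦn
  have hπ : Function.Surjective (QuotientGroup.mk' ΦΦ) := QuotientGroup.mk'_surjective ΦΦ
  have hkerπ : (QuotientGroup.mk' ΦΦ).ker = ΦΦ := QuotientGroup.ker_mk' ΦΦ
  have hΦT : ΦΦ ≤ TT := Subgroup.map_subtype_le _
  have hVn : ((TT).map (QuotientGroup.mk' ΦΦ)).Normal := hTn.map _ hπ
  have hcardVΦ : Nat.card ((TT).map (QuotientGroup.mk' ΦΦ)) * Nat.card ΦΦ = Nat.card TT := by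
    have h1 := ((TT).map (QuotientGroup.mk' ΦΦ)).card_mul_index
    have h2 : ((TT).map (QuotientGroup.mk' ΦΦ)).index = (TT).index :=
      Subgroup.index_map_eq TT hπ (by rw [hkerπ]; exact hΦT)
    have h3 := Subgroup.card_eq_card_quotient_mul_card_subgroup ΦΦ
    have h4 := (TT).card_mul_index
    rw [h2] at h1
    have hidx : (TT).index ≠ 0 := Subgroup.index_ne_zero_of_finite
    have h5 : Nat.card ((TT).map (QuotientGroup.mk' ΦΦ)) * Nat.card ΦΦ * (TT).index =
        Nat.card TT * (TT).index := by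
      rw [h4, h3, ← h1]; ring
    exact Nat.eq_of_mul_eq_mul_right (Nat.pos_of_ne_zero hidx) h5
  have hcardΦ : Nat.card ΦΦ = Nat.card (frattini ↥TT) :=
    Subgroup.card_map_of_injective (TT).subtype_injective
  have hcardT : Nat.card (frattini ↥TT) * Nat.card (↥TT ⧸ frattini ↥TT) = Nat.card TT := by
    rw [mul_comm]
    exact (Subgroup.card_eq_card_quotient_mul_card_subgroup (frattini ↥TT)).symm
  have hcardV : Nat.card ((TT).map (QuotientGroup.mk' ΦΦ)) = Nat.card (↥TT ⧸ frattini ↥TT) := by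
    have key : ∀ a b c q t : ℕ, a * b = t → b = c → c * q = t → 0 < c → a = q := by
      intro a b c q t h1 h2 h3 hc
      subst h2
      exact Nat.eq_of_mul_eq_mul_left hc (by rw [mul_comm, h1, h3])
    exact key _ _ _ _ _ hcardVΦ hcardΦ hcardT Nat.card_pos
  have hCX : Subgroup.centralizer (((TT).map (QuotientGroup.mk' ΦΦ) : Subgroup (Y ⧸ ΦΦ)) :
      Set (Y ⧸ ΦΦ)) ≤ (TT).map (QuotientGroup.mk' ΦΦ) := by
    intro x hx
    obtain ⟨y, rfl⟩ := hπ x
    refine ⟨y, hB y ?_, rfl⟩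
    intro t ht
    have h1 := (Subgroup.mem_centralizer_iff.mp hx) (QuotientGroup.mk' ΦΦ t)
      (Subgroup.mem_map_of_mem _ ht)
    have h2 : QuotientGroup.mk' ΦΦ (y * t * y⁻¹ * t⁻¹) = 1 := by
      rw [map_mul, map_mul, map_mul, map_inv, map_inv, ← h1]; group
    rw [← hkerπ]
    exact h2
  have hmemΦ : ∀ (s : Y) (hs : s ∈ TT), (⟨s, hs⟩ : ↥TT) ∈ frattini ↥TT ↔ s ∈ ΦΦ := by
    intro s hs
    constructor
    · intro h; exact ⟨⟨s, hs⟩, h, rfl⟩
    · rintro ⟨s', hs', h⟩
      have e : s' = ⟨s, hs⟩ := Subtype.ext h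
      rw [← e]; exact hs'
  have hidx4 : Nat.card (↥TT ⧸ frattini ↥TT) = 4 := by
    have hle : Nat.card (↥TT ⧸ frattini ↥TT) ≤ 4 := card_quot_frattini_le hT2 hT
    obtain ⟨j, hj⟩ := IsPGroup.iff_card.mp (hT2.to_quotient (frattini ↥TT))
    by_cases h2 : Nat.card (↥TT ⧸ frattini ↥TT) ≤ 2
    · exfalso
      have hall : ∀ y : Y, y ∈ TT := by
        intro y
        apply hB
        intro t ht
        have hyt : y * t * y⁻¹ ∈ TT := hTn.conj_mem t ht y
        have hiff : (⟨y * t * y⁻¹, hyt⟩ : ↥TT) ∈ frattini ↥TT ↔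
            (⟨t, ht⟩ : ↥TT) ∈ frattini ↥TT := by
          rw [hmemΦ, hmemΦ]
          constructor
          · intro h
            have h3 := hΦn.conj_mem _ h y⁻¹
            have e : y⁻¹ * (y * t * y⁻¹) * y⁻¹⁻¹ = t := by group
            rwa [e] at h3
          · intro h; exact hΦn.conj_mem _ h y
        have hgoal : (⟨y * t * y⁻¹, hyt⟩ : ↥TT) * (⟨t, ht⟩ : ↥TT)⁻¹ ∈ frattini ↥TT := by
          have h2' := h2
          rw [← Subgroup.index_eq_card] at h2'
          have h0 : (frattini ↥TT).index ≠ 0 := Subgroup.index_ne_zero_of_finite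
          rcases Nat.lt_or_ge (frattini ↥TT).index 2 with h1 | h1
          · have h3 : (frattini ↥TT).index = 1 := by omega
            rw [Subgroup.index_eq_one.mp h3]; exact Subgroup.mem_top _
          · have hi2 : (frattini ↥TT).index = 2 := by omega
            rw [Subgroup.mul_mem_iff_of_index_two hi2, inv_mem_iff]
            exact hiff
        exact ⟨_, hgoal, rfl⟩
      have htop : TT = ⊤ := eq_top_iff.mpr (fun y _ => hall y)
      have hTc : IsCyclic TT := isCyclic_of_card_quot_frattini_le_two h2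
      apply hnc
      have e : TT ≃* Y := (MulEquiv.subgroupCongr htop).trans Subgroup.topEquiv
      exact isCyclic_of_surjective e e.surjective
    · have hj2 : j ≤ 2 := by
        rw [hj] at hle
        by_contra hcon
        have h3 : 2 ^ 3 ≤ 2 ^ j := Nat.pow_le_pow_right (by norm_num) (by omega)
        omega
      rw [hj] at h2 ⊢
      interval_cases j
      · norm_num at h2
      · norm_num at h2
      · norm_num
  have hV4 : Nat.card ((TT).map (QuotientGroup.mk' ΦΦ)) = 4 := by rw [hcardV, hidx4]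
  have hX24 : Nat.card (Y ⧸ ΦΦ) ∣ 24 := ZRec.card_dvd ((TT).map (QuotientGroup.mk' ΦΦ)) hV4 hCX
  have hX4 : 4 ∣ Nat.card (Y ⧸ ΦΦ) := by
    rw [← hV4]; exact Subgroup.card_subgroup_dvd_card _
  have hXcases : Nat.card (Y ⧸ ΦΦ) = 4 ∨ Nat.card (Y ⧸ ΦΦ) = 8 ∨ Nat.card (Y ⧸ ΦΦ) = 12 ∨
      Nat.card (Y ⧸ ΦΦ) = 24 := by
    obtain ⟨a, ha⟩ := hX4
    rw [ha] at hX24 ⊢
    have h46 : 4 * a ∣ 4 * 6 := hX24
    have h6 : a ∣ 6 := Nat.dvd_of_mul_dvd_mul_left (by norm_num) h46
    have hle : a ≤ 6 := Nat.le_of_dvd (by norm_num) h6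
    interval_cases a <;> omega
  have hΦcyc : IsCyclic ΦΦ := by
    have h1 : IsCyclic (frattini ↥TT) := frattini_isCyclic hT
    exact isCyclic_of_surjective
      ((frattini ↥TT).equivMapOfInjective (TT).subtype (TT).subtype_injective)
      (MulEquiv.surjective _)
  refine ⟨ΦΦ, hΦcyc, ?_⟩
  rcases hXcases with h4 | h8 | h12 | h24
  · left
    have htopV : (TT).map (QuotientGroup.mk' ΦΦ) = ⊤ :=
      Subgroup.eq_top_of_card_eq _ (by rw [hV4, h4])
    have hexp : ∀ x : Y ⧸ ΦΦ, x * x = 1 := by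
      intro x
      have hx : x ∈ (TT).map (QuotientGroup.mk' ΦΦ) := by rw [htopV]; exact Subgroup.mem_top x
      obtain ⟨t, ht, rfl⟩ := hx
      rw [← map_mul]
      have h1 : (⟨t, ht⟩ : ↥TT) ^ 2 ∈ frattini ↥TT :=
        Cfsg.Agent.Helper2.pow_mem_frattini_of_isPGroup hT2 _
      have h2 : t * t ∈ ΦΦ := ⟨⟨t, ht⟩ ^ 2, h1, by simp [pow_two]⟩
      rw [← hkerπ] at h2
      exact h2
    obtain ⟨e⟩ := ZRec.equiv_klein h4 hexp
    exact hom_of_quot_equiv ΦΦ e
  · exfalso
    have hYc : Nat.card Y = 8 * Nat.card ΦΦ := by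
      rw [Subgroup.card_eq_card_quotient_mul_card_subgroup ΦΦ, h8]
    obtain ⟨j, hj⟩ := IsPGroup.iff_card.mp (hT2.to_le hΦT)
    have hY2 : IsPGroup 2 Y := IsPGroup.of_card (n := j + 3) (by rw [hYc, hj]; ring)
    have hTtop : TT = ⊤ := by
      apply top_le_iff.mp
      exact le_sylowCore_of_normal 2 ⊤ (hY2.to_subgroup ⊤)
    have h5 : (TT).map (QuotientGroup.mk' ΦΦ) = ⊤ := by
      rw [eq_top_iff]
      intro x _
      obtain ⟨y, rfl⟩ := hπ x
      exact ⟨y, by rw [hTtop]; exact Subgroup.mem_top y, rfl⟩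
    rw [h5, Subgroup.card_top] at hV4
    omega
  · right; left
    obtain ⟨e⟩ := (ZRec.equiv_of_klein_normal ((TT).map (QuotientGroup.mk' ΦΦ)) hV4 hCX
      (Or.inl h12)).1 h12
    exact hom_of_quot_equiv ΦΦ e
  · right; right
    obtain ⟨e⟩ := (ZRec.equiv_of_klein_normal ((TT).map (QuotientGroup.mk' ΦΦ)) hV4 hCX
      (Or.inr h24)).2 h24
    exact hom_of_quot_equiv ΦΦ e

end core

end Cfsg.Agent.Helper71.ZSolv
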