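import Mathlib
import Cfsg.Agent.Helper71.ZCond
import Cfsg.Agent.Helper71.ZSolv

/-!
# Zassenhaus' structure theorem: the solvable case
-/

set_option autoImplicit false

namespace Cfsg.Agent.Helper71.ZMain

open Cfsg.Agent.Helper71.ZGen Cfsg.Agent.Helper71.ZCond

variable {G : Type*} [Group G] [Finite G]

omit [Finite G] in
/-- a `2`-element of a subgroup of odd order is trivial -/
theorem eq_one_of_mem_odd {O Q : Subgroup G} (hO : Odd (Nat.card O)) (hQ : IsPGroup 2 Q) {q : G}
    (hq : q ∈ Q) (hqO : q ∈ O) : q = 1 := by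
  obtain ⟨k, hk⟩ := hQ ⟨q, hq⟩
  have hk' : q ^ 2 ^ k = 1 := congrArg Subtype.val hk
  have h1 : orderOf q ∣ 2 ^ k := orderOf_dvd_of_pow_eq_one hk'
  have h2 : orderOf q ∣ Nat.card O := Subgroup.orderOf_dvd_natCard O hqO
  have hodd : Odd (orderOf q) := hO.of_dvd_nat h2
  have hc : Nat.Coprime (orderOf q) (2 ^ k) :=
    Nat.Coprime.pow_right k (Nat.coprime_two_right.mpr hodd)
  exact orderOf_eq_one_iff.mp (Nat.Coprime.eq_one_of_dvd hc h1)

/-- **The solvable case.** -/
theorem exists_solvable (h : ZC G) [Group.IsSolvable G] (S : Sylow 2 G) (hS : ¬ IsCyclic S) :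
    ∃ N : Subgroup G, IsZGroup N ∧
      ((∃ f : G →* DihedralGroup 2, Function.Surjective f ∧ f.ker = N) ∨
       (∃ f : G →* alternatingGroup (Fin 4), Function.Surjective f ∧ f.ker = N) ∨
       (∃ f : G →* Equiv.Perm (Fin 4), Function.Surjective f ∧ f.ker = N)) := by
  classical
  have hp2 : Fact (Nat.Prime 2) := ⟨Nat.prime_two⟩
  have hne : Nonempty {M : Subgroup G // M.Normal ∧ Odd (Nat.card M)} :=
    ⟨⟨⊥, inferInstance, by rw [Subgroup.card_bot]; exact odd_one⟩⟩
  obtain ⟨⟨O, hOn, hOodd⟩, hmax⟩ := Finite.exists_max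
    (fun M : {M : Subgroup G // M.Normal ∧ Odd (Nat.card M)} => Nat.card (M : Subgroup G))
  have hπ : Function.Surjective (QuotientGroup.mk' O) := QuotientGroup.mk'_surjective O
  have hker : (QuotientGroup.mk' O).ker = O := QuotientGroup.ker_mk' O
  have hO' : ∀ M : Subgroup (G ⧸ O), M.Normal → Odd (Nat.card M) → M = ⊥ := by
    intro M hMn hModd
    have hcn : (M.comap (QuotientGroup.mk' O)).Normal := hMn.comap _
    have hcard : Nat.card (M.comap (QuotientGroup.mk' O)) = Nat.card M * Nat.card O := by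
      have h1 := (M.comap (QuotientGroup.mk' O)).card_mul_index
      rw [Subgroup.index_comap_of_surjective _ hπ] at h1
      have h2 := M.card_mul_index
      have h3 := Subgroup.card_eq_card_quotient_mul_card_subgroup O
      have hidx : M.index ≠ 0 := Subgroup.index_ne_zero_of_finite
      have h4 : Nat.card (M.comap (QuotientGroup.mk' O)) * M.index =
          Nat.card M * Nat.card O * M.index := by
        rw [h1, h3, ← h2]; ring
      exact Nat.eq_of_mul_eq_mul_right (Nat.pos_of_ne_zero hidx) h4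
    have hle : Nat.card (M.comap (QuotientGroup.mk' O)) ≤ Nat.card O :=
      hmax ⟨M.comap (QuotientGroup.mk' O), hcn, by rw [hcard]; exact hModd.mul hOodd⟩
    rw [hcard] at hle
    have hpos : 0 < Nat.card O := Nat.card_pos
    have hM1 : Nat.card M ≤ 1 := by
      by_contra hcon
      have h5 : 2 * Nat.card O ≤ Nat.card M * Nat.card O := Nat.mul_le_mul_right _ (by omega)
      omega
    exact Subgroup.eq_bot_of_card_le M hM1
  have hinj : ∀ (Q : Subgroup G), IsPGroup 2 Q →
      Function.Injective ((QuotientGroup.mk' O).comp Q.subtype) := by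
    intro Q hQ
    rw [injective_iff_map_eq_one]
    intro q hq
    have hqO : (q : G) ∈ O := by rw [← hker]; exact hq
    exact Subtype.ext (eq_one_of_mem_odd hOodd hQ q.2 hqO)
  have hT : CQ (sylowCore 2 (G ⧸ O)) := by
    have hle : sylowCore 2 (G ⧸ O) ≤ (S : Subgroup G).map (QuotientGroup.mk' O) := by
      have h1 := sylowCore_le 2 (S.mapSurjective hπ)
      rwa [Sylow.coe_mapSurjective] at h1
    have hQ02 : IsPGroup 2 ((S : Subgroup G) ⊓
        (sylowCore 2 (G ⧸ O)).comap (QuotientGroup.mk' O) : Subgroup G) :=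
      S.isPGroup'.to_le inf_le_left
    have hcq := h.cq _ hQ02
    let f : ((S : Subgroup G) ⊓ (sylowCore 2 (G ⧸ O)).comap (QuotientGroup.mk' O) : Subgroup G) →*
        sylowCore 2 (G ⧸ O) :=
      ((QuotientGroup.mk' O).comp (Subgroup.subtype _)).codRestrict _
        (fun q => (Subgroup.mem_inf.mp q.2).2)
    have hf_inj : Function.Injective f := by
      intro a b hab
      apply hinj _ hQ02
      exact congrArg Subtype.val hab
    have hf_surj : Function.Surjective f := by
      rintro ⟨t, ht⟩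
      obtain ⟨s, hs, rfl⟩ := hle ht
      exact ⟨⟨s, Subgroup.mem_inf.mpr ⟨hs, ht⟩⟩, Subtype.ext rfl⟩
    exact CQ.of_equiv (MulEquiv.ofBijective f ⟨hf_inj, hf_surj⟩) hcq
  have hnc : ¬ IsCyclic (G ⧸ O) := by
    intro hc
    exact hS (isCyclic_of_injective _ (hinj S S.isPGroup'))
  obtain ⟨D, hDc, hcases⟩ := ZSolv.solvable_core hO' hT hnc
  have key : ∀ (R : Type) [Group R] (f' : (G ⧸ O) →* R), Function.Surjective f' → f'.ker = D →
      ∃ N : Subgroup G, IsZGroup N ∧ ∃ f : G →* R, Function.Surjective f ∧ f.ker = N := by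
    intro R _ f' hf' hk
    refine ⟨(f'.comp (QuotientGroup.mk' O)).ker, ?_, f'.comp (QuotientGroup.mk' O),
      hf'.comp hπ, rfl⟩
    apply isZGroup_of
    intro p hp Q hQN hQ
    by_cases hp2' : p = 2
    · subst hp2'
      let g : Q →* D := ((QuotientGroup.mk' O).comp Q.subtype).codRestrict D (fun q => by
        rw [← hk]
        exact hQN q.2)
      have hg : Function.Injective g := by
        intro a b hab
        apply hinj Q hQ
        exact congrArg Subtype.val hab
      exact isCyclic_of_injective g hg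
    · exact h.odd_cyclic p hp2' Q hQ
  rcases hcases with ⟨f', hf', hk⟩ | ⟨f', hf', hk⟩ | ⟨f', hf', hk⟩
  · obtain ⟨N, hN, f, hf, hfk⟩ := key _ f' hf' hk
    exact ⟨N, hN, Or.inl ⟨f, hf, hfk⟩⟩
  · obtain ⟨N, hN, f, hf, hfk⟩ := key _ f' hf' hk
    exact ⟨N, hN, Or.inr (Or.inl ⟨f, hf, hfk⟩)⟩
  · obtain ⟨N, hN, f, hf, hfk⟩ := key _ f' hf' hk
    exact ⟨N, hN, Or.inr (Or.inr ⟨f, hf, hfk⟩)⟩

end Cfsg.Agent.Helper71.ZMain
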