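import Mathlib
import Cfsg.Agent.Helper56.SL25

/-!
# Facts about `SL(2,5)` used for the Zassenhaus structure theorem of Frobenius complements

* proper normal subgroups are contained in `{1, -1}`;
* `-1` is the only involution, and it is a square;
* there are exactly five Sylow `2`-subgroups.
All facts are transported to any group isomorphic to `SL(2,5)`.
-/

set_option autoImplicit false

namespace Cfsg.Agent.Helper71.ZSL

open Cfsg.Agent.Helper56 (SL25 X5 Y5 Z5)
open scoped commutatorElement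

def qi : SL25 := ⟨!![2, 0; 0, 3], by decide⟩
def qj : SL25 := ⟨!![0, 1; 4, 0], by decide⟩
def qk : SL25 := ⟨!![0, 2; 2, 0], by decide⟩
def qw : SL25 := ⟨!![3, 4; 3, 1], by decide⟩

/-- the eight elements of a quaternion subgroup -/
def qS : Finset SL25 := {1, Z5, qi, Z5 * qi, qj, Z5 * qj, qk, Z5 * qk}

theorem qS_mul : ∀ a ∈ qS, ∀ b ∈ qS, a * b ∈ qS := by decide +kernel

theorem qS_card : qS.card = 8 := by decide

theorem qS_conj : ∀ a ∈ qS, qw * a * qw ^ 2 ∈ qS := by decide +kernel

theorem qw_pow : qw ^ 3 = 1 := by decide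

theorem qw_ne : qw ≠ 1 := by decide

theorem qj_sq : qj * qj = Z5 := by decide

theorem qi_mem : qi ∈ qS := by decide

theorem y_conj_not_mem : Y5 * qi * Y5 ^ 4 ∉ qS := by decide

theorem y_pow : Y5 ^ 5 = 1 := by decide

theorem center_aux : ∀ A : SL25, A * X5 = X5 * A → A * Y5 = Y5 * A → A = 1 ∨ A = Z5 := by
  decide +kernel

theorem invol_aux : ∀ A : SL25, A * A = 1 → A = 1 ∨ A = Z5 := by
  decide +kernel

theorem z_ne : Z5 ≠ 1 := by decide

theorem z_sq : Z5 * Z5 = 1 := by decide

theorem qS_pow4 : ∀ a ∈ qS, a * a * a * a = 1 := by decide +kernel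

/-- a quaternion subgroup of order `8` of `SL(2,5)` -/
def Q8 : Subgroup SL25 where
  carrier := {m | m ∈ qS}
  mul_mem' := fun {a b} ha hb => qS_mul a ha b hb
  one_mem' := by decide
  inv_mem' := by
    intro a ha
    have h4 := qS_pow4 a ha
    have hinv : a⁻¹ = a * a * a :=
      inv_eq_of_mul_eq_one_right (by rw [← mul_assoc, ← mul_assoc]; exact h4)
    show a⁻¹ ∈ qS
    rw [hinv]
    exact qS_mul _ (qS_mul _ ha _ ha) _ ha

theorem mem_Q8 (m : SL25) : m ∈ Q8 ↔ m ∈ qS := Iff.rfl

theorem card_Q8 : Nat.card Q8 = 8 := by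
  have h : Nat.card Q8 = Nat.card (↑qS : Set SL25) := rfl
  rw [h, Nat.card_coe_set_eq, Set.ncard_coe_finset, qS_card]

theorem qw_inv : qw⁻¹ = qw ^ 2 :=
  inv_eq_of_mul_eq_one_right (by rw [← pow_succ']; exact qw_pow)

theorem qw_mem_normalizer : qw ∈ Subgroup.normalizer (Q8 : Set SL25) := by
  rw [Subgroup.mem_normalizer_iff]
  intro h
  have key : ∀ x ∈ Q8, qw * x * qw⁻¹ ∈ Q8 := by
    intro x hx
    rw [qw_inv]
    exact qS_conj x hx
  refine ⟨key h, fun hh => ?_⟩
  have h1 := key _ (key _ hh)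
  have e : qw * (qw * (qw * h * qw⁻¹) * qw⁻¹) * qw⁻¹ = h := by
    have h3 : qw * qw * qw = 1 := by
      have := qw_pow
      rw [pow_succ, pow_two] at this
      exact this
    calc qw * (qw * (qw * h * qw⁻¹) * qw⁻¹) * qw⁻¹
        = (qw * qw * qw) * h * (qw * qw * qw)⁻¹ := by group
      _ = h := by rw [h3]; group
  rw [e] at h1
  exact h1

theorem order_qw : orderOf qw = 3 := by
  have : Fact (Nat.Prime 3) := ⟨Nat.prime_three⟩
  exact orderOf_eq_prime qw_pow qw_ne

theorem y_inv : Y5⁻¹ = Y5 ^ 4 :=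
  inv_eq_of_mul_eq_one_right (by rw [← pow_succ']; exact y_pow)

/-- `SL(2,5)` has exactly five Sylow `2`-subgroups. -/
theorem card_sylow : Nat.card (Sylow 2 SL25) = 5 := by
  have : Fact (Nat.Prime 2) := ⟨Nat.prime_two⟩
  have hQ : IsPGroup 2 Q8 := IsPGroup.of_card (n := 3) (by rw [card_Q8]; norm_num)
  obtain ⟨P, hP⟩ := hQ.exists_le_sylow
  have hcardP : Nat.card P ∣ 8 := by
    obtain ⟨k, hk⟩ := IsPGroup.iff_card.mp P.isPGroup'
    have h1 : Nat.card (P : Subgroup SL25) ∣ Nat.card SL25 := Subgroup.card_subgroup_dvd_card _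
    rw [Cfsg.Agent.Helper56.card_SL25] at h1
    have h2 : (2 : ℕ) ^ k ∣ 8 * 15 := by rw [← hk]; exact h1
    have h3 : Nat.Coprime (2 ^ k) 15 := Nat.Coprime.pow_left k (by norm_num)
    rw [hk]
    exact h3.dvd_of_dvd_mul_right h2
  have hPQ : (P : Subgroup SL25) = Q8 := by
    symm
    apply Subgroup.eq_of_le_of_card_ge hP
    rw [card_Q8]
    exact Nat.le_of_dvd (by norm_num) hcardP
  have hset : (P : Set SL25) = (Q8 : Set SL25) := by rw [← hPQ]; rfl
  rw [P.card_eq_index_normalizer, hset]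
  have h8 : 8 ∣ Nat.card (Subgroup.normalizer (Q8 : Set SL25)) := by
    rw [← card_Q8]
    exact Subgroup.card_dvd_of_le Subgroup.le_normalizer
  have h3 : 3 ∣ Nat.card (Subgroup.normalizer (Q8 : Set SL25)) := by
    have := Subgroup.orderOf_dvd_natCard _ qw_mem_normalizer
    rwa [order_qw] at this
  have h24 : 8 * 3 ∣ Nat.card (Subgroup.normalizer (Q8 : Set SL25)) :=
    Nat.Coprime.mul_dvd_of_dvd_of_dvd (by norm_num) h8 h3
  have hidx := (Subgroup.normalizer (Q8 : Set SL25)).card_mul_index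
  rw [Cfsg.Agent.Helper56.card_SL25] at hidx
  have hne : (Subgroup.normalizer (Q8 : Set SL25)).index ≠ 1 := by
    intro h1
    have htop := Subgroup.index_eq_one.mp h1
    have hy : Y5 ∈ Subgroup.normalizer (Q8 : Set SL25) := by rw [htop]; exact Subgroup.mem_top _
    have h2 := (Subgroup.mem_normalizer_iff.mp hy qi).mp qi_mem
    rw [y_inv] at h2
    exact y_conj_not_mem h2
  obtain ⟨t, ht⟩ := h24
  rw [ht] at hidx
  have h5 : t * (Subgroup.normalizer (Q8 : Set SL25)).index = 5 := by
    have : 24 * (t * (Subgroup.normalizer (Q8 : Set SL25)).index) = 24 * 5 := by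
      have e1 : 24 * (t * (Subgroup.normalizer (Q8 : Set SL25)).index) =
          8 * 3 * t * (Subgroup.normalizer (Q8 : Set SL25)).index := by ring
      rw [e1, hidx]
    exact Nat.eq_of_mul_eq_mul_left (by norm_num) this
  have hdvd : (Subgroup.normalizer (Q8 : Set SL25)).index ∣ 5 := ⟨t, by rw [mul_comm]; exact h5.symm⟩
  rcases (Nat.dvd_prime (by norm_num : Nat.Prime 5)).mp hdvd with h | h
  · exact absurd h hne
  · exact h

/-- every proper normal subgroup of `SL(2,5)` is contained in `{1, -1}` -/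
theorem normal_le (M : Subgroup SL25) (hM : M.Normal) (hne : M ≠ ⊤) :
    ∀ m ∈ M, m = 1 ∨ m = Z5 := by
  have hs : IsSimpleGroup (Matrix.ProjectiveSpecialLinearGroup (Fin 2) (ZMod 5)) :=
    Matrix.ProjectiveSpecialLinearGroup.rank_two_simple (by
      rw [Nat.card_eq_fintype_card, ZMod.card]; norm_num)
  have hn : (M.map (QuotientGroup.mk' (Subgroup.center SL25))).Normal :=
    hM.map _ (QuotientGroup.mk'_surjective _)
  rcases hn.eq_bot_or_eq_top with h | h
  · intro m hm
    have h1 : QuotientGroup.mk' (Subgroup.center SL25) m ∈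
        M.map (QuotientGroup.mk' (Subgroup.center SL25)) := Subgroup.mem_map_of_mem _ hm
    rw [h, Subgroup.mem_bot] at h1
    have h2 : m ∈ Subgroup.center SL25 := (QuotientGroup.eq_one_iff m).mp h1
    rw [Subgroup.mem_center_iff] at h2
    exact center_aux m (h2 X5).symm (h2 Y5).symm
  · exfalso
    apply hne
    have hperf : commutator SL25 = ⊤ :=
      Matrix.SL2.commutator_eq_top (F := ZMod 5) (a := 2) (by decide) (by decide)
    have hc : commutator SL25 ≤ M := by
      rw [_root_.commutator_def, Subgroup.commutator_le]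
      intro a _ b _
      have ha : QuotientGroup.mk' (Subgroup.center SL25) a ∈
          M.map (QuotientGroup.mk' (Subgroup.center SL25)) := by rw [h]; exact Subgroup.mem_top _
      obtain ⟨m1, hm1, h1⟩ := ha
      have hc1 : m1⁻¹ * a ∈ Subgroup.center SL25 := QuotientGroup.eq.mp h1
      have hcb : (m1⁻¹ * a) * b = b * (m1⁻¹ * a) :=
        ((Subgroup.mem_center_iff.mp hc1) b).symm
      have e : ⁅a, b⁆ = m1 * (b * m1⁻¹ * b⁻¹) := by
        rw [commutatorElement_def]
        calc a * b * a⁻¹ * b⁻¹ = m1 * ((m1⁻¹ * a) * b) * (m1⁻¹ * a)⁻¹ * m1⁻¹ * b⁻¹ := by group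
          _ = m1 * (b * (m1⁻¹ * a)) * (m1⁻¹ * a)⁻¹ * m1⁻¹ * b⁻¹ := by rw [hcb]
          _ = m1 * (b * m1⁻¹ * b⁻¹) := by group
      rw [e]
      exact M.mul_mem hm1 (hM.conj_mem _ (M.inv_mem hm1) b)
    rw [hperf] at hc
    exact top_le_iff.mp hc

/-- The facts about `SL(2,5)` transported to an isomorphic group. -/
theorem facts_of_equiv {L : Type*} [Group L] (e : L ≃* SL25) :
    Nat.card L = 120 ∧ Nat.card (Sylow 2 L) = 5 ∧
    ∃ z u : L, z ≠ 1 ∧ z * z = 1 ∧ u * u = z ∧ (∀ x : L, x * x = 1 → x = 1 ∨ x = z) ∧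
      (∀ M : Subgroup L, M.Normal → M ≠ ⊤ → ∀ m ∈ M, m = 1 ∨ m = z) := by
  have : Fact (Nat.Prime 2) := ⟨Nat.prime_two⟩
  have hcard : Nat.card L = 120 := by
    rw [Nat.card_congr e.toEquiv, Cfsg.Agent.Helper56.card_SL25]
  have : Finite L := Nat.finite_of_card_ne_zero (by rw [hcard]; norm_num)
  refine ⟨hcard, ?_, e.symm Z5, e.symm qj, ?_, ?_, ?_, ?_, ?_⟩
  · obtain ⟨P0⟩ : Nonempty (Sylow 2 SL25) := inferInstance
    have hr : (P0 : Subgroup SL25) ≤ e.toMonoidHom.range := by
      rw [MonoidHom.range_eq_top.mpr e.surjective]; exact le_top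
    let P : Sylow 2 L := P0.comapOfInjective e.toMonoidHom e.injective hr
    have hP : (P : Subgroup L) = (P0 : Subgroup SL25).comap e.toMonoidHom :=
      Sylow.coe_comapOfInjective P0 e.toMonoidHom e.injective hr
    rw [P.card_eq_index_normalizer, ← card_sylow, P0.card_eq_index_normalizer]
    have hn : Subgroup.normalizer ((P : Subgroup L) : Set L) =
        (Subgroup.normalizer ((P0 : Subgroup SL25) : Set SL25)).comap e.toMonoidHom := by
      rw [hP]
      exact (Subgroup.comap_normalizer_eq_of_surjective _ e.surjective).symm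
    have hn' : Subgroup.normalizer (P : Set L) =
        (Subgroup.normalizer (P0 : Set SL25)).comap e.toMonoidHom := hn
    rw [hn', Subgroup.index_comap_of_surjective _ e.surjective]
  · intro h
    have h1 : e (e.symm Z5) = e 1 := by rw [h]
    rw [e.apply_symm_apply, map_one] at h1
    exact z_ne h1
  · rw [← map_mul, z_sq, map_one]
  · rw [← map_mul, qj_sq]
  · intro x hx
    have h1 : e x * e x = 1 := by rw [← map_mul, hx, map_one]
    rcases invol_aux (e x) h1 with h | h
    · left
      have : e.symm (e x) = e.symm 1 := by rw [h]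
      rwa [e.symm_apply_apply, map_one] at this
    · right
      have : e.symm (e x) = e.symm Z5 := by rw [h]
      rwa [e.symm_apply_apply] at this
  · intro M hM hne m hm
    have hn : (M.map e.toMonoidHom).Normal := hM.map _ e.surjective
    have hne' : M.map e.toMonoidHom ≠ ⊤ := by
      intro htop
      apply hne
      rw [eq_top_iff]
      intro g _
      have hg : e g ∈ M.map e.toMonoidHom := by rw [htop]; exact Subgroup.mem_top _
      obtain ⟨m', hm', h1⟩ := hg
      have : m' = g := e.injective h1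
      rw [← this]; exact hm'
    rcases normal_le _ hn hne' (e m) (Subgroup.mem_map_of_mem _ hm) with h | h
    · left
      have : e.symm (e m) = e.symm 1 := by rw [h]
      rwa [e.symm_apply_apply, map_one] at this
    · right
      have : e.symm (e m) = e.symm Z5 := by rw [h]
      rwa [e.symm_apply_apply] at this

end Cfsg.Agent.Helper71.ZSL
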