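import Mathlib
import Cfsg.Agent.Helper71.ZCond
import Cfsg.Agent.Helper71.ZSL25

/-!
# Zassenhaus' structure theorem: the non-solvable case
-/

set_option autoImplicit false

namespace Cfsg.Agent.Helper71.ZNonSolv

open Cfsg.Agent.Helper71.ZGen Cfsg.Agent.Helper71.ZCond
open scoped commutatorElement Pointwise

variable {G : Type*} [Group G] [Finite G]

/-- a non-solvable finite group has a nontrivial perfect normal subgroup -/
theorem exists_perfect_normal (hns : ¬ Group.IsSolvable G) :
    ∃ L : Subgroup G, L.Normal ∧ ⁅L, L⁆ = L ∧ L ≠ ⊥ := by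
  have hne : (Set.range (fun n : ℕ => Nat.card (derivedSeries G n))).Nonempty :=
    Set.range_nonempty _
  obtain ⟨n, hn⟩ := Nat.sInf_mem hne
  have hn' : Nat.card (derivedSeries G n) =
      sInf (Set.range (fun n : ℕ => Nat.card (derivedSeries G n))) := hn
  have hmin : ∀ k, Nat.card (derivedSeries G n) ≤ Nat.card (derivedSeries G k) := by
    intro k
    rw [hn']
    exact Nat.sInf_le ⟨k, rfl⟩
  refine ⟨derivedSeries G n, derivedSeries_normal G n, ?_, ?_⟩
  · have h1 : derivedSeries G (n + 1) ≤ derivedSeries G n :=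
      (derivedSeries G n).commutator_le_self
    have h2 := Subgroup.eq_of_le_of_card_ge h1 (hmin (n + 1))
    rw [derivedSeries_succ] at h2
    exact h2
  · intro hbot
    exact hns ((Group.isSolvable_def G).mpr ⟨n, hbot⟩)

/-- **The non-solvable case.** -/
theorem exists_nonsolvable (h : ZC G) (hns : ¬ Group.IsSolvable G) :
    ∃ N : Subgroup G, IsZGroup N ∧
      ((∃ f : G →* alternatingGroup (Fin 5), Function.Surjective f ∧ f.ker = N) ∨
       (∃ f : G →* Equiv.Perm (Fin 5), Function.Surjective f ∧ f.ker = N)) := by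
  classical
  have hp2 : Fact (Nat.Prime 2) := ⟨Nat.prime_two⟩
  obtain ⟨L, hLn, hLperf, hLne⟩ := exists_perfect_normal hns
  obtain ⟨e⟩ := h.perf L hLperf hLne
  obtain ⟨hcardL, hsyl, z, u, hz1, hz2, hu, hinv, hnorm⟩ := ZSL.facts_of_equiv e
  have hzG1 : (z : G) ≠ 1 := fun h0 => hz1 (Subtype.ext h0)
  have hzG2 : (z : G) * (z : G) = 1 := congrArg Subtype.val hz2
  have huG : (u : G) * (u : G) = (z : G) := congrArg Subtype.val hu
  -- `z` is central in `G`
  have hzc : ∀ g : G, g * (z : G) * g⁻¹ = (z : G) := by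
    intro g
    have hx2 : (⟨g * (z : G) * g⁻¹, hLn.conj_mem z z.2 g⟩ : L) *
        ⟨g * (z : G) * g⁻¹, hLn.conj_mem z z.2 g⟩ = 1 := by
      apply Subtype.ext
      show g * (z : G) * g⁻¹ * (g * (z : G) * g⁻¹) = 1
      calc g * (z : G) * g⁻¹ * (g * (z : G) * g⁻¹) = g * ((z : G) * (z : G)) * g⁻¹ := by group
        _ = 1 := by rw [hzG2]; group
    rcases hinv _ hx2 with h1 | h1
    · exfalso
      have h2 : g * (z : G) * g⁻¹ = 1 := congrArg Subtype.val h1
      apply hzG1
      calc (z : G) = g⁻¹ * (g * (z : G) * g⁻¹) * g := by group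
        _ = 1 := by rw [h2]; group
    · exact congrArg Subtype.val h1
  have hzc' : ∀ g : G, (z : G) * g = g * (z : G) := by
    intro g
    calc (z : G) * g = (g * (z : G) * g⁻¹) * g := by rw [hzc g]
      _ = g * (z : G) := by group
  -- the action on the Sylow `2`-subgroups of `L`
  let ψ : G →* Equiv.Perm (Sylow 2 L) :=
    (MulAction.toPermHom (MulAut L) (Sylow 2 L)).comp (MulAut.conjNormal (H := L))
  have hψ : ∀ (g : G) (P : Sylow 2 L), ψ g P = (MulAut.conjNormal g : MulAut L) • P :=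
    fun g P => rfl
  have ε : Sylow 2 L ≃ Fin 5 := Finite.equivFinOfCardEq hsyl
  let ψ5 : G →* Equiv.Perm (Fin 5) := ε.permCongrHom.toMonoidHom.comp ψ
  have hker5 : ∀ g : G, ψ5 g = 1 ↔
      ∀ P : Sylow 2 L, (MulAut.conjNormal g : MulAut L) • P = P := by
    intro g
    have h1 : ψ5 g = 1 ↔ ψ g = 1 := by
      show ε.permCongrHom (ψ g) = 1 ↔ ψ g = 1
      exact ε.permCongrHom.map_eq_one_iff
    rw [h1]
    constructor
    · intro h0 P
      rw [← hψ, h0]; rfl
    · intro h0
      apply Equiv.ext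
      intro P
      rw [hψ, h0]; rfl
  have hfix : ∀ g : G, ψ5 g = 1 → ∀ (P : Sylow 2 L) (x : L), x ∈ P →
      (⟨g * (x : G) * g⁻¹, hLn.conj_mem x x.2 g⟩ : L) ∈ P := by
    intro g hg P x hx
    have h1 := (hker5 g).mp hg P
    have h2 : (MulAut.conjNormal g : MulAut L) • x ∈
        (MulAut.conjNormal g : MulAut L) • (P : Subgroup L) :=
      Subgroup.smul_mem_pointwise_smul x _ _ hx
    rw [← Sylow.pointwise_smul_def, h1] at h2
    have e1 : (MulAut.conjNormal g : MulAut L) • x =
        (⟨g * (x : G) * g⁻¹, hLn.conj_mem x x.2 g⟩ : L) := by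
      apply Subtype.ext
      rw [MulAut.smul_def, MulAut.conjNormal_apply]
    rw [e1] at h2
    exact h2
  -- `z` acts trivially
  have hzN : ψ5 (z : G) = 1 := by
    have h1 : (MulAut.conjNormal (z : G) : MulAut L) = 1 := by
      apply MulEquiv.ext
      intro l
      apply Subtype.ext
      rw [MulAut.conjNormal_apply, MulAut.one_apply, hzc' (l : G)]
      group
    show ε.permCongrHom ((MulAction.toPermHom (MulAut L) (Sylow 2 L))
      (MulAut.conjNormal (z : G))) = 1
    rw [h1, map_one, map_one]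
  -- `L ∩ N ⊆ {1, z}`
  have hMne : (ψ5.comp L.subtype).ker ≠ ⊤ := by
    intro htop
    obtain ⟨P⟩ : Nonempty (Sylow 2 L) := inferInstance
    have hPn : (P : Subgroup L).Normal := by
      constructor
      intro x hx l
      have hl : ψ5 (l : G) = 1 := by
        have h0 : l ∈ (ψ5.comp L.subtype).ker := by rw [htop]; exact Subgroup.mem_top l
        exact h0
      exact hfix (l : G) hl P x hx
    have hU : Unique (Sylow 2 L) := Sylow.unique_of_normal P hPn
    have h1 : Nat.card (Sylow 2 L) = 1 := Nat.card_unique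
    omega
  have hLN : ∀ x : G, x ∈ L → ψ5 x = 1 → x = 1 ∨ x = (z : G) := by
    intro x hxL hx
    have hm : (⟨x, hxL⟩ : L) ∈ (ψ5.comp L.subtype).ker := hx
    rcases hnorm _ (MonoidHom.normal_ker _) hMne _ hm with h1 | h1
    · left; exact congrArg Subtype.val h1
    · right; exact congrArg Subtype.val h1
  -- `N` centralizes `L`
  have hcen : ∀ n : G, ψ5 n = 1 → ∀ l : G, l ∈ L → n * l = l * n := by
    intro n hn
    have hθc : ∀ l : G, l ∈ L → ∀ g : G, (n * l * n⁻¹ * l⁻¹) * g = g * (n * l * n⁻¹ * l⁻¹) := by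
      intro l hl g
      have h1 : n * l * n⁻¹ * l⁻¹ ∈ L := L.mul_mem (hLn.conj_mem l hl n) (L.inv_mem hl)
      have h2 : ψ5 (n * l * n⁻¹ * l⁻¹) = 1 := by
        rw [map_mul, map_mul, map_mul, map_inv, map_inv, hn]; group
      rcases hLN _ h1 h2 with h3 | h3
      · rw [h3, one_mul, mul_one]
      · rw [h3]; exact hzc' g
    let θ : L →* G := MonoidHom.mk' (fun l => n * (l : G) * n⁻¹ * (l : G)⁻¹) (by
      intro a b
      show n * ((a : G) * (b : G)) * n⁻¹ * ((a : G) * (b : G))⁻¹ =
        n * (a : G) * n⁻¹ * (a : G)⁻¹ * (n * (b : G) * n⁻¹ * (b : G)⁻¹)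
      calc n * ((a : G) * (b : G)) * n⁻¹ * ((a : G) * (b : G))⁻¹
          = n * (a : G) * n⁻¹ * ((n * (b : G) * n⁻¹ * (b : G)⁻¹) * (a : G)⁻¹) := by group
        _ = n * (a : G) * n⁻¹ * ((a : G)⁻¹ * (n * (b : G) * n⁻¹ * (b : G)⁻¹)) := by
            rw [hθc (b : G) b.2 (a : G)⁻¹]
        _ = n * (a : G) * n⁻¹ * (a : G)⁻¹ * (n * (b : G) * n⁻¹ * (b : G)⁻¹) := by group)
    have hθ : ∀ l : L, θ l = n * (l : G) * n⁻¹ * (l : G)⁻¹ := fun l => rfl
    have hcomm : ⁅L, L⁆ ≤ Subgroup.centralizer {n} := by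
      rw [Subgroup.commutator_le]
      intro a ha b hb
      rw [Subgroup.mem_centralizer_singleton_iff]
      have h1 : θ ⁅(⟨a, ha⟩ : L), (⟨b, hb⟩ : L)⁆ = 1 := by
        rw [map_commutatorElement, commutatorElement_def]
        have h2 : θ ⟨a, ha⟩ * θ ⟨b, hb⟩ = θ ⟨b, hb⟩ * θ ⟨a, ha⟩ := by
          rw [hθ ⟨a, ha⟩]
          exact hθc a ha _
        rw [h2]; group
      rw [hθ] at h1
      have h3 : n * ⁅a, b⁆ * n⁻¹ * ⁅a, b⁆⁻¹ = 1 := h1
      calc ⁅a, b⁆ * n = (n * ⁅a, b⁆ * n⁻¹ * ⁅a, b⁆⁻¹)⁻¹ * (n * ⁅a, b⁆) := by group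
        _ = n * ⁅a, b⁆ := by rw [h3]; group
    intro l hl
    have h1 : l ∈ Subgroup.centralizer {n} := hcomm (by rw [hLperf]; exact hl)
    rw [Subgroup.mem_centralizer_singleton_iff] at h1
    exact h1.symm
  -- the kernel is a Z-group
  have hZ : IsZGroup ψ5.ker := by
    apply isZGroup_of
    intro p hp Q hQN hQ
    by_cases hp2' : p = 2
    · subst hp2'
      rcases h.cq Q hQ with hc | ⟨m, ⟨e'⟩⟩
      · exact hc
      · exfalso
        have hm : NeZero (2 ^ m) := ⟨by positivity⟩
        have ho : orderOf (e'.symm (QuaternionGroup.xa 0)) = 4 := by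
          rw [MulEquiv.orderOf_eq, QuaternionGroup.orderOf_xa]
        obtain ⟨c, hc⟩ : ∃ c : Q, c = e'.symm (QuaternionGroup.xa 0) := ⟨_, rfl⟩
        rw [← hc] at ho
        have hc4 : (c : G) ^ 4 = 1 := by
          have h1 : c ^ 4 = 1 := by rw [← ho]; exact pow_orderOf_eq_one c
          exact congrArg Subtype.val h1
        have hc2 : (c : G) * (c : G) ≠ 1 := by
          intro h0
          have h1 : c ^ 2 = 1 := by
            apply Subtype.ext
            show (c : G) ^ 2 = 1
            rw [pow_two]; exact h0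
          have h2 := orderOf_dvd_of_pow_eq_one h1
          rw [ho] at h2
          norm_num at h2
        have hcN : ψ5 (c : G) = 1 := hQN c.2
        have hs2 : (c : G) * (c : G) * ((c : G) * (c : G)) = 1 := by
          have e4 : (c : G) ^ 4 = (c : G) * (c : G) * ((c : G) * (c : G)) := by
            rw [show (4 : ℕ) = 2 + 2 from rfl, pow_add, pow_two]
          rw [← e4]; exact hc4
        have hsz : (c : G) * (c : G) = (z : G) :=
          h.inv2 _ _ hc2 hzG1 hs2 hzG2 (hzc' _).symm
        have hcu : (c : G) * (u : G) = (u : G) * (c : G) := hcen (c : G) hcN (u : G) u.2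
        have hw2 : (u : G) * (c : G) * ((u : G) * (c : G)) = 1 := by
          calc (u : G) * (c : G) * ((u : G) * (c : G))
              = (u : G) * ((c : G) * (u : G)) * (c : G) := by group
            _ = (u : G) * ((u : G) * (c : G)) * (c : G) := by rw [hcu]
            _ = ((u : G) * (u : G)) * ((c : G) * (c : G)) := by group
            _ = 1 := by rw [huG, hsz, hzG2]
        have hwL : (u : G) * (c : G) ∈ L := by
          by_cases hw1 : (u : G) * (c : G) = 1
          · rw [hw1]; exact L.one_mem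
          · rw [h.inv2 _ _ hw1 hzG1 hw2 hzG2 (hzc' _).symm]
            exact z.2
        have hcL : (c : G) ∈ L := by
          have e1 : (c : G) = (u : G)⁻¹ * ((u : G) * (c : G)) := by group
          rw [e1]
          exact L.mul_mem (L.inv_mem u.2) hwL
        rcases hLN _ hcL hcN with h1 | h1
        · apply hc2; rw [h1, one_mul]
        · apply hc2; rw [h1]; exact hzG2
    · exact h.odd_cyclic p hp2' Q hQ
  -- the image of `L` is the alternating group
  have hLalt : L.map ψ5 ≤ alternatingGroup (Fin 5) := by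
    rw [Subgroup.map_le_iff_le_comap, ← hLperf, Subgroup.commutator_le]
    intro a _ b _
    rw [Subgroup.mem_comap, map_commutatorElement, commutatorElement_def,
      Equiv.Perm.mem_alternatingGroup, map_mul, map_mul, map_mul, map_inv, map_inv]
    have hu : ∀ x y : ℤˣ, x * y * x⁻¹ * y⁻¹ = 1 := fun x y => by
      rw [mul_comm x y, mul_inv_cancel_right, mul_inv_cancel]
    exact hu _ _
  have hkerL : (ψ5.comp L.subtype).ker = Subgroup.zpowers z := by
    apply le_antisymm
    · intro m hm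
      rcases hnorm _ (MonoidHom.normal_ker _) hMne _ hm with h1 | h1
      · rw [h1]; exact Subgroup.one_mem _
      · rw [h1]; exact Subgroup.mem_zpowers z
    · rw [Subgroup.zpowers_le]
      exact hzN
  have hoz : orderOf z = 2 := orderOf_eq_prime (by rw [pow_two]; exact hz2) hz1
  have hcardmap : Nat.card (L.map ψ5) = 60 := by
    have h1 : (ψ5.comp L.subtype).range = L.map ψ5 := by
      rw [MonoidHom.range_comp, Subgroup.range_subtype]
    rw [← h1, ← Subgroup.index_ker]
    have h2 := (ψ5.comp L.subtype).ker.card_mul_index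
    rw [hkerL, Nat.card_zpowers, hoz, hcardL] at h2
    rw [hkerL]
    omega
  have hcardA : Nat.card (alternatingGroup (Fin 5)) = 60 := by
    rw [nat_card_alternatingGroup, Nat.card_eq_fintype_card, Fintype.card_fin]
    rfl
  have hLeq : L.map ψ5 = alternatingGroup (Fin 5) :=
    Subgroup.eq_of_le_of_card_ge hLalt (by rw [hcardA, hcardmap])
  have hAr : alternatingGroup (Fin 5) ≤ ψ5.range := by
    rw [← hLeq]; exact Subgroup.map_le_range _ _
  have hcardP : Nat.card (Equiv.Perm (Fin 5)) = 120 := by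
    rw [Nat.card_perm, Nat.card_eq_fintype_card, Fintype.card_fin]
    rfl
  have hr1 : 60 ∣ Nat.card ψ5.range := by
    rw [← hcardA]; exact Subgroup.card_dvd_of_le hAr
  have hr2 : Nat.card ψ5.range ∣ 120 := by
    rw [← hcardP]; exact Subgroup.card_subgroup_dvd_card _
  have hrcases : Nat.card ψ5.range = 60 ∨ Nat.card ψ5.range = 120 := by
    obtain ⟨t, ht⟩ := hr1
    rw [ht] at hr2 ⊢
    have h2 : 60 * t ∣ 60 * 2 := hr2
    have h3 : t ∣ 2 := Nat.dvd_of_mul_dvd_mul_left (by norm_num) h2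
    have h4 : t ≤ 2 := Nat.le_of_dvd (by norm_num) h3
    interval_cases t <;> omega
  refine ⟨ψ5.ker, hZ, ?_⟩
  rcases hrcases with h60 | h120
  · left
    have hreq : ψ5.range = alternatingGroup (Fin 5) :=
      (Subgroup.eq_of_le_of_card_ge hAr (by rw [hcardA, h60])).symm
    refine ⟨ψ5.codRestrict (alternatingGroup (Fin 5)) (fun g => by
      rw [← hreq]; exact ⟨g, rfl⟩), ?_, ?_⟩
    · rintro ⟨x, hx⟩
      have hx' : x ∈ ψ5.range := by rw [hreq]; exact hx
      obtain ⟨g, rfl⟩ := hx'
      exact ⟨g, Subtype.ext rfl⟩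
    · ext g
      rw [MonoidHom.mem_ker, MonoidHom.mem_ker]
      constructor
      · intro h0; exact congrArg Subtype.val h0
      · intro h0; exact Subtype.ext h0
  · right
    have htop : ψ5.range = ⊤ := Subgroup.eq_top_of_card_eq _ (by rw [h120, hcardP])
    exact ⟨ψ5, MonoidHom.range_eq_top.mp htop, rfl⟩

end Cfsg.Agent.Helper71.ZNonSolv
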