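import Mathlib
import Cfsg.Agent.Helper71.ZCond
import Cfsg.Agent.Helper47.Coprime

/-!
# Zassenhaus' structure theorem: uniqueness of the subgroup
-/

set_option autoImplicit false

namespace Cfsg.Agent.Helper71.ZUniq

open Cfsg.Agent.Helper71.ZGen Cfsg.Agent.Helper71.ZCond Cfsg.Agent.Helper71.ZKlein

variable {G : Type*} [Group G] [Finite G]

theorem le_of_noZ {R : Type*} [Group R] (f : G →* R) (hf : Function.Surjective f)
    (hR : ∀ M : Subgroup R, M.Normal → IsZGroup M → M = ⊥) (N2 : Subgroup G) (hN2 : N2.Normal)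
    (hZ : IsZGroup N2) : N2 ≤ f.ker := by
  have hn : (N2.map f).Normal := hN2.map f hf
  have hz : IsZGroup (N2.map f) := IsZGroup.of_surjective (f.subgroupMap_surjective N2)
  have hb := hR _ hn hz
  exact (Subgroup.map_eq_bot_iff N2).mp hb

theorem false_of_top {R : Type*} [Group R] (hG : IsZGroup G) (f : G →* R)
    (hf : Function.Surjective f) (hK : HasKlein R) : False := by
  have : Finite R := Finite.of_surjective f hf
  have hZ : IsZGroup R := IsZGroup.of_surjective hf
  exact not_isZGroup_of_hasKlein hK hZ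

theorem isZGroup_of_top (h : IsZGroup (⊤ : Subgroup G)) : IsZGroup G :=
  IsZGroup.of_surjective (f := (⊤ : Subgroup G).subtype) (fun g => ⟨⟨g, Subgroup.mem_top g⟩, rfl⟩)

omit [Finite G] in
theorem card_dvd_of_ker_le {R1 R2 : Type*} [Group R1] [Group R2] (f1 : G →* R1)
    (hf1 : Function.Surjective f1) (f2 : G →* R2) (hf2 : Function.Surjective f2)
    (hle : f1.ker ≤ f2.ker) : Nat.card R2 ∣ Nat.card R1 := by
  have h1 := Subgroup.index_dvd_of_le hle
  rw [Subgroup.index_ker, Subgroup.index_ker, MonoidHom.range_eq_top.mpr hf1,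
    MonoidHom.range_eq_top.mpr hf2, Subgroup.card_top, Subgroup.card_top] at h1
  exact h1

/-- two surjections onto the Klein four-group have the same kernel -/
theorem klein_le (h : ZC G) (f1 f2 : G →* DihedralGroup 2) (hf1 : Function.Surjective f1) :
    f1.ker ≤ f2.ker := by
  classical
  have hp2 : Fact (Nat.Prime 2) := ⟨Nat.prime_two⟩
  let _ : CommGroup (DihedralGroup 2) :=
    { (inferInstance : Group (DihedralGroup 2)) with mul_comm := by decide }
  obtain ⟨S⟩ : Nonempty (Sylow 2 G) := inferInstance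
  have hexp : ∀ x : DihedralGroup 2 × DihedralGroup 2, x ^ 2 = 1 := by
    rintro ⟨a, b⟩
    have h2 : ∀ a : DihedralGroup 2, a ^ 2 = 1 := by decide
    exact Prod.ext (h2 a) (h2 b)
  have hSK : ∀ g : G, ∃ s ∈ (S : Subgroup G), (f1.prod f2) s = (f1.prod f2) g := by
    have hidx : ((S : Subgroup G) ⊔ (f1.prod f2).ker).index = 1 := by
      have h1 : ((S : Subgroup G) ⊔ (f1.prod f2).ker).index ∣ (S : Subgroup G).index :=
        Subgroup.index_dvd_of_le le_sup_left
      have h2 : ((S : Subgroup G) ⊔ (f1.prod f2).ker).index ∣ (f1.prod f2).ker.index :=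
        Subgroup.index_dvd_of_le le_sup_right
      have h3 : (f1.prod f2).ker.index ∣ 16 := by
        rw [Subgroup.index_ker]
        have h4 := Subgroup.card_subgroup_dvd_card (f1.prod f2).range
        have h5 : Nat.card (DihedralGroup 2 × DihedralGroup 2) = 16 := by
          rw [Nat.card_prod, DihedralGroup.nat_card]
        rwa [h5] at h4
      have h6 : ((S : Subgroup G) ⊔ (f1.prod f2).ker).index ∣ 2 ^ 4 := h2.trans h3
      obtain ⟨j, -, hj⟩ := (Nat.dvd_prime_pow Nat.prime_two).mp h6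
      rcases Nat.eq_zero_or_pos j with h0 | hpos
      · rw [hj, h0, pow_zero]
      · exfalso
        have h7 : 2 ∣ ((S : Subgroup G) ⊔ (f1.prod f2).ker).index := by
          rw [hj]; exact dvd_pow_self 2 hpos.ne'
        exact S.not_dvd_index (h7.trans h1)
    have htop := Subgroup.index_eq_one.mp hidx
    intro g
    have hg : g ∈ (S : Subgroup G) ⊔ (f1.prod f2).ker := by rw [htop]; exact Subgroup.mem_top g
    rw [← SetLike.mem_coe, Subgroup.mul_normal] at hg
    obtain ⟨s, hs, k, hk, rfl⟩ := Set.mem_mul.mp hg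
    exact ⟨s, hs, by rw [map_mul, MonoidHom.mem_ker.mp hk, mul_one]⟩
  have hfr : frattini ↥(S : Subgroup G) ≤ ((f1.prod f2).comp (S : Subgroup G).subtype).ker :=
    Cfsg.Agent.Helper47.frattini_le_ker 2 ((f1.prod f2).comp (S : Subgroup G).subtype)
      (fun x => hexp _)
  have hφ4 : Nat.card ((f1.prod f2).comp (S : Subgroup G).subtype).range ≤ 4 := by
    rw [← Subgroup.index_ker]
    have h1 : ((f1.prod f2).comp (S : Subgroup G).subtype).ker.index ∣
        (frattini ↥(S : Subgroup G)).index := Subgroup.index_dvd_of_le hfr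
    have h2 : (frattini ↥(S : Subgroup G)).index ≤ 4 := by
      rw [Subgroup.index_eq_card]
      exact card_quot_frattini_le S.isPGroup' (h.cq S S.isPGroup')
    have h3 : (frattini ↥(S : Subgroup G)).index ≠ 0 := Subgroup.index_ne_zero_of_finite
    exact (Nat.le_of_dvd (Nat.pos_of_ne_zero h3) h1).trans h2
  have hrange : (f1.prod f2).range ≤ ((f1.prod f2).comp (S : Subgroup G).subtype).range := by
    rintro _ ⟨g, rfl⟩
    obtain ⟨s, hs, hsg⟩ := hSK g
    exact ⟨⟨s, hs⟩, hsg⟩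
  have hF4 : Nat.card (f1.prod f2).range ≤ 4 := (Subgroup.card_le_of_le hrange).trans hφ4
  have hρs : Function.Surjective (fun x : (f1.prod f2).range => x.1.1) := by
    intro d
    obtain ⟨g, rfl⟩ := hf1 d
    exact ⟨⟨(f1.prod f2) g, ⟨g, rfl⟩⟩, rfl⟩
  have hρb : Function.Bijective (fun x : (f1.prod f2).range => x.1.1) :=
    hρs.bijective_of_nat_card_le (by rw [DihedralGroup.nat_card]; exact hF4)
  intro g hg
  rw [MonoidHom.mem_ker] at hg ⊢
  have h1 : (fun x : (f1.prod f2).range => x.1.1) ⟨(f1.prod f2) g, ⟨g, rfl⟩⟩ =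
      (fun x : (f1.prod f2).range => x.1.1) ⟨(f1.prod f2) 1, ⟨1, rfl⟩⟩ := by
    show f1 g = f1 1
    rw [hg, map_one]
  have h2 := hρb.1 h1
  have h3 : (f1.prod f2) g = (f1.prod f2) 1 := congrArg Subtype.val h2
  have h4 : ((f1.prod f2) g).2 = ((f1.prod f2) 1).2 := by rw [h3]
  have h5 : f2 g = f2 1 := h4
  rw [h5, map_one]

/-- the defining property of the subgroup in Zassenhaus' theorem -/
def Good (N : Subgroup G) : Prop :=
  N.Normal ∧ IsZGroup N ∧
    (N = ⊤ ∨
      (∃ f : G →* DihedralGroup 2, Function.Surjective f ∧ f.ker = N) ∨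
      (∃ f : G →* alternatingGroup (Fin 4), Function.Surjective f ∧ f.ker = N) ∨
      (∃ f : G →* Equiv.Perm (Fin 4), Function.Surjective f ∧ f.ker = N) ∨
      (∃ f : G →* alternatingGroup (Fin 5), Function.Surjective f ∧ f.ker = N) ∨
      (∃ f : G →* Equiv.Perm (Fin 5), Function.Surjective f ∧ f.ker = N))

/-- the quotient is one of `A₄`, `S₄`, `A₅`, `S₅` -/
def Big (N : Subgroup G) : Prop :=
  ∃ (R : Type) (_ : Group R) (f : G →* R), Function.Surjective f ∧ f.ker = N ∧
    (∀ M : Subgroup R, M.Normal → IsZGroup M → M = ⊥) ∧ HasKlein R ∧ 12 ≤ Nat.card R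

theorem card_alt4 : Nat.card (alternatingGroup (Fin 4)) = 12 := by
  rw [nat_card_alternatingGroup, Nat.card_eq_fintype_card, Fintype.card_fin]
  rfl

theorem card_alt5 : Nat.card (alternatingGroup (Fin 5)) = 60 := by
  rw [nat_card_alternatingGroup, Nat.card_eq_fintype_card, Fintype.card_fin]
  rfl

theorem card_perm4 : Nat.card (Equiv.Perm (Fin 4)) = 24 := by
  rw [Nat.card_perm, Nat.card_eq_fintype_card, Fintype.card_fin]
  rfl

theorem card_perm5 : Nat.card (Equiv.Perm (Fin 5)) = 120 := by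
  rw [Nat.card_perm, Nat.card_eq_fintype_card, Fintype.card_fin]
  rfl

omit [Finite G] in
theorem good_cases {N : Subgroup G} (hN : Good N) :
    N = ⊤ ∨ (∃ f : G →* DihedralGroup 2, Function.Surjective f ∧ f.ker = N) ∨ Big N := by
  obtain ⟨-, -, h | h | ⟨f, hf, hk⟩ | ⟨f, hf, hk⟩ | ⟨f, hf, hk⟩ | ⟨f, hf, hk⟩⟩ := hN
  · exact Or.inl h
  · exact Or.inr (Or.inl h)
  · exact Or.inr (Or.inr ⟨_, _, f, hf, hk, noZ_alt4, hasKlein_alt4, by rw [card_alt4]⟩)
  · exact Or.inr (Or.inr ⟨_, _, f, hf, hk, noZ_perm4, hasKlein_perm4, by rw [card_perm4]; norm_num⟩)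
  · exact Or.inr (Or.inr ⟨_, _, f, hf, hk, noZ_alt5, hasKlein_alt5, by rw [card_alt5]; norm_num⟩)
  · exact Or.inr (Or.inr ⟨_, _, f, hf, hk, noZ_perm5, hasKlein_perm5, by rw [card_perm5]; norm_num⟩)

/-- **Uniqueness.** -/
theorem good_unique (h : ZC G) {N1 N2 : Subgroup G} (h1 : Good N1) (h2 : Good N2) : N1 = N2 := by
  have hn1 : N1.Normal := h1.1
  have hz1 : IsZGroup N1 := h1.2.1
  have hn2 : N2.Normal := h2.1
  have hz2 : IsZGroup N2 := h2.2.1
  rcases good_cases h1 with rfl | ⟨f1, hf1, rfl⟩ | ⟨R1, _, f1, hf1, rfl, hno1, hk1, hc1⟩ <;>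
  rcases good_cases h2 with rfl | ⟨f2, hf2, rfl⟩ | ⟨R2, _, f2, hf2, rfl, hno2, hk2, hc2⟩
  · rfl
  · exfalso; exact false_of_top (isZGroup_of_top hz1) f2 hf2 hasKlein_dihedral
  · exfalso; exact false_of_top (isZGroup_of_top hz1) f2 hf2 hk2
  · exfalso; exact false_of_top (isZGroup_of_top hz2) f1 hf1 hasKlein_dihedral
  · exact le_antisymm (klein_le h f1 f2 hf1) (klein_le h f2 f1 hf2)
  · exfalso
    have hle : f1.ker ≤ f2.ker := le_of_noZ f2 hf2 hno2 f1.ker hn1 hz1
    have hd := card_dvd_of_ker_le f1 hf1 f2 hf2 hle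
    rw [DihedralGroup.nat_card] at hd
    have h4 := Nat.le_of_dvd (by norm_num) hd
    omega
  · exfalso; exact false_of_top (isZGroup_of_top hz2) f1 hf1 hk1
  · exfalso
    have hle : f2.ker ≤ f1.ker := le_of_noZ f1 hf1 hno1 f2.ker hn2 hz2
    have hd := card_dvd_of_ker_le f2 hf2 f1 hf1 hle
    rw [DihedralGroup.nat_card] at hd
    have h4 := Nat.le_of_dvd (by norm_num) hd
    omega
  · exact le_antisymm (le_of_noZ f2 hf2 hno2 f1.ker hn1 hz1)
      (le_of_noZ f1 hf1 hno1 f2.ker hn2 hz2)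

end Cfsg.Agent.Helper71.ZUniq
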