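import Mathlib
import Cfsg.Agent.Helper71.ZMain
import Cfsg.Agent.Helper71.ZNonSolv
import Cfsg.Agent.Helper71.ZUniq
import Cfsg.Agent.Helper29.FrobConj
import Cfsg.Agent.Helper1.FpfSylow

/-!
# Zassenhaus' structure theorem for Frobenius complements

A Frobenius complement `G` has exactly one normal subgroup `N` with cyclic Sylow subgroups such
that `G / N` is trivial or one of `V₄`, `A₄`, `S₄`, `A₅`, `S₅`.  The theorem is proved relative to
the hypothesis `ZHyp` (Zassenhaus: a nontrivial perfect group of fixed-point-free automorphisms is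
`SL(2,5)`).
-/

set_option autoImplicit false

namespace Cfsg.Agent.Helper71.ZFinal

open Cfsg.Agent.Helper71.ZGen Cfsg.Agent.Helper71.ZCond Cfsg.Agent.Helper71.ZUniq

/-- the statement of Zassenhaus' theorem on perfect groups of fixed-point-free automorphisms -/
def ZHyp : Prop :=
  ∀ {K : Type} [Group K] [Finite K] (A : Subgroup (MulAut K)),
    (∀ φ ∈ A, φ ≠ 1 → ∀ k : K, φ k = k → k = 1) → commutator A = ⊤ → A ≠ ⊥ →
      Nonempty (A ≃* Matrix.SpecialLinearGroup (Fin 2) (ZMod 5))

variable {G : Type*} [Group G] [Finite G]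

/-- **Existence and uniqueness** from the abstract conditions. -/
theorem zassenhaus (h : ZC G) : ∃! N : Subgroup G, Good N := by
  have hex : ∃ N : Subgroup G, Good N := by
    by_cases hZ : IsZGroup G
    · exact ⟨⊤, inferInstance, inferInstance, Or.inl rfl⟩
    · have hS : ∃ S : Sylow 2 G, ¬ IsCyclic S := by
        by_contra hcon
        push Not at hcon
        apply hZ
        rw [isZGroup_iff]
        intro p hp P
        have : Fact p.Prime := ⟨hp⟩
        by_cases hp2 : p = 2
        · subst hp2; exact hcon P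
        · exact h.odd_cyclic p hp2 P P.isPGroup'
      obtain ⟨S, hS⟩ := hS
      by_cases hsolv : Group.IsSolvable G
      · obtain ⟨N, hN, hc⟩ := ZMain.exists_solvable h S hS
        refine ⟨N, ?_, hN, ?_⟩
        · rcases hc with ⟨f, -, rfl⟩ | ⟨f, -, rfl⟩ | ⟨f, -, rfl⟩ <;> exact MonoidHom.normal_ker f
        · rcases hc with hc | hc | hc
          · exact Or.inr (Or.inl hc)
          · exact Or.inr (Or.inr (Or.inl hc))
          · exact Or.inr (Or.inr (Or.inr (Or.inl hc)))
      · obtain ⟨N, hN, hc⟩ := ZNonSolv.exists_nonsolvable h hsolv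
        refine ⟨N, ?_, hN, ?_⟩
        · rcases hc with ⟨f, -, rfl⟩ | ⟨f, -, rfl⟩ <;> exact MonoidHom.normal_ker f
        · rcases hc with hc | hc
          · exact Or.inr (Or.inr (Or.inr (Or.inr (Or.inl hc))))
          · exact Or.inr (Or.inr (Or.inr (Or.inr (Or.inr hc))))
  obtain ⟨N, hN⟩ := hex
  exact ⟨N, hN, fun N' hN' => good_unique h hN' hN⟩

omit [Finite G] in
/-- A Frobenius complement satisfies the abstract conditions. -/
theorem zc_of_frob (hZ : ZHyp)
    (hFC : ∃ (L : Type) (_ : Group L) (_ : Finite L) (H : Subgroup L),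
      Cfsg.IsFrobeniusComplement H ∧ Nonempty (G ≃* H)) : ZC G := by
  obtain ⟨L0, _, _, H, hH, ⟨e⟩⟩ := hFC
  obtain ⟨N0, -, hpair⟩ := Cfsg.Agent.Helper29.exists_frobPair H hH
  have hN0n : N0.Normal := hpair.normal
  have hι : Function.Injective (H.subtype.comp e.toMonoidHom) :=
    H.subtype_injective.comp e.injective
  have hιH : ∀ g : G, (H.subtype.comp e.toMonoidHom) g ∈ H := fun g => (e g).2
  have hout : ∀ x : L0, x ∈ H → x ≠ 1 → x ∉ N0 := fun x hxH hx1 hxN =>
    hx1 (hpair.disjoint hxN hxH)
  refine ⟨?_, ?_⟩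
  · intro p hp Q hQ A B hA hB hAp hBp
    have h1 := Cfsg.Agent.Helper1.fpf_eq_of_card_prime N0 (Q.map (H.subtype.comp e.toMonoidHom))
      hpair.kernel_ne_bot
      (by rw [Subgroup.normalizer_eq_top]; exact le_top)
      (by
        rintro x ⟨q, -, rfl⟩ hx1
        rw [Subgroup.eq_bot_iff_forall]
        intro n hn
        obtain ⟨hnN, hnc⟩ := Subgroup.mem_inf.mp hn
        rw [Subgroup.mem_centralizer_singleton_iff] at hnc
        exact hpair.eq_one_of_commute (hout _ (hιH q) hx1) hnN hnc.symm)
      p (hQ.map _) (A.map (H.subtype.comp e.toMonoidHom)) (B.map (H.subtype.comp e.toMonoidHom))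
      (Subgroup.map_mono hA) (Subgroup.map_mono hB)
      (by rw [Subgroup.card_map_of_injective hι, hAp])
      (by rw [Subgroup.card_map_of_injective hι, hBp])
    exact Subgroup.map_injective hι h1
  · intro L hLperf hLne
    let α : G →* MulAut N0 := (MulAut.conjNormal (H := N0)).comp (H.subtype.comp e.toMonoidHom)
    have hα : ∀ (g : G) (k : N0), ((α g k : N0) : L0) =
        (H.subtype.comp e.toMonoidHom) g * (k : L0) * ((H.subtype.comp e.toMonoidHom) g)⁻¹ :=
      fun g k => rfl
    have hfpf : ∀ g : G, g ≠ 1 → ∀ k : N0, α g k = k → k = 1 := by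
      intro g hg k hk
      have hx1 : (H.subtype.comp e.toMonoidHom) g ≠ 1 := by
        intro h0
        apply hg
        apply hι
        rw [h0, map_one]
      have h1 := hα g k
      rw [hk] at h1
      have h2 : (H.subtype.comp e.toMonoidHom) g * (k : L0) =
          (k : L0) * (H.subtype.comp e.toMonoidHom) g := by
        calc (H.subtype.comp e.toMonoidHom) g * (k : L0)
            = ((H.subtype.comp e.toMonoidHom) g * (k : L0) *
                ((H.subtype.comp e.toMonoidHom) g)⁻¹) * (H.subtype.comp e.toMonoidHom) g := by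
              group
          _ = (k : L0) * (H.subtype.comp e.toMonoidHom) g := by rw [← h1]
      exact Subtype.ext (hpair.eq_one_of_commute (hout _ (hιH g) hx1) k.2 h2)
    have hαinj : Function.Injective α := by
      rw [injective_iff_map_eq_one]
      intro g hg
      by_contra hg1
      apply hpair.kernel_ne_bot
      rw [Subgroup.eq_bot_iff_forall]
      intro k hk
      have h1 := hfpf g hg1 ⟨k, hk⟩ (by rw [hg]; rfl)
      exact congrArg Subtype.val h1
    have hA1 : ∀ φ ∈ L.map α, φ ≠ 1 → ∀ k : N0, φ k = k → k = 1 := by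
      rintro φ ⟨l, -, rfl⟩ hφ k hk
      refine hfpf l ?_ k hk
      rintro rfl
      exact hφ (map_one α)
    have hA2 : commutator (L.map α) = ⊤ := by
      apply Subgroup.map_injective (L.map α).subtype_injective
      rw [Subgroup.map_subtype_commutator, ← Subgroup.map_commutator, hLperf,
        ← MonoidHom.range_eq_map, Subgroup.range_subtype]
    have hA3 : L.map α ≠ ⊥ := by
      intro h0
      exact hLne ((Subgroup.map_eq_bot_iff_of_injective L hαinj).mp h0)
    obtain ⟨e'⟩ := hZ (L.map α) hA1 hA2 hA3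
    exact ⟨(L.equivMapOfInjective α hαinj).trans e'⟩

/-- **Zassenhaus' structure theorem for Frobenius complements**, in the shape of the statement. -/
theorem zassenhaus_frob (hZ : ZHyp)
    (hFC : ∃ (L : Type) (_ : Group L) (_ : Finite L) (H : Subgroup L),
      Cfsg.IsFrobeniusComplement H ∧ Nonempty (G ≃* H)) :
    ∃! N : Subgroup G, N.Normal ∧ (∀ (p : ℕ) [Fact p.Prime] (P : Sylow p N), IsCyclic P) ∧
      (N = ⊤ ∨
        (∃ f : G →* DihedralGroup 2, Function.Surjective f ∧ f.ker = N) ∨
        (∃ f : G →* alternatingGroup (Fin 4), Function.Surjective f ∧ f.ker = N) ∨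
        (∃ f : G →* Equiv.Perm (Fin 4), Function.Surjective f ∧ f.ker = N) ∨
        (∃ f : G →* alternatingGroup (Fin 5), Function.Surjective f ∧ f.ker = N) ∨
        (∃ f : G →* Equiv.Perm (Fin 5), Function.Surjective f ∧ f.ker = N)) := by
  obtain ⟨N, hN, huniq⟩ := zassenhaus (zc_of_frob hZ hFC)
  refine ⟨N, ⟨hN.1, ?_, hN.2.2⟩, ?_⟩
  · intro p _ P
    have hz : IsZGroup N := hN.2.1
    infer_instance
  · intro N' hN'
    refine huniq N' ⟨hN'.1, ?_, hN'.2.2⟩
    rw [isZGroup_iff]
    intro p hp P
    have : Fact p.Prime := ⟨hp⟩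
    exact hN'.2.1 p P

end Cfsg.Agent.Helper71.ZFinal
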