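import Mathlib
import Cfsg.Agent.Helper71.ZFinal

/-!
# Solvable Frobenius complements: the quotient by the Zassenhaus subgroup embeds in `S₄`
-/

set_option autoImplicit false

namespace Cfsg.Agent.Helper71.ZSolvPerm

open Cfsg.Agent.Helper71.ZGen Cfsg.Agent.Helper71.ZCond Cfsg.Agent.Helper71.ZUniq
  Cfsg.Agent.Helper71.ZFinal

/-- an injective homomorphism from the Klein four-group to `S₄` -/
theorem exists_klein_hom :
    ∃ ι : DihedralGroup 2 →* Equiv.Perm (Fin 4), Function.Injective ι := by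
  have hc : Fintype.card (DihedralGroup 2) = Fintype.card (Fin 4) := by
    rw [DihedralGroup.card, Fintype.card_fin]
  refine ⟨((Fintype.equivOfCardEq hc).permCongrHom : Equiv.Perm (DihedralGroup 2) →*
      Equiv.Perm (Fin 4)).comp (MulAction.toPermHom (DihedralGroup 2) (DihedralGroup 2)), ?_⟩
  rw [MonoidHom.coe_comp]
  refine (MulEquiv.injective _).comp ?_
  exact MulAction.toPerm_injective

variable {G : Type*} [Group G] [Finite G]

/-- the alternating group of degree five is not solvable -/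
theorem alt5_not_solvable : ¬ Group.IsSolvable (alternatingGroup (Fin 5)) := by
  intro hs
  have h1 := (IsSimpleGroup.comm_iff_isSolvable (G := alternatingGroup (Fin 5))).mpr hs
  have h2 : (⟨Cfsg.Agent.Helper71.ZKlein.t5, Cfsg.Agent.Helper71.ZKlein.t5_mem⟩ :
      alternatingGroup (Fin 5)) * ⟨Cfsg.Agent.Helper71.ZKlein.u5,
        Cfsg.Agent.Helper71.ZKlein.u5_mem⟩ =
      ⟨Cfsg.Agent.Helper71.ZKlein.u5, Cfsg.Agent.Helper71.ZKlein.u5_mem⟩ *
        ⟨Cfsg.Agent.Helper71.ZKlein.t5, Cfsg.Agent.Helper71.ZKlein.t5_mem⟩ := h1 _ _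
  have h3 := congrArg Subtype.val h2
  revert h3
  simp only [Subgroup.coe_mul]
  unfold Cfsg.Agent.Helper71.ZKlein.t5 Cfsg.Agent.Helper71.ZKlein.u5
  decide +kernel

/-- **Solvable case in the shape needed for the structure of solvable Frobenius complements**:
the Zassenhaus subgroup is the kernel of a homomorphism to `S₄`. -/
theorem solvable_perm4 (h : ZC G) (hsol : Group.IsSolvable G) :
    ∃ N : Subgroup G, N.Normal ∧ IsZGroup N ∧ ∃ f : G →* Equiv.Perm (Fin 4), f.ker = N := by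
  obtain ⟨N, hN, -⟩ := zassenhaus h
  obtain ⟨hNn, hNz, hc⟩ := hN
  refine ⟨N, hNn, hNz, ?_⟩
  rcases hc with rfl | ⟨f, hf, rfl⟩ | ⟨f, hf, rfl⟩ | ⟨f, hf, rfl⟩ | ⟨f, hf, rfl⟩ | ⟨f, hf, rfl⟩
  · exact ⟨1, MonoidHom.ker_one⟩
  · obtain ⟨ι, hι⟩ := exists_klein_hom
    refine ⟨ι.comp f, ?_⟩
    ext g
    rw [MonoidHom.mem_ker, MonoidHom.mem_ker, MonoidHom.comp_apply, ← map_one ι, hι.eq_iff]
  · refine ⟨(alternatingGroup (Fin 4)).subtype.comp f, ?_⟩
    ext g
    rw [MonoidHom.mem_ker, MonoidHom.mem_ker, MonoidHom.comp_apply,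
      ← map_one (alternatingGroup (Fin 4)).subtype,
      (Subgroup.subtype_injective (alternatingGroup (Fin 4))).eq_iff]
  · exact ⟨f, rfl⟩
  · exact absurd (Group.isSolvable_of_surjective hf) alt5_not_solvable
  · exfalso
    have h5 : Group.IsSolvable (Equiv.Perm (Fin 5)) := Group.isSolvable_of_surjective hf
    exact Equiv.Perm.not_isSolvable_fin_5 h5

/-- the same for a group isomorphic to a Frobenius complement, relative to `ZHyp` -/
theorem solvable_frob_perm4 (hZ : ZHyp) (hsol : Group.IsSolvable G)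
    (hFC : ∃ (L : Type) (_ : Group L) (_ : Finite L) (H : Subgroup L),
      Cfsg.IsFrobeniusComplement H ∧ Nonempty (G ≃* H)) :
    ∃ G₀ : Subgroup G, G₀.Normal ∧ (∃ f : G →* Equiv.Perm (Fin 4), f.ker = G₀) ∧
      (∀ (p : ℕ) [Fact p.Prime] (P : Sylow p G₀), IsCyclic P) ∧ IsZGroup G₀ := by
  obtain ⟨N, hNn, hNz, hf⟩ := solvable_perm4 (zc_of_frob hZ hFC) hsol
  refine ⟨N, hNn, hf, ?_, hNz⟩
  intro p _ P
  infer_instance

end Cfsg.Agent.Helper71.ZSolvPerm
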