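import Mathlib
import Cfsg.Prelude.Def_LieExceptional
import Cfsg.Agent.Helper15.Zassenhaus
import Cfsg.Agent.Helper6.Zass2
import Cfsg.Agent.Helper12.QuatLin

/-!
# Zassenhaus groups of odd degree: the braid relation `v u v = u v u` (helper71)

Group-theoretic half of S1167.  `G` is a Zassenhaus group on `Ω`, `U ≤ G_a` is a 2-group, normal
in `G_a` and regular on `Ω ∖ {a}`, `v` an involution moving `a`.  Under the numerical hypothesis
`|U| - 1 ≤ 2 |G_{a, v a}|` (Feit's inequality, which holds when `U` is abelian) there is a unique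
`u₀ ∈ U ∖ 1` with `v u₀ v = u₀ v u₀`.
-/

set_option autoImplicit false

namespace Cfsg.Agent.Helper71.ZassBraid

open MulAction

variable {G Ω : Type*} [Group G] [MulAction G Ω]

/-- a subgroup of `G_a` regular on the other points has `|Ω| - 1` elements -/
theorem card_reg [Finite Ω] {a : Ω} (U : Subgroup G) (hUle : U ≤ stabilizer G a)
    (hreg : ∀ c d : Ω, c ≠ a → d ≠ a → ∃! u : U, (u : G) • c = d) {b : Ω} (hb : b ≠ a) :
    Nat.card U + 1 = Nat.card Ω := by
  classical
  have hmove : ∀ u : U, (u : G) • b ≠ a := by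
    intro u h
    have hu : (u : G) • a = a := hUle u.2
    have : (u : G) • b = (u : G) • a := by rw [h, hu]
    exact hb (smul_left_cancel _ this)
  let f : U → {d : Ω // d ≠ a} := fun u => ⟨(u : G) • b, hmove u⟩
  have hf : Function.Bijective f := by
    constructor
    · intro u u' h
      have h' : (u : G) • b = (u' : G) • b := congrArg Subtype.val h
      obtain ⟨w, -, hw⟩ := hreg b ((u' : G) • b) hb (hmove u')
      rw [hw u h', hw u' rfl]
    · rintro ⟨d, hd⟩
      obtain ⟨w, hw, -⟩ := hreg b d hb hd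
      exact ⟨w, Subtype.ext hw⟩
  have h1 : Nat.card U = Nat.card {d : Ω // d ≠ a} := Nat.card_eq_of_bijective f hf
  have h2 : Nat.card {d : Ω // d ≠ a} = Nat.card Ω - 1 := by
    have := Fintype.ofFinite Ω
    rw [Nat.card_eq_fintype_card, Nat.card_eq_fintype_card, Fintype.card_subtype_compl]
    simp
  have h3 : 0 < Nat.card Ω := Nat.card_pos_iff.mpr ⟨⟨a⟩, inferInstance⟩
  omega

/-- the two-point stabiliser acts freely off the two points, so its order divides `|Ω| - 2` -/
theorem card_stab_dvd [Finite Ω] (hZ : Cfsg.IsZassenhausGroup G Ω) {a b : Ω} (hab : a ≠ b) :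
    Nat.card (stabilizer G a ⊓ stabilizer G b : Subgroup G) ∣ Nat.card Ω - 2 := by
  classical
  let E : Subgroup G := stabilizer G a ⊓ stabilizer G b
  let X := {x : Ω // x ≠ a ∧ x ≠ b}
  have hEa : ∀ g : E, (g : G) • a = a := fun g => g.2.1
  have hEb : ∀ g : E, (g : G) • b = b := fun g => g.2.2
  let _ : MulAction E X :=
    { smul := fun g x => ⟨(g : G) • x.1, by
        constructor
        · intro h
          have : (g : G) • x.1 = (g : G) • a := by rw [h, hEa g]
          exact x.2.1 (smul_left_cancel _ this)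
        · intro h
          have : (g : G) • x.1 = (g : G) • b := by rw [h, hEb g]
          exact x.2.2 (smul_left_cancel _ this)⟩
      one_smul := fun x => Subtype.ext (one_smul G x.1)
      mul_smul := fun g g' x => Subtype.ext (mul_smul (g : G) (g' : G) x.1) }
  have hstab : ∀ x : X, stabilizer E x = ⊥ := by
    intro x
    rw [eq_bot_iff]
    intro g hg
    have hgx : (g : G) • x.1 = x.1 := congrArg Subtype.val (mem_stabilizer_iff.mp hg)
    have : (g : G) = 1 := Cfsg.Agent.Helper15.zass_eq_one_of_fix_three hZ hab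
      (Ne.symm x.2.2) (Ne.symm x.2.1) (hEa g) (hEb g) hgx
    exact Subgroup.mem_bot.mpr (Subtype.ext this)
  have hdvd := Cfsg.Agent.Helper12.index_dvd_card_of_stabilizer_eq (⊥ : Subgroup E) hstab
  rw [Subgroup.index_bot] at hdvd
  have hX : Nat.card X = Nat.card Ω - 2 := by
    have := Fintype.ofFinite Ω
    have h1 : Nat.card X = Nat.card {x : Ω // ¬ (x = a ∨ x = b)} :=
      Nat.card_congr (Equiv.subtypeEquivRight (fun x => by push Not; rfl))
    rw [h1, Nat.card_eq_fintype_card, Nat.card_eq_fintype_card, Fintype.card_subtype_compl]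
    congr 1
    rw [Fintype.card_subtype]
    have : (Finset.univ.filter (fun x : Ω => x = a ∨ x = b)) = {a, b} := by
      ext x; simp
    rw [this, Finset.card_pair hab]
  rw [hX] at hdvd
  exact hdvd

/-- the group-theoretic half of S1167 -/
theorem main [Finite G] [Finite Ω] (hZ : Cfsg.IsZassenhausGroup G Ω) {a : Ω}
    (U : Subgroup G) (hUle : U ≤ stabilizer G a)
    (hUn : ∀ h ∈ stabilizer G a, ∀ u ∈ U, h * u * h⁻¹ ∈ U)
    (hreg : ∀ c d : Ω, c ≠ a → d ≠ a → ∃! u : U, (u : G) • c = d)
    (hU2 : IsPGroup 2 U)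
    (v : G) (hv1 : v ≠ 1) (hv2 : v * v = 1) (hva : v • a ≠ a)
    (hfeit : Nat.card U - 1 ≤ 2 * Nat.card (stabilizer G a ⊓ stabilizer G (v • a) : Subgroup G)) :
    ∃! u₀ : G, u₀ ∈ U ∧ u₀ ≠ 1 ∧ v * u₀ * v = u₀ * v * u₀ := by
  classical
  set b : Ω := v • a with hbdef
  have hb : b ≠ a := hva
  have hvb : v • b = a := by rw [hbdef, ← mul_smul, hv2, one_smul]
  have hcard : Nat.card U + 1 = Nat.card Ω := card_reg U hUle hreg hb
  obtain ⟨k, hk⟩ := (IsPGroup.iff_card (p := 2) (G := U)).mp hU2
  have h3 := Cfsg.Agent.Helper15.zass_three_le_card hZ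
  have hk1 : 1 ≤ k := by
    rcases Nat.eq_zero_or_pos k with h0 | h0
    · rw [h0, pow_zero] at hk; omega
    · exact h0
  have h2dvd : 2 ∣ Nat.card U := by rw [hk]; exact dvd_pow_self 2 (by omega)
  have hoddΩ : Odd (Nat.card Ω) := by
    rw [← hcard]
    exact Even.add_one ((even_iff_two_dvd).mpr h2dvd)
  obtain ⟨c, hc, hcu⟩ := Cfsg.Agent.Helper6.zs_involution_unique_fixed hZ hoddΩ hv2 hv1
  have hca : c ≠ a := by rintro rfl; exact hva hc
  have hcb : c ≠ b := by
    rintro rfl
    exact hb (hc.symm.trans hvb)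
  set E : Subgroup G := stabilizer G a ⊓ stabilizer G b with hE
  have hedvd : Nat.card E ∣ Nat.card Ω - 2 := card_stab_dvd hZ (Ne.symm hb)
  have hepos : 0 < Nat.card E := Nat.card_pos
  -- e = n - 1
  have hn1 : Nat.card Ω - 2 = Nat.card U - 1 := by omega
  have heq : Nat.card E = Nat.card U - 1 := by
    obtain ⟨m, hm⟩ := hedvd
    rw [hn1] at hm
    have hodd1 : ¬ 2 ∣ Nat.card U - 1 := by
      intro h
      have : 2 ∣ Nat.card U - 1 + 1 := by
        have h5 : Nat.card U - 1 + 1 = Nat.card U := by omega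
        rw [h5]; exact h2dvd
      omega
    have hmpos : 0 < m := by
      rcases Nat.eq_zero_or_pos m with h0 | h0
      · rw [h0, mul_zero] at hm; omega
      · exact h0
    have hm2 : m ≤ 2 := by
      by_contra hcon
      push Not at hcon
      have : Nat.card E * 3 ≤ Nat.card E * m := Nat.mul_le_mul_left _ hcon
      rw [← hm] at this
      omega
    have hm1 : m = 1 := by
      rcases (by omega : m = 1 ∨ m = 2) with h | h
      · exact h
      · exfalso
        apply hodd1
        rw [hm, h]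
        exact Dvd.intro_left _ rfl
    rw [hm, hm1, mul_one]
  have hEodd : ¬ 2 ∣ Nat.card E := by
    rw [heq]
    intro h
    have : 2 ∣ Nat.card U - 1 + 1 := by
      have h5 : Nat.card U - 1 + 1 = Nat.card U := by omega
      rw [h5]; exact h2dvd
    omega
  -- regularity facts
  have hUb : ∀ u ∈ U, u • b = b → u = 1 := by
    intro u hu hub
    obtain ⟨w, -, hw⟩ := hreg b b hb hb
    have h1 := hw ⟨u, hu⟩ hub
    have h2 := hw 1 (one_smul G b)
    have : (⟨u, hu⟩ : U) = 1 := h1.trans h2.symm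
    exact congrArg Subtype.val this
  have hUeq : ∀ u ∈ U, ∀ u' ∈ U, u • b = u' • b → u = u' := by
    intro u hu u' hu' h
    have hmove : u' • b ≠ a := by
      intro h'
      have hu'a : u' • a = a := hUle hu'
      have : u' • b = u' • a := by rw [h', hu'a]
      exact hb (smul_left_cancel _ this)
    obtain ⟨w, -, hw⟩ := hreg b (u' • b) hb hmove
    have h1 := hw ⟨u, hu⟩ h
    have h2 := hw ⟨u', hu'⟩ rfl
    exact congrArg Subtype.val (h1.trans h2.symm)
  -- every element of U squares to 1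
  have hsq : ∀ u ∈ U, u * u = 1 := by
    obtain ⟨w₀, hw₀⟩ := exists_prime_orderOf_dvd_card' (G := U) 2 h2dvd
    have hw₀1 : (w₀ : G) ≠ 1 := by
      intro h
      have : w₀ = 1 := Subtype.ext h
      rw [this, orderOf_one] at hw₀
      omega
    have hw₀sq : (w₀ : G) * w₀ = 1 := by
      have := pow_orderOf_eq_one w₀
      rw [hw₀, pow_two] at this
      exact congrArg Subtype.val this
    let φ : E → {u : U // u ≠ 1} := fun x =>
      ⟨⟨(x : G) * w₀ * (x : G)⁻¹, hUn x x.2.1 w₀ w₀.2⟩, by
        intro h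
        have h' : (x : G) * w₀ * (x : G)⁻¹ = 1 := congrArg Subtype.val h
        apply hw₀1
        have : (w₀ : G) = (x : G)⁻¹ * ((x : G) * w₀ * (x : G)⁻¹) * x := by group
        rw [this, h']; group⟩
    have hφ : Function.Injective φ := by
      intro x y hxy
      have h' : (x : G) * w₀ * (x : G)⁻¹ = (y : G) * w₀ * (y : G)⁻¹ :=
        congrArg (fun z : {u : U // u ≠ 1} => ((z : U) : G)) hxy
      -- z = y⁻¹ x commutes with w₀
      have hz : ((y : G)⁻¹ * x) * w₀ = w₀ * ((y : G)⁻¹ * x) := by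
        have : (y : G)⁻¹ * ((x : G) * w₀ * (x : G)⁻¹) * x = (y : G)⁻¹ * ((y : G) * w₀ * (y : G)⁻¹) * x := by
          rw [h']
        have e1 : (y : G)⁻¹ * ((x : G) * w₀ * (x : G)⁻¹) * x = ((y : G)⁻¹ * x) * w₀ := by group
        have e2 : (y : G)⁻¹ * ((y : G) * w₀ * (y : G)⁻¹) * x = w₀ * ((y : G)⁻¹ * x) := by group
        rw [e1, e2] at this
        exact this
      have hza : ((y : G)⁻¹ * x) • a = a := by
        rw [mul_smul, x.2.1, inv_smul_eq_iff, y.2.1]
      have hzb : ((y : G)⁻¹ * x) • b = b := by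
        rw [mul_smul, x.2.2, inv_smul_eq_iff, y.2.2]
      have hzw : ((y : G)⁻¹ * x) • ((w₀ : G) • b) = (w₀ : G) • b := by
        rw [← mul_smul, hz, mul_smul, hzb]
      have hwb_ne_b : (w₀ : G) • b ≠ b := fun h => hw₀1 (hUb w₀ w₀.2 h)
      have hwb_ne_a : (w₀ : G) • b ≠ a := by
        intro h
        have hwa : (w₀ : G) • a = a := hUle w₀.2
        have : (w₀ : G) • b = (w₀ : G) • a := by rw [h, hwa]
        exact hb (smul_left_cancel _ this)
      have hz1 : (y : G)⁻¹ * x = 1 := Cfsg.Agent.Helper15.zass_eq_one_of_fix_three hZ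
        (Ne.symm hb) (Ne.symm hwb_ne_b) (Ne.symm hwb_ne_a) hza hzb hzw
      have : (x : G) = y := by
        have : (x : G) = y * ((y : G)⁻¹ * x) := by group
        rw [this, hz1, mul_one]
      exact Subtype.ext this
    have hcardeq : Nat.card E = Nat.card {u : U // u ≠ 1} := by
      rw [heq]
      have := Fintype.ofFinite U
      rw [Nat.card_eq_fintype_card, Nat.card_eq_fintype_card, Fintype.card_subtype_compl]
      simp
    have hφb : Function.Bijective φ :=
      (Nat.bijective_iff_injective_and_card φ).mpr ⟨hφ, hcardeq⟩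
    intro u hu
    by_cases hu1 : u = 1
    · rw [hu1, one_mul]
    · obtain ⟨x, hx⟩ := hφb.2 ⟨⟨u, hu⟩, fun h => hu1 (congrArg Subtype.val h)⟩
      have hx' : (x : G) * w₀ * (x : G)⁻¹ = u :=
        congrArg (fun z : {u : U // u ≠ 1} => ((z : U) : G)) hx
      rw [← hx']
      have : (x : G) * w₀ * (x : G)⁻¹ * ((x : G) * w₀ * (x : G)⁻¹) = (x : G) * ((w₀ : G) * w₀) * (x : G)⁻¹ := by
        group
      rw [this, hw₀sq]; group
  -- involutions of G_a lie in U
  have hinvU : ∀ w : G, w • a = a → w * w = 1 → w ∈ U := by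
    intro w hwa hww
    have hwb : w • b ≠ a := by
      intro h
      have : w • b = w • a := by rw [h, hwa]
      exact hb (smul_left_cancel _ this)
    obtain ⟨u, hu, -⟩ := hreg b (w • b) hb hwb
    -- x = u⁻¹ w ∈ E
    set x : G := (u : G)⁻¹ * w with hx
    have hxa : x • a = a := by
      rw [hx, mul_smul, hwa, inv_smul_eq_iff]; exact (hUle u.2).symm
    have hxb : x • b = b := by
      rw [hx, mul_smul, inv_smul_eq_iff]; exact hu.symm
    have hxE : x ∈ E := ⟨hxa, hxb⟩
    have hwux : w = u * x := by rw [hx]; group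
    -- x² ∈ U
    have hx2U : x * x ∈ U := by
      have h1 : x * (u : G) * x⁻¹ ∈ U := hUn x hxa u u.2
      have h2 : x * x = (x * (u : G) * x⁻¹)⁻¹ * (u : G)⁻¹ * (w * w) := by
        rw [hwux]; group
      rw [h2, hww, mul_one]
      exact U.mul_mem (U.inv_mem h1) (U.inv_mem u.2)
    have hx2b : (x * x) • b = b := by rw [mul_smul, hxb, hxb]
    have hx2 : x * x = 1 := hUb _ hx2U hx2b
    have hx1 : x = 1 := by
      by_contra hne
      have hord : orderOf x = 2 := orderOf_eq_prime (by rw [pow_two]; exact hx2) hne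
      have h1 : orderOf (⟨x, hxE⟩ : E) = 2 := by
        rw [← hord]
        exact (Subgroup.orderOf_coe (⟨x, hxE⟩ : E)).symm
      have h2 := orderOf_dvd_natCard (⟨x, hxE⟩ : E)
      rw [h1] at h2
      exact hEodd h2
    rw [hwux, hx1, mul_one]
    exact u.2
  -- the element u₀
  obtain ⟨u₀', hu₀b, hu₀u⟩ := hreg b c hb hca
  set u₀ : G := (u₀' : G) with hu₀def
  have hu₀U : u₀ ∈ U := u₀'.2
  have hu₀a : u₀ • a = a := hUle hu₀U
  have hu₀sq : u₀ * u₀ = 1 := hsq u₀ hu₀U
  have hu₀c : u₀ • c = b := by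
    rw [← hu₀b, ← mul_smul]
    show (u₀ * u₀) • b = b
    rw [hu₀sq, one_smul]
  have hu₀1 : u₀ ≠ 1 := by
    intro h
    have : u₀ • b = c := hu₀b
    rw [h, one_smul] at this
    exact hcb this.symm
  set t : G := u₀ * v * u₀ with ht
  have htt : t * t = 1 := by
    have : t * t = u₀ * v * (u₀ * u₀) * v * u₀ := by rw [ht]; group
    rw [this, hu₀sq, mul_one, mul_assoc u₀ v v, hv2, mul_one, hu₀sq]
  set w : G := v * t * v with hw
  have hww : w * w = 1 := by
    have : w * w = v * t * (v * v) * t * v := by rw [hw]; group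
    rw [this, hv2, mul_one, mul_assoc v t t, htt, mul_one, hv2]
  have htb : t • b = b := by
    rw [ht, mul_smul, mul_smul]
    show u₀ • v • u₀ • b = b
    rw [show u₀ • b = c from hu₀b, hc, hu₀c]
  have hta : t • a = u₀ • b := by
    rw [ht, mul_smul, mul_smul, hu₀a]
  have hwa : w • a = a := by
    rw [hw, mul_smul, mul_smul]
    show v • t • b = a
    rw [htb, hvb]
  have hwb : w • b = c := by
    rw [hw, mul_smul, mul_smul, hvb, hta]
    show v • u₀ • b = c
    rw [show u₀ • b = c from hu₀b, hc]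
  have hwU : w ∈ U := hinvU w hwa hww
  have hwu₀ : w = u₀ := hUeq w hwU u₀ hu₀U (hwb.trans hu₀b.symm)
  have hbraid : v * u₀ * v = u₀ * v * u₀ := by
    have h1 : t = v * w * v := by
      rw [hw]
      have : v * (v * t * v) * v = (v * v) * t * (v * v) := by group
      rw [this, hv2, one_mul, mul_one]
    rw [← ht, h1, hwu₀]
  refine ⟨u₀, ⟨hu₀U, hu₀1, hbraid⟩, ?_⟩
  rintro u₁ ⟨hu₁U, -, hu₁⟩
  have hu₁a : u₁ • a = a := hUle hu₁U
  have hfix : v • (u₁ • b) = u₁ • b := by
    have h1 : (v * u₁ * v) • a = v • (u₁ • b) := by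
      rw [mul_smul, mul_smul]
    have h2 : (u₁ * v * u₁) • a = u₁ • b := by
      rw [mul_smul, mul_smul, hu₁a]
    rw [← h1, hu₁, h2]
  have := hcu _ hfix
  exact hUeq u₁ hu₁U u₀ hu₀U (this.trans hu₀b.symm)

end Cfsg.Agent.Helper71.ZassBraid
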