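import Mathlib
import Cfsg.Prelude.Def_LieExceptional
import Cfsg.Agent.Helper15.Zassenhaus
import Cfsg.Agent.Helper6.Zass
import Cfsg.Agent.Helper19.ThompsonThesis
import Cfsg.Agent.Helper71.ZassBraid

/-!
# The degree of a Zassenhaus group is a prime power plus one (helper71)

* `even_bound`: if the two-point stabiliser `E` has even order then `|Ω| - 2 ≤ 2 |E|`
  (pure counting of involutions: every pair of points is fixed by an involution, and at most `|E|`
  involutions map `a` to a given point).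
* `primePow_of_bound`: if `|Ω| - 2 ≤ 2 |E|` then `|Ω| - 1` is a prime power (the Frobenius kernel
  of `G_a` is nilpotent and `E` has at most two orbits on its non-identity elements).
* `main`: Feit's theorem modulo Feit's inequality for odd `|E|`.
-/

set_option autoImplicit false

namespace Cfsg.Agent.Helper71.ZassPP

open MulAction

variable {G Ω : Type*} [Group G] [MulAction G Ω]

/-- counting involutions: an even two-point stabiliser has order at least `(|Ω| - 2) / 2` -/
theorem even_bound [Finite G] [Finite Ω] (hZ : Cfsg.IsZassenhausGroup G Ω) {a b : Ω} (hab : a ≠ b)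
    (heven : Even (Nat.card (stabilizer G a ⊓ stabilizer G b : Subgroup G))) :
    Nat.card Ω - 2 ≤ 2 * Nat.card (stabilizer G a ⊓ stabilizer G b : Subgroup G) := by
  classical
  have := Fintype.ofFinite Ω
  have := Fintype.ofFinite G
  set E : Subgroup G := stabilizer G a ⊓ stabilizer G b with hE
  set e := Nat.card E with he
  -- an involution fixing a and b
  obtain ⟨τ', hτ'⟩ := exists_prime_orderOf_dvd_card' (G := E) 2 (even_iff_two_dvd.mp heven)
  set τ : G := (τ' : G) with hτ
  have hτ1 : τ ≠ 1 := by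
    intro h
    have : τ' = 1 := Subtype.ext h
    rw [this, orderOf_one] at hτ'
    omega
  have hττ : τ * τ = 1 := by
    have := pow_orderOf_eq_one τ'
    rw [hτ', pow_two] at this
    exact congrArg Subtype.val this
  have hτa : τ • a = a := τ'.2.1
  have hτb : τ • b = b := τ'.2.2
  -- the involutions moving a
  let S : Finset G := Finset.univ.filter (fun t => t * t = 1 ∧ t • a ≠ a)
  let Iy : Ω → Finset G := fun y => Finset.univ.filter (fun t => t * t = 1 ∧ t • a = y)
  have hIy : ∀ y : Ω, y ≠ a → (Iy y).card ≤ e := by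
    intro y hy
    rcases Finset.eq_empty_or_nonempty (Iy y) with h0 | ⟨s₀, hs₀⟩
    · rw [h0]; simp
    · have hs₀' := (Finset.mem_filter.mp hs₀).2
      have hs₀y : s₀ • y = a := by
        rw [← hs₀'.2, ← mul_smul, hs₀'.1, one_smul]
      let Ey : Finset G := Finset.univ.filter (fun g => g ∈ (stabilizer G a ⊓ stabilizer G y : Subgroup G))
      have hEy : Ey.card = e := by
        have h1 : Ey.card = Nat.card (stabilizer G a ⊓ stabilizer G y : Subgroup G) := by
          rw [Nat.card_eq_fintype_card, Fintype.card_subtype]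
        rw [h1, he]
        exact Cfsg.Agent.Helper15.zass_card_stab_inf hZ hab (Ne.symm hy)
      rw [← hEy]
      apply Finset.card_le_card_of_injOn (fun t => s₀⁻¹ * t)
      · intro t ht
        have ht' := (Finset.mem_filter.mp (Finset.mem_coe.mp ht)).2
        have hty : t • y = a := by
          rw [← ht'.2, ← mul_smul, ht'.1, one_smul]
        apply Finset.mem_coe.mpr
        apply Finset.mem_filter.mpr
        refine ⟨Finset.mem_univ _, ?_, ?_⟩
        · show (s₀⁻¹ * t) • a = a
          rw [mul_smul, ht'.2, inv_smul_eq_iff, hs₀'.2]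
        · show (s₀⁻¹ * t) • y = y
          rw [mul_smul, hty, inv_smul_eq_iff, hs₀y]
      · intro t _ t' _ h
        exact mul_left_cancel h
  have hScard : S.card ≤ (Fintype.card Ω - 1) * e := by
    have hsub : S ⊆ (Finset.univ.erase a).biUnion Iy := by
      intro t ht
      have ht' := (Finset.mem_filter.mp ht).2
      exact Finset.mem_biUnion.mpr ⟨t • a, Finset.mem_erase.mpr ⟨ht'.2, Finset.mem_univ _⟩,
        Finset.mem_filter.mpr ⟨Finset.mem_univ _, ht'.1, rfl⟩⟩
    calc S.card ≤ ((Finset.univ.erase a).biUnion Iy).card := Finset.card_le_card hsub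
      _ ≤ ∑ y ∈ Finset.univ.erase a, (Iy y).card := Finset.card_biUnion_le
      _ ≤ ∑ _y ∈ Finset.univ.erase a, e :=
          Finset.sum_le_sum (fun y hy => hIy y (Finset.mem_erase.mp hy).1)
      _ = (Fintype.card Ω - 1) * e := by
          rw [Finset.sum_const, Finset.card_erase_of_mem (Finset.mem_univ a), Finset.card_univ,
            smul_eq_mul]
  -- the lower bound
  let D : Finset (Ω × Ω) := (Finset.univ.erase a).offDiag
  let gp : Ω × Ω → G := fun p =>
    if h : p.1 ≠ p.2 then Classical.choose (Cfsg.Agent.Helper15.zass_two_trans hZ hab h) else 1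
  have hgp : ∀ p : Ω × Ω, p.1 ≠ p.2 → gp p • a = p.1 ∧ gp p • b = p.2 := by
    intro p h
    have := Classical.choose_spec (Cfsg.Agent.Helper15.zass_two_trans hZ hab h)
    simp only [gp, dif_pos h]
    exact this
  let f : Ω × Ω → G := fun p => gp p * τ * (gp p)⁻¹
  have hf1 : ∀ p : Ω × Ω, f p ≠ 1 := by
    intro p h
    apply hτ1
    have : τ = (gp p)⁻¹ * (gp p * τ * (gp p)⁻¹) * gp p := by group
    rw [this]
    show (gp p)⁻¹ * f p * gp p = 1
    rw [h]; group
  have hfsq : ∀ p : Ω × Ω, f p * f p = 1 := by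
    intro p
    have : f p * f p = gp p * (τ * τ) * (gp p)⁻¹ := by simp only [f]; group
    rw [this, hττ]; group
  have hffix : ∀ p : Ω × Ω, p.1 ≠ p.2 → f p • p.1 = p.1 ∧ f p • p.2 = p.2 := by
    intro p h
    obtain ⟨h1, h2⟩ := hgp p h
    constructor
    · have : f p • p.1 = gp p • τ • (gp p)⁻¹ • p.1 := by
        simp only [f, mul_smul]
      rw [this, ← h1, inv_smul_smul, hτa]
    · have : f p • p.2 = gp p • τ • (gp p)⁻¹ • p.2 := by
        simp only [f, mul_smul]
      rw [this, ← h2, inv_smul_smul, hτb]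
  have hfix3 : ∀ p : Ω × Ω, p.1 ≠ p.2 → ∀ z : Ω, f p • z = z → z = p.1 ∨ z = p.2 := by
    intro p h z hz
    by_contra hcon
    push Not at hcon
    obtain ⟨h1, h2⟩ := hffix p h
    exact hf1 p (Cfsg.Agent.Helper15.zass_eq_one_of_fix_three hZ h (Ne.symm hcon.2)
      (Ne.symm hcon.1) h1 h2 hz)
  have hDmem : ∀ p : Ω × Ω, p ∈ D ↔ p.1 ≠ a ∧ p.2 ≠ a ∧ p.1 ≠ p.2 := by
    intro p
    simp only [D, Finset.mem_offDiag, Finset.mem_erase, Finset.mem_univ, and_true]
  have himg : D.image f ⊆ S := by
    intro t ht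
    obtain ⟨p, hp, rfl⟩ := Finset.mem_image.mp ht
    obtain ⟨hp1, hp2, hp3⟩ := (hDmem p).mp hp
    refine Finset.mem_filter.mpr ⟨Finset.mem_univ _, hfsq p, ?_⟩
    intro h
    rcases hfix3 p hp3 a h with h' | h'
    · exact hp1 h'.symm
    · exact hp2 h'.symm
  have hfiber : ∀ t ∈ D.image f, (D.filter (fun p => f p = t)).card ≤ 2 := by
    intro t ht
    obtain ⟨p, hp, rfl⟩ := Finset.mem_image.mp ht
    obtain ⟨hp1, hp2, hp3⟩ := (hDmem p).mp hp
    have hsub : D.filter (fun p' => f p' = f p) ⊆ {p, p.swap} := by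
      intro p' hp'
      obtain ⟨hp'D, hp'f⟩ := Finset.mem_filter.mp hp'
      obtain ⟨-, -, hp'3⟩ := (hDmem p').mp hp'D
      obtain ⟨h1, h2⟩ := hffix p' hp'3
      rw [hp'f] at h1 h2
      have c1 := hfix3 p hp3 _ h1
      have c2 := hfix3 p hp3 _ h2
      rw [Finset.mem_insert, Finset.mem_singleton]
      rcases c1 with c1 | c1 <;> rcases c2 with c2 | c2
      · exact absurd (c1.trans c2.symm) hp'3
      · left; exact Prod.ext c1 c2
      · right; exact Prod.ext c1 c2
      · exact absurd (c1.trans c2.symm) hp'3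
    calc (D.filter (fun p' => f p' = f p)).card ≤ ({p, p.swap} : Finset (Ω × Ω)).card :=
          Finset.card_le_card hsub
      _ ≤ 2 := Finset.card_le_two
  have hDle : D.card ≤ 2 * (D.image f).card := Finset.card_le_mul_card_image D 2 hfiber
  have hDcard : D.card = (Fintype.card Ω - 1) * (Fintype.card Ω - 1) - (Fintype.card Ω - 1) := by
    simp only [D]
    rw [Finset.offDiag_card, Finset.card_erase_of_mem (Finset.mem_univ a), Finset.card_univ]
  have h3 := Cfsg.Agent.Helper15.zass_three_le_card hZ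
  rw [Nat.card_eq_fintype_card] at h3 ⊢
  have hchain : (Fintype.card Ω - 1) * (Fintype.card Ω - 1) - (Fintype.card Ω - 1)
      ≤ 2 * ((Fintype.card Ω - 1) * e) := by
    rw [← hDcard]
    calc D.card ≤ 2 * (D.image f).card := hDle
      _ ≤ 2 * S.card := Nat.mul_le_mul_left 2 (Finset.card_le_card himg)
      _ ≤ 2 * ((Fintype.card Ω - 1) * e) := Nat.mul_le_mul_left 2 hScard
  have hpos : 0 < Fintype.card Ω - 1 := by omega
  have hfact : (Fintype.card Ω - 1) * (Fintype.card Ω - 1) - (Fintype.card Ω - 1)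
      = (Fintype.card Ω - 1) * (Fintype.card Ω - 2) := by
    have h5 : Fintype.card Ω - 1 = (Fintype.card Ω - 2) + 1 := by omega
    rw [h5]
    apply Nat.sub_eq_of_eq_add
    ring
  rw [hfact] at hchain
  have hchain' : (Fintype.card Ω - 1) * (Fintype.card Ω - 2) ≤ (Fintype.card Ω - 1) * (2 * e) := by
    calc (Fintype.card Ω - 1) * (Fintype.card Ω - 2) ≤ 2 * ((Fintype.card Ω - 1) * e) := hchain
      _ = (Fintype.card Ω - 1) * (2 * e) := by ring
  exact Nat.le_of_mul_le_mul_left hchain' hpos

/-- if the two-point stabiliser has at least `(|Ω| - 2) / 2` elements, the degree minus one is a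
prime power -/
theorem primePow_of_bound [Finite G] [Finite Ω] (hZ : Cfsg.IsZassenhausGroup G Ω) {a b : Ω}
    (hab : a ≠ b)
    (hbound : Nat.card Ω - 2 ≤ 2 * Nat.card (stabilizer G a ⊓ stabilizer G b : Subgroup G)) :
    IsPrimePow (Nat.card Ω - 1) := by
  classical
  have := Fintype.ofFinite G
  obtain ⟨K, hKa, hKn, hKfree, hKtr⟩ := Cfsg.Agent.Helper6.zs_kernel hZ a
  have hKle : K ≤ stabilizer G a := fun k hk => hKa k hk
  have hreg : ∀ c d : Ω, c ≠ a → d ≠ a → ∃! u : K, (u : G) • c = d := by
    intro c d hc hd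
    obtain ⟨k, hk, hkc⟩ := hKtr c d hc hd
    refine ⟨⟨k, hk⟩, hkc, ?_⟩
    rintro ⟨k', hk'⟩ hk'c
    have hk'c' : k' • c = d := hk'c
    have h0 : (k⁻¹ * k') • c = c := by rw [mul_smul, hk'c', ← hkc, inv_smul_smul]
    have h1 : k⁻¹ * k' = 1 := by
      by_contra hne
      exact hKfree _ (K.mul_mem (K.inv_mem hk) hk') hne c hc h0
    exact Subtype.ext (inv_mul_eq_one.mp h1).symm
  have hcard : Nat.card K + 1 = Nat.card Ω := ZassBraid.card_reg K hKle hreg (Ne.symm hab)
  have h3 := Cfsg.Agent.Helper15.zass_three_le_card hZ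
  set E : Subgroup G := stabilizer G a ⊓ stabilizer G b with hE
  set e := Nat.card E with he
  have he2 : 2 ≤ e := Cfsg.Agent.Helper15.zass_two_le_card_stab_inf hZ hab
  have hba : b ≠ a := Ne.symm hab
  -- an element of E commuting with a non-identity element of K is trivial
  have hfree : ∀ k ∈ E, ∀ w ∈ K, w ≠ 1 → k * w = w * k → k = 1 := by
    intro k hk w hw hw1 hcomm
    have hwb : w • b ≠ b := hKfree w hw hw1 b hba
    have hwa : w • b ≠ a := by
      intro h
      have : w • b = w • a := by rw [h, hKa w hw]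
      exact hba (smul_left_cancel _ this)
    have hkw : k • (w • b) = w • b := by
      rw [← mul_smul, hcomm, mul_smul, hk.2]
    exact Cfsg.Agent.Helper15.zass_eq_one_of_fix_three hZ hab (Ne.symm hwb) (Ne.symm hwa)
      hk.1 hk.2 hkw
  -- K is nilpotent (Thompson)
  have hnil : Group.IsNilpotent K := by
    have hene : e ≠ 1 := by omega
    obtain ⟨r, hr, hrd⟩ := Nat.exists_prime_and_dvd hene
    have : Fact r.Prime := ⟨hr⟩
    obtain ⟨y', hy'⟩ := exists_prime_orderOf_dvd_card' (G := E) r hrd
    set y : G := (y' : G) with hy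
    have hyE : y ∈ E := y'.2
    have hyord : orderOf y = r := by rw [← hy']; exact Subgroup.orderOf_coe y'
    have hy1 : y ≠ 1 := by
      intro h
      rw [h, orderOf_one] at hyord
      exact hr.one_lt.ne hyord
    let φ : K →* K :=
      { toFun := fun k => ⟨y * k * y⁻¹, hKn y hyE.1 k k.2⟩
        map_one' := Subtype.ext (by simp)
        map_mul' := fun k k' => Subtype.ext (by
          show y * ((k : G) * (k' : G)) * y⁻¹ = (y * (k : G) * y⁻¹) * (y * (k' : G) * y⁻¹)
          group) }
    have hφ : ∀ k : K, ((φ k : K) : G) = y * k * y⁻¹ := fun k => rfl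
    apply Cfsg.Agent.Helper19.thompson_thesis hr φ
    refine ⟨?_, ?_⟩
    · intro k hk
      by_contra hk1
      have h1 : y * (k : G) * y⁻¹ = k := by rw [← hφ, hk]
      have h2 : y * (k : G) = (k : G) * y := by
        calc y * (k : G) = (y * (k : G) * y⁻¹) * y := by group
          _ = (k : G) * y := by rw [h1]
      exact hy1 (hfree y hyE k k.2 (fun h => hk1 (Subtype.ext h)) h2)
    · intro k
      have key : ∀ n : ℕ, (((⇑φ)^[n] k : K) : G) = y ^ n * k * (y ^ n)⁻¹ := by
        intro n
        induction n with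
        | zero => simp
        | succ n ih =>
          rw [Function.iterate_succ_apply', hφ, ih, pow_succ']
          group
      apply Subtype.ext
      rw [key, ← hyord, pow_orderOf_eq_one]
      group
  rw [← hcard]
  simp only [Nat.add_sub_cancel]
  by_contra hnot
  have hK2 : Nat.card K ≠ 1 := by omega
  obtain ⟨p, hp, hpd⟩ := Nat.exists_prime_and_dvd hK2
  rw [isPrimePow_iff_unique_prime_dvd] at hnot
  have hex : ∃ q : ℕ, q.Prime ∧ q ∣ Nat.card K ∧ q ≠ p := by
    by_contra hno
    push Not at hno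
    exact hnot ⟨p, ⟨hp, hpd⟩, fun q hq => hno q hq.1 hq.2⟩
  obtain ⟨q, hq, hqd, hqp⟩ := hex
  have : Fact p.Prime := ⟨hp⟩
  have : Fact q.Prime := ⟨hq⟩
  obtain ⟨x, hx⟩ := exists_prime_orderOf_dvd_card' (G := K) p hpd
  obtain ⟨y, hy⟩ := exists_prime_orderOf_dvd_card' (G := K) q hqd
  -- x and y commute
  have hxP : IsPGroup p (Subgroup.zpowers x) := by
    apply IsPGroup.of_card (n := 1)
    rw [Nat.card_zpowers, hx, pow_one]
  have hyQ : IsPGroup q (Subgroup.zpowers y) := by
    apply IsPGroup.of_card (n := 1)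
    rw [Nat.card_zpowers, hy, pow_one]
  obtain ⟨P, hP⟩ := hxP.exists_le_sylow
  obtain ⟨Q, hQ⟩ := hyQ.exists_le_sylow
  have hPn : (P : Subgroup K).Normal := inferInstance
  have hQn : (Q : Subgroup K).Normal := inferInstance
  have hdisj : Disjoint (P : Subgroup K) (Q : Subgroup K) :=
    IsPGroup.disjoint_of_ne p q (Ne.symm hqp) _ _ P.2 Q.2
  have hcomm : Commute x y := Subgroup.commute_of_normal_of_disjoint _ _ hPn hQn hdisj x y
    (hP (Subgroup.mem_zpowers x)) (hQ (Subgroup.mem_zpowers y))
  have hxy : orderOf (x * y) = p * q := by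
    rw [hcomm.orderOf_mul_eq_mul_orderOf_of_coprime, hx, hy]
    rw [hx, hy]
    exact (Nat.coprime_primes hp hq).mpr (Ne.symm hqp)
  -- orders in G
  have hxG : orderOf (x : G) = p := by rw [Subgroup.orderOf_coe, hx]
  have hyG : orderOf (y : G) = q := by rw [Subgroup.orderOf_coe, hy]
  have hxyG : orderOf ((x : G) * (y : G)) = p * q := by
    rw [← hxy, ← Subgroup.orderOf_coe (x * y)]
    rfl
  -- the orbits
  let EF : Finset G := Finset.univ.filter (fun g => g ∈ E)
  have hEF : EF.card = e := by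
    rw [he, Nat.card_eq_fintype_card, Fintype.card_subtype]
  let KF : Finset G := Finset.univ.filter (fun g => g ∈ K)
  have hKF : KF.card = Nat.card K := by
    rw [Nat.card_eq_fintype_card, Fintype.card_subtype]
  let O : G → Finset G := fun w => EF.image (fun k => k * w * k⁻¹)
  have hOcard : ∀ w ∈ K, w ≠ 1 → (O w).card = e := by
    intro w hw hw1
    rw [← hEF]
    apply Finset.card_image_of_injOn
    intro k hk k' hk' h
    have hkE : k ∈ E := (Finset.mem_filter.mp (Finset.mem_coe.mp hk)).2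
    have hk'E : k' ∈ E := (Finset.mem_filter.mp (Finset.mem_coe.mp hk')).2
    have h' : k * w * k⁻¹ = k' * w * k'⁻¹ := h
    have h2 : (k'⁻¹ * k) * w = w * (k'⁻¹ * k) := by
      have e1 : (k'⁻¹ * k) * w = k'⁻¹ * (k * w * k⁻¹) * k := by group
      rw [e1, h']
      group
    have h3 := hfree (k'⁻¹ * k) (E.mul_mem (E.inv_mem hk'E) hkE) w hw hw1 h2
    exact (inv_mul_eq_one.mp h3).symm
  have hOsub : ∀ w ∈ K, w ≠ 1 → O w ⊆ KF.erase 1 := by
    intro w hw hw1 t ht
    obtain ⟨k, hk, rfl⟩ := Finset.mem_image.mp ht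
    have hkE : k ∈ E := (Finset.mem_filter.mp hk).2
    refine Finset.mem_erase.mpr ⟨?_, Finset.mem_filter.mpr ⟨Finset.mem_univ _, hKn k hkE.1 w hw⟩⟩
    intro h
    apply hw1
    have : w = k⁻¹ * (k * w * k⁻¹) * k := by group
    rw [this, h]; group
  have hOord : ∀ w : G, ∀ t ∈ O w, orderOf t = orderOf w := by
    intro w t ht
    obtain ⟨k, -, rfl⟩ := Finset.mem_image.mp ht
    rw [← MulAut.conj_apply, MulEquiv.orderOf_eq]
  have hx1 : (x : G) ≠ 1 := by
    intro h
    rw [h, orderOf_one] at hxG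
    exact hp.one_lt.ne hxG
  have hy1 : (y : G) ≠ 1 := by
    intro h
    rw [h, orderOf_one] at hyG
    exact hq.one_lt.ne hyG
  have hxy1 : (x : G) * (y : G) ≠ 1 := by
    intro h
    rw [h, orderOf_one] at hxyG
    have := Nat.mul_pos hp.pos hq.pos
    have h2 := hp.two_le
    have h3 := hq.two_le
    nlinarith
  have hxyK : (x : G) * (y : G) ∈ K := K.mul_mem x.2 y.2
  have hd1 : Disjoint (O (x : G)) (O (y : G)) := by
    rw [Finset.disjoint_left]
    intro t ht ht'
    have h1 := hOord _ t ht
    have h2 := hOord _ t ht'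
    rw [hxG] at h1
    rw [hyG] at h2
    exact hqp (h2.symm.trans h1)
  have hd2 : Disjoint (O (x : G) ∪ O (y : G)) (O ((x : G) * (y : G))) := by
    rw [Finset.disjoint_left]
    intro t ht ht'
    have h2 := hOord _ t ht'
    rw [hxyG] at h2
    rcases Finset.mem_union.mp ht with h | h
    · have h1 := hOord _ t h
      rw [hxG] at h1
      have : p * q = p * 1 := by rw [mul_one]; exact h2.symm.trans h1
      have := Nat.eq_of_mul_eq_mul_left hp.pos this
      exact hq.one_lt.ne this.symm
    · have h1 := hOord _ t h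
      rw [hyG] at h1
      have : p * q = 1 * q := by rw [one_mul]; exact h2.symm.trans h1
      have := Nat.eq_of_mul_eq_mul_right hq.pos this
      exact hp.one_lt.ne this.symm
  have hunion : (O (x : G) ∪ O (y : G) ∪ O ((x : G) * (y : G))).card = 3 * e := by
    rw [Finset.card_union_of_disjoint hd2, Finset.card_union_of_disjoint hd1,
      hOcard _ x.2 hx1, hOcard _ y.2 hy1, hOcard _ hxyK hxy1]
    ring
  have hsub : O (x : G) ∪ O (y : G) ∪ O ((x : G) * (y : G)) ⊆ KF.erase 1 :=
    Finset.union_subset (Finset.union_subset (hOsub _ x.2 hx1) (hOsub _ y.2 hy1))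
      (hOsub _ hxyK hxy1)
  have hle := Finset.card_le_card hsub
  rw [hunion, Finset.card_erase_of_mem (Finset.mem_filter.mpr ⟨Finset.mem_univ _, K.one_mem⟩),
    hKF] at hle
  omega

/-- Feit's theorem for Zassenhaus groups, modulo Feit's inequality when the two-point stabiliser
has odd order. -/
theorem main [Finite G] [Finite Ω] (hZ : Cfsg.IsZassenhausGroup G Ω)
    (hFeit : ∀ a b : Ω, a ≠ b →
      Odd (Nat.card (stabilizer G a ⊓ stabilizer G b : Subgroup G)) →
      ∀ H : Subgroup G, H ≤ stabilizer G a → Nat.card H + 1 = Nat.card Ω →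
      (∀ u ∈ H, u ≠ 1 → ∀ c : Ω, u • c = c → c = a) →
      Nat.card Ω - 2 ≤ 2 * Nat.card (stabilizer G a ⊓ stabilizer G b : Subgroup G) ∨
        IsPGroup 2 H) :
    IsPrimePow (Nat.card Ω - 1) := by
  classical
  have h3 := Cfsg.Agent.Helper15.zass_three_le_card hZ
  obtain ⟨g, -, a, b, hab, -, -⟩ := hZ.2.2.2.1
  by_cases heven : Even (Nat.card (stabilizer G a ⊓ stabilizer G b : Subgroup G))
  · exact primePow_of_bound hZ hab (even_bound hZ hab heven)
  · have hodd : Odd (Nat.card (stabilizer G a ⊓ stabilizer G b : Subgroup G)) :=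
      Nat.not_even_iff_odd.mp heven
    obtain ⟨K, hKa, hKn, hKfree, hKtr⟩ := Cfsg.Agent.Helper6.zs_kernel hZ a
    have hKle : K ≤ stabilizer G a := fun k hk => hKa k hk
    have hreg : ∀ c d : Ω, c ≠ a → d ≠ a → ∃! u : K, (u : G) • c = d := by
      intro c d hc hd
      obtain ⟨k, hk, hkc⟩ := hKtr c d hc hd
      refine ⟨⟨k, hk⟩, hkc, ?_⟩
      rintro ⟨k', hk'⟩ hk'c
      have hk'c' : k' • c = d := hk'c
      have h0 : (k⁻¹ * k') • c = c := by rw [mul_smul, hk'c', ← hkc, inv_smul_smul]
      have h1 : k⁻¹ * k' = 1 := by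
        by_contra hne
        exact hKfree _ (K.mul_mem (K.inv_mem hk) hk') hne c hc h0
      exact Subtype.ext (inv_mul_eq_one.mp h1).symm
    have hcard : Nat.card K + 1 = Nat.card Ω := ZassBraid.card_reg K hKle hreg (Ne.symm hab)
    have hfix : ∀ u ∈ K, u ≠ 1 → ∀ c : Ω, u • c = c → c = a := by
      intro u hu hu1 c hc
      by_contra hca
      exact hKfree u hu hu1 c hca hc
    rcases hFeit a b hab hodd K hKle hcard hfix with h | h
    · exact primePow_of_bound hZ hab h
    · obtain ⟨k, hk⟩ := (IsPGroup.iff_card (p := 2) (G := K)).mp h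
      have hk0 : k ≠ 0 := by
        rintro rfl
        rw [pow_zero] at hk
        omega
      have : Nat.card Ω - 1 = 2 ^ k := by omega
      rw [this]
      exact Nat.prime_two.isPrimePow.pow hk0

end Cfsg.Agent.Helper71.ZassPP
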